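import Cfsg.Agent.Sing.KDef
import Cfsg.Agent.Char.Frobenius

/-!
# The Frobenius alternative
-/

set_option autoImplicit false
set_option linter.unusedSectionVars false
set_option linter.style.haveILetI false

namespace Cfsg.Agent.Sing

open MulAction Pointwise Cfsg.Agent.Proj.CK

variable {H : Type*} [Group H] [Finite H] {S N : Subgroup H} {σ : H} {n h : ℕ}

theorem TId.gen' (D : TId S N σ n h) {g : H} (hg : g ∈ N) : ∃ s ∈ S, ∃ j < n, g = s * σ ^ j := by
  obtain ⟨s, hs, i, rfl⟩ := D.gen g hg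
  exact ⟨_, S.mul_mem hs (S.pow_mem D.pown (i / n)), i % n, Nat.mod_lt _ D.prime.pos, by
    rw [mul_assoc, ← pow_mul, ← pow_add, Nat.div_add_mod]⟩

theorem TId.cen (D : TId S N σ n h) {g s : H} (hs : s ∈ S) (h1 : s ≠ 1) (c : g * s = s * g) : g ∈ S := by
  obtain ⟨u, hu, j, hj, rfl⟩ := D.gen' (D.ti g s hs h1 (by rwa [c, mul_inv_cancel_right]))
  rcases j.eq_zero_or_pos with rfl | h0
  · simpa using hu
  · exact absurd (D.fpf j h0 hj s hs (mul_left_cancel (a := u) (by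
      rw [← mul_assoc, c, ← mul_assoc, ← mul_assoc, D.comm s hs u hu]))) h1

theorem TId.frattini (D : TId S N σ n h) : N ⊔ Subgroup.normalClosure (S : Set H) = ⊤ := by
  obtain ⟨r, hr, hd⟩ := Nat.exists_prime_and_dvd (n := h) (by have := D.big; have := D.prime.pos; nlinarith)
  have := Fact.mk hr
  obtain ⟨s, o⟩ := exists_prime_orderOf_dvd_card' (G := S) r (D.card ▸ hd)
  have s1 : s.1 ≠ 1 := fun e => hr.ne_one (o ▸ orderOf_eq_one_iff.2 (Subtype.ext e))
  let s' : Subgroup.normalClosure (S : Set H) := ⟨s, Subgroup.le_normalClosure s.2⟩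
  obtain ⟨T, hT⟩ := IsPGroup.exists_le_sylow (P := Subgroup.zpowers s') (p := r) (IsPGroup.of_card (n := 1) (by
    rw [Nat.card_zpowers, ← Subgroup.orderOf_coe, pow_one, ← o, ← Subgroup.orderOf_coe]))
  have hs := hT (Subgroup.mem_zpowers s')
  have : Nontrivial T := ⟨⟨s', hs⟩, 1, fun e => s1 (congrArg (fun x => x.1.1) e)⟩
  obtain ⟨⟨z, hz⟩, z1⟩ := @exists_ne _ T.isPGroup'.center_nontrivial 1
  have c : ∀ t : T, t.1.1 * z.1.1 = z.1.1 * t.1.1 := fun t => congrArg (fun x => x.1.1) (Subgroup.mem_center_iff.1 hz t)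
  have zS := D.cen s.2 s1 (c ⟨s', hs⟩).symm
  refine top_le_iff.1 ((Sylow.normalizer_sup_eq_top T).ge.trans (sup_le_sup_right (fun g hg => ?_) _))
  obtain ⟨t, ht, e⟩ := (Subgroup.mem_normalizer_iff.1 hg s).1 ⟨s', hs, rfl⟩
  exact D.ti g s s.2 s1 (e ▸ D.cen zS (fun e => z1 (Subtype.ext (Subtype.ext (Subtype.ext e)))) (c ⟨t, ht⟩))

/-- the Frobenius alternative -/
theorem TId.dich (D : TId S N σ n h) {P : Type*} [MulAction H P]
    (hsr : ∀ s ∈ S, ∀ p : P, s • p = p → s = 1) :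
    Subgroup.normalClosure (S : Set H) = ⊤ ∨ CII S N (Set.univ : Set P) := by
  have fr := D.frattini
  have SL : S ≤ Subgroup.normalClosure (S : Set H) := Subgroup.le_normalClosure
  have nL : (Subgroup.normalClosure (S : Set H)).Normal := inferInstance
  generalize Subgroup.normalClosure (S : Set H) = L at fr SL nL
  by_cases k : ∀ g ∈ L, g ∈ N → g ∈ S
  · obtain ⟨R, e, -, hc⟩ := Cfsg.Agent.Char.exists_frobenius_kernel (H := S.subgroupOf L) fun g hg t ht e =>
      by_contra fun t1 => hg (k g g.2 (D.ti g t ht (fun e => t1 (Subtype.ext e)) e))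
    have m : ∀ x : L, x ∈ R ↔ x = 1 ∨ ∀ g : L, g.1 * x * g.1⁻¹ ∉ S := fun x => by
      rw [← SetLike.mem_coe, e, Cfsg.Agent.Char.mem_frobeniusKernel_iff]; rfl
    refine Or.inr ⟨R.map L.subtype, ?_, fun g => ?_, ?_⟩
    · rintro g hg _ ⟨r, hr, rfl⟩
      refine ⟨⟨_, nL.conj_mem _ r.2 g⟩, (m _).2 (((m r).1 hr).imp (fun e => Subtype.ext (by simp [e]))
        fun e l hl => e ⟨_, nL.conj_mem _ l.2 g⁻¹⟩ ?_), rfl⟩
      simpa [mul_assoc] using D.norm _ (N.inv_mem hg) _ hl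
    · obtain ⟨l, hl, u, hu, rfl⟩ : g ∈ (L : Set H) * (N : Set H) := by
        rw [← Subgroup.normal_mul, sup_comm, fr]; trivial
      obtain ⟨⟨r, s⟩, e'⟩ := hc.2 ⟨l, hl⟩
      exact ⟨_, ⟨r, r.2, rfl⟩, _, N.mul_mem (D.le s.2) hu, by
        rw [← mul_assoc]; exact congrArg (· * u) (congrArg Subtype.val e').symm⟩
    · rintro _ ⟨r, hr, rfl⟩ s hs p - e'
      by_cases s1 : s = 1
      · rw [e', s1, one_smul]
      have x : r⁻¹ * ⟨s, SL hs⟩ ∉ R := fun x => (((m _).1 ((R.mul_mem_cancel_left (R.inv_mem hr)).1 x)).elim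
        (fun e => s1 (congrArg Subtype.val e)) fun e => e 1 (by simpa using hs))
      rw [m, not_or, not_forall] at x
      obtain ⟨x1, l, hl⟩ := x
      have := hsr _ (not_not.1 hl) (l.1 • p) (by
        rw [mul_smul, mul_smul, inv_smul_smul, Subgroup.coe_mul, mul_smul, ← e']; simp)
      exact absurd (Subtype.ext (by simpa using this)) x1
  · push Not at k
    obtain ⟨g, gL, gN, gS⟩ := k
    obtain ⟨s, hs, j, hj, rfl⟩ := D.gen' gN
    have j0 : j ≠ 0 := by rintro rfl; exact gS (by simpa using hs)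
    have c : Nat.gcd n j = 1 := (Nat.coprime_of_lt_prime j0 hj D.prime)
    have σL : σ ∈ L := by
      have := L.mul_mem (L.zpow_mem (SL D.pown) (Nat.gcdA n j))
        (L.zpow_mem ((L.mul_mem_cancel_left (SL hs)).1 gL) (Nat.gcdB n j))
      rwa [← zpow_natCast, ← zpow_natCast, ← zpow_mul, ← zpow_mul, ← zpow_add, ← Nat.gcd_eq_gcd_ab, c, Nat.cast_one,
        zpow_one] at this
    refine Or.inl (top_le_iff.1 (fr.ge.trans (sup_le (fun g hg => ?_) le_rfl)))
    obtain ⟨s, hs, i, rfl⟩ := D.gen g hg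
    exact L.mul_mem (SL hs) (L.pow_mem σL i)

end Cfsg.Agent.Sing
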