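import Cfsg.Agent.Sing.ChB
import Cfsg.Agent.Sing.ChS

/-!
# Passing to the quotient by the scalars
-/

set_option autoImplicit false
set_option linter.unusedSectionVars false
set_option linter.style.haveILetI false

namespace Cfsg.Agent.Sing

open MulAction Pointwise Cfsg.Agent.Proj.CK

theorem TIZ.tid {G H : Type*} [Group G] [Finite G] [Group H] {Z S N : Subgroup G} {σ : G} {n h : ℕ}
    (D : TIZ Z S N σ n h) {f : G →* H} (hf : Function.Surjective f) (hk : f.ker = Z) :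
    TId (S.map f) (N.map f) (f σ) n h where
  prime := D.prime
  big := D.big
  comm := by rintro _ ⟨a, ha, rfl⟩ _ ⟨b, hb, rfl⟩; rw [← map_mul, D.comm a ha b hb, map_mul]
  card := by
    have := (Z.subgroupOf S).card_mul_index
    rw [Nat.card_congr (Subgroup.subgroupOfEquivOfLe D.leZ).toEquiv, D.card, mul_comm h] at this
    rw [← Subgroup.relIndex_ker, hk]
    exact Nat.eq_of_mul_eq_mul_left Nat.card_pos this
  le := Subgroup.map_mono D.le
  σN := ⟨σ, D.σN, rfl⟩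
  pown := ⟨_, D.pown, map_pow f σ n⟩
  gen := by
    rintro _ ⟨g, hg, rfl⟩
    obtain ⟨s, hs, i, rfl⟩ := D.gen g hg
    exact ⟨_, ⟨s, hs, rfl⟩, i, by rw [map_mul, map_pow]⟩
  norm := by rintro _ ⟨g, hg, rfl⟩ _ ⟨s, hs, rfl⟩; exact ⟨_, D.norm g hg s hs, by simp⟩
  ti := by
    rintro g _ ⟨s, hs, rfl⟩ h1 e
    obtain ⟨g, rfl⟩ := hf g
    refine ⟨g, D.ti g s hs (fun z => h1 (by rwa [← hk] at z)) ?_, rfl⟩
    rw [← Subgroup.comap_map_eq_self (f := f) (H := S) (hk ▸ D.leZ)]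
    simpa using e
  fpf := by
    rintro i h0 hi _ ⟨s, hs, rfl⟩ e
    rw [← MonoidHom.mem_ker, hk]
    exact D.fpf i h0 hi s hs (by rw [← hk, MonoidHom.mem_ker]; simp [e])

/-- passing to `G ⧸ Z` -/
theorem TIZ.dich {G : Type*} [Group G] [Finite G] {Z S N : Subgroup G} {σ : G} {n h : ℕ}
    (D : TIZ Z S N σ n h) {α : Type*} [MulAction G α] {P : Set α} (hf : P.Finite)
    (hi : Inv (⊤ : Subgroup G) P) (hP : P.ncard ≤ n * h) (hZ : ∀ z ∈ Z, ∀ p ∈ P, z • p = p)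
    (hsr : ∀ s ∈ S, ∀ p ∈ P, s • p = p → s ∈ Z) : CI Z S P n ∨ CII S N P := by
  have := D.nZ
  letI : MulAction G P :=
    { smul := fun g p => ⟨g • p.1, hi g trivial p p.2⟩
      one_smul := fun p => Subtype.ext (one_smul _ _)
      mul_smul := fun a b p => Subtype.ext (mul_smul _ _ _) }
  letI : MulAction (G ⧸ Z) P := MulAction.compHom P (QuotientGroup.lift Z (toPermHom G P)
    fun z hz => Equiv.ext fun p => Subtype.ext (hZ z hz p p.2))
  have k : ∀ (g : G) (p : P), ((QuotientGroup.mk' Z g • p : P) : α) = g • p.1 := fun _ _ => rfl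
  have sj := QuotientGroup.mk'_surjective Z
  have hk := QuotientGroup.ker_mk' Z
  generalize QuotientGroup.mk' Z = f at k sj hk
  have T := D.tid sj hk
  have : Finite P := hf
  have hs : ∀ s ∈ S.map f, ∀ p : P, s • p = p → s = 1 := by
    rintro _ ⟨s, hs, rfl⟩ p e
    rw [← MonoidHom.mem_ker, hk]
    exact hsr s hs p p.2 ((k s p).symm.trans (congrArg Subtype.val e))
  rcases T.dich hs with e | ⟨R, r1, r2, r3⟩
  · have C := T.ci e hP hs
    have nz : ∀ s, s ∉ Z → f s ∉ (⊥ : Subgroup (G ⧸ Z)) := fun s h1 h2 => h1 (hk ▸ h2)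
    have e1 : ∀ (s : G) (y z : P), Nn s y.1 z.1 = Nn (f s) y z := fun s y z => by
      rw [Nn, Nn, ← Set.ncard_image_of_injective _ Subtype.val_injective]
      congr 1
      ext w
      constructor
      · rintro ⟨g, rfl, e⟩
        exact ⟨f g • y, ⟨f g, rfl, Subtype.ext (by rw [k, k, k, e])⟩, k g y⟩
      · rintro ⟨_, ⟨g, rfl, e⟩, rfl⟩
        obtain ⟨g, rfl⟩ := sj g
        exact ⟨g, (k g y).symm, by rw [← k, e, k]⟩
    have e2 : ∀ y z : P, (orb (stabilizer G y.1) z.1).ncard = (orb (stabilizer (G ⧸ Z) y) z).ncard := fun y z => by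
      rw [← Set.ncard_image_of_injective _ Subtype.val_injective]
      congr 1
      ext w
      constructor
      · rintro ⟨g, e, rfl⟩
        exact ⟨f g • z, ⟨f g, Subtype.ext ((k g y).trans e), rfl⟩, k g z⟩
      · rintro ⟨_, ⟨g, e, rfl⟩, rfl⟩
        obtain ⟨g, rfl⟩ := sj g
        exact ⟨g, (k g y).symm.trans (congrArg Subtype.val e), (k g z).symm⟩
    refine Or.inl ⟨fun s hs s1 t ht t1 y hy z hz => ?_, fun s hs s1 y hy z ⟨g, _, e⟩ => ?_⟩
    · exact (e1 s ⟨y, hy⟩ ⟨z, hz⟩).trans ((C.c1 _ ⟨s, hs, rfl⟩ (nz s s1) _ ⟨t, ht, rfl⟩ (nz t t1) _ trivial _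
        trivial).trans (e1 t ⟨y, hy⟩ ⟨z, hz⟩).symm)
    · have := C.c2 _ ⟨s, hs, rfl⟩ (nz s s1) ⟨y, hy⟩ trivial _ ⟨f g, trivial, rfl⟩
      rwa [← e1, ← e2, k, e] at this
  · refine Or.inr ⟨R.comap f, fun g hg r hr => by simpa using r1 _ ⟨g, hg, rfl⟩ _ hr, fun g => ?_,
      fun r hr s hs p hp e => ?_⟩
    · obtain ⟨r, hr, _, ⟨u, hu, rfl⟩, e⟩ := r2 (f g)
      exact ⟨g * u⁻¹, by simpa [e] using hr, u, hu, by simp⟩
    · exact (k r ⟨p, hp⟩).symm.trans (congrArg Subtype.val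
        (r3 _ hr _ ⟨s, hs, rfl⟩ ⟨p, hp⟩ trivial (Subtype.ext (by rw [k, k, e]))))

end Cfsg.Agent.Sing
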