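import Cfsg.Agent.Sing.KDef

/-!
# Line stabilisers: two lemmas on subgroups of `PGL₂(q)`
-/

set_option autoImplicit false
set_option linter.unusedSectionVars false
set_option linter.style.haveILetI false

namespace Cfsg.Agent.Sing

open MulAction Pointwise Cfsg.Agent.Proj.CK

variable {F G V : Type*} [Field F] [Group G] [AddCommGroup V] [Module F V] [DistribMulAction G V]
  [SMulCommClass G F V] [Finite F] [Finite V] [Finite G] {σ : G} {n : ℕ} {ν : V → F}

namespace G2a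

theorem coord {a b : V} (ha : a ≠ 0) (hb : b ∉ (F ∙ a)) {s t s' t' : F}
    (h : s • a + t • b = s' • a + t' • b) : s = s' ∧ t = t' := by
  have e : t = t' := by
    by_contra k
    refine hb (mem_pt.2 ⟨(t - t')⁻¹ * (s' - s), ?_⟩)
    rw [mul_smul, inv_smul_eq_iff₀ (sub_ne_zero.2 k)]
    linear_combination (norm := module) -h
  subst e
  exact ⟨smul_left_injective F ha (add_right_cancel h), rfl⟩

theorem scal {a b : V} {g : G} {c : F} (h1 : g • a = c • a) (h2 : g • b = c • b) :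
    g ∈ Dl G (pl F a b) := mem_Dl.2 fun v hv => by
  obtain ⟨s, t, rfl⟩ := mem_pl.1 hv
  refine mem_ps_of_mem (mem_pt.2 ⟨c, ?_⟩)
  rw [smul_add g, smul_comm g s, smul_comm g t, h1, h2]
  module

theorem nz {a b y : V} (hy : y ∈ pl F a b) (hya : y ∉ (F ∙ a)) (hyb : y ∉ (F ∙ b)) :
    ∃ s t : F, s ≠ 0 ∧ t ≠ 0 ∧ y = s • a + t • b := by
  obtain ⟨s, t, rfl⟩ := mem_pl.1 hy
  refine ⟨s, t, ?_, ?_, rfl⟩ <;> rintro rfl
  · exact hyb (by simpa using smul_mem_pt t b)
  · exact hya (by simpa using smul_mem_pt s a)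

theorem pow_smul {a : V} {α : F} (h : σ • a = α • a) (i : ℕ) : σ ^ i • a = α ^ i • a := by
  induction i with
  | zero => simp
  | succ i ih => rw [pow_succ, mul_smul, h, smul_comm, ih, smul_smul, pow_succ']

theorem pt_inj {a b : V} (ha : a ≠ 0) (hb : b ∉ (F ∙ a)) {s t : F}
    (h : (F ∙ (b + s • a)) = F ∙ (b + t • a)) : s = t := by
  obtain ⟨c, -, e⟩ := pt_eq_iff.1 h
  obtain ⟨e1, e2⟩ := coord ha hb (s := c * s) (t := c) (s' := t) (t' := 1)
    (by linear_combination (norm := module) e)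
  rw [← e1, e2, one_mul]

/-- sum of the stabiliser orders along an orbit -/
theorem sum_stab {α : Type*} [MulAction G α] (L : Subgroup G) (z : α) :
    ∑ p ∈ (orb_finite L z).toFinset, Nat.card ↥(L ⊓ stabilizer G p) = Nat.card L := by
  apply Nat.eq_of_mul_eq_mul_left (ncard_orb_pos L z)
  rw [Finset.mul_sum, Finset.sum_congr rfl (g := fun _ => Nat.card L), Finset.sum_const,
    smul_eq_mul, Set.ncard_eq_toFinset_card _ (orb_finite L z)]
  intro p hp
  rw [← orb_eq_of_mem ((Set.Finite.mem_toFinset _).1 hp), ncard_orb_mul]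

theorem rh {α : Type*} [MulAction G α] {L K : Subgroup G} {a b c : α} (hab : b ∉ orb L a)
    (hac : c ∉ orb L a) (hbc : c ∉ orb L b)
    (h : ∀ g ∈ L, ∀ p ∈ orb L a ∪ orb L b ∪ orb L c, ∀ q ∈ orb L a ∪ orb L b ∪ orb L c,
      ∀ r ∈ orb L a ∪ orb L b ∪ orb L c, p ≠ q → p ≠ r → q ≠ r → g • p = p → g • q = q →
      g • r = r → g ∈ K) :
    Nat.card L ≤ Nat.card K * ((orb L a).ncard + (orb L b).ncard + (orb L c).ncard) := by
  classical
  have := Fintype.ofFinite G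
  have dj : ∀ {x y : α}, y ∉ orb L x →
      Disjoint (orb_finite L x).toFinset (orb_finite L y).toFinset := fun {x y} k =>
    Finset.disjoint_left.2 fun p h1 h2 => k (orb_trans ((Set.Finite.mem_toFinset _).1 h1)
      (orb_symm ((Set.Finite.mem_toFinset _).1 h2)))
  have cd : ∀ X : Subgroup G, (Finset.univ.filter (· ∈ X)).card = Nat.card X := fun X => by
    rw [Nat.card_eq_fintype_card, Fintype.card_subtype]
  have d3 := Finset.disjoint_union_left.2 ⟨dj hac, dj hbc⟩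
  have key := Finset.sum_card_bipartiteAbove_eq_sum_card_bipartiteBelow
    (s := Finset.univ.filter (· ∈ L))
    (t := (orb_finite L a).toFinset ∪ (orb_finite L b).toFinset ∪ (orb_finite L c).toFinset)
    (fun g p => g • p = p)
  have e1 : ∀ p : α, ((Finset.univ.filter (· ∈ L)).bipartiteBelow (fun g p => g • p = p) p).card =
      Nat.card ↥(L ⊓ stabilizer G p) := fun p => by
    rw [← cd]
    congr 1
    ext g
    simp [Finset.bipartiteBelow]
  simp only [e1] at key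
  rw [Finset.sum_union d3, Finset.sum_union (dj hab), sum_stab, sum_stab, sum_stab] at key
  have cO : ((orb_finite L a).toFinset ∪ (orb_finite L b).toFinset ∪
      (orb_finite L c).toFinset).card = (orb L a).ncard + (orb L b).ncard + (orb L c).ncard := by
    rw [Finset.card_union_of_disjoint d3, Finset.card_union_of_disjoint (dj hab),
      Set.ncard_eq_toFinset_card _ (orb_finite L a), Set.ncard_eq_toFinset_card _ (orb_finite L b),
      Set.ncard_eq_toFinset_card _ (orb_finite L c)]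
  have mO : ∀ p ∈ (orb_finite L a).toFinset ∪ (orb_finite L b).toFinset ∪
      (orb_finite L c).toFinset, p ∈ orb L a ∪ orb L b ∪ orb L c := fun p hp => by
    simpa [or_assoc] using hp
  rw [← cO]
  generalize (orb_finite L a).toFinset ∪ (orb_finite L b).toFinset ∪
      (orb_finite L c).toFinset = O at key mO
  have le : ∑ g ∈ Finset.univ.filter (· ∈ L), (O.bipartiteAbove (fun g p => g • p = p) g).card ≤
      ∑ g ∈ Finset.univ.filter (· ∈ L), ((if g ∈ K then O.card else 0) + 2) :=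
    Finset.sum_le_sum fun g hg => by
      split_ifs with k
      · exact (Finset.card_filter_le _ _).trans (Nat.le_add_right _ _)
      · by_contra! k'
        obtain ⟨p, q, r, hp, hq, hr, h1, h2, h3⟩ := Finset.two_lt_card_iff.1 k'
        simp only [Finset.mem_bipartiteAbove] at hp hq hr
        exact k (h g (by simpa using hg) p (mO p hp.1) q (mO q hq.1) r (mO r hr.1) h1 h2 h3
          hp.2 hq.2 hr.2)
  rw [key, Finset.sum_add_distrib, Finset.sum_const, cd, ← Finset.sum_filter, Finset.sum_const,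
    smul_eq_mul, smul_eq_mul] at le
  have : ((Finset.univ.filter (· ∈ L)).filter (· ∈ K)).card ≤ Nat.card K := by
    rw [← cd]
    exact Finset.card_le_card fun g hg => by simpa using (Finset.mem_filter.1 hg).2
  have := Nat.mul_le_mul_right O.card this
  omega

/-- `g` acts on the points `b + t a` as `t ↦ l t + γ` -/
def Af (a b : V) (g : G) (l γ : F) : Prop :=
  ∃ c : F, c ≠ 0 ∧ l ≠ 0 ∧ g • a = (c * l) • a ∧ g • b = c • (b + γ • a)

variable {a b : V} {g g' : G} {l l' γ γ' : F}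

theorem Af.one : Af a b (1 : G) (1 : F) 0 := ⟨1, one_ne_zero, one_ne_zero, by simp, by simp⟩

theorem Af.mul (h : Af a b g l γ) (h' : Af a b g' l' γ') :
    Af a b (g * g') (l * l') (l * γ' + γ) := by
  obtain ⟨c, c0, l0, e1, e2⟩ := h
  obtain ⟨c', c0', l0', e1', e2'⟩ := h'
  refine ⟨c * c', mul_ne_zero c0 c0', mul_ne_zero l0 l0', ?_, ?_⟩
  · rw [mul_smul, e1', smul_comm g, e1]; module
  · rw [mul_smul, e2', smul_comm g, smul_add g, smul_comm g, e1, e2]; module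

theorem Af.inv (h : Af a b g l γ) : Af a b g⁻¹ l⁻¹ (-(l⁻¹ * γ)) := by
  obtain ⟨c, c0, l0, e1, e2⟩ := h
  refine ⟨c⁻¹, inv_ne_zero c0, inv_ne_zero l0, ?_, ?_⟩
  · rw [inv_smul_eq_iff, smul_comm g, e1, smul_smul]
    field_simp
    simp
  · rw [inv_smul_eq_iff, smul_comm g, smul_add g, smul_comm g, e1, e2]
    match_scalars <;> field_simp
    ring

theorem Af.pt (h : Af a b g l γ) (t : F) :
    g • (F ∙ (b + t • a)) = F ∙ (b + (l * t + γ) • a) := by
  obtain ⟨c, c0, -, e1, e2⟩ := h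
  rw [smul_pt, ← pt_smul c0 (b + (l * t + γ) • a), smul_add g, smul_comm g, e1, e2]
  congr 2
  module

theorem Af.mem (h : Af a b g l γ) : g ∈ ps F G a ⊓ stabilizer G (pl F a b) := by
  obtain ⟨c, c0, l0, e1, e2⟩ := h
  exact ⟨mem_ps.2 ⟨_, mul_ne_zero c0 l0, e1⟩, smul_pl_eq (mem_pl.2 ⟨c * l, 0, by rw [e1]; module⟩)
    (mem_pl.2 ⟨c * γ, c, by rw [e2]; module⟩)⟩

theorem exists_af (hb : b ∉ (F ∙ a)) (hg : g ∈ ps F G a ⊓ stabilizer G (pl F a b)) :
    ∃ l γ : F, Af a b g l γ := by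
  obtain ⟨μ, μ0, e1⟩ := mem_ps.1 hg.1
  obtain ⟨s, c, e2⟩ := mem_pl.1 (stab_mem hg.2 (right_mem_pl a b))
  have c0 : c ≠ 0 := by
    rintro rfl
    exact smul_not_mem hg.1 hb (e2 ▸ by simpa using smul_mem_pt s a)
  refine ⟨c⁻¹ * μ, c⁻¹ * s, c, c0, mul_ne_zero (inv_ne_zero c0) μ0, ?_, ?_⟩
  · rw [e1, mul_inv_cancel_left₀ c0]
  · rw [← e2]
    match_scalars <;> field_simp

variable (F G a b) in
/-- the translations that occur -/
def WW : AddSubgroup F where
  carrier := {γ | ∃ g : G, Af a b g (1 : F) γ}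
  zero_mem' := ⟨1, Af.one⟩
  add_mem' := fun ⟨g, h⟩ ⟨g', h'⟩ => ⟨g' * g, by simpa using h'.mul h⟩
  neg_mem' := fun ⟨g, h⟩ => ⟨g⁻¹, by simpa using h.inv⟩

theorem Af.conj (h : Af a b g l γ) {w : F} (hw : w ∈ WW F G a b) : l * w ∈ WW F G a b := by
  obtain ⟨k, hk⟩ := hw
  have l0 := h.choose_spec.2.1
  refine ⟨g * k * g⁻¹, ?_⟩
  convert (h.mul hk).mul h.inv using 1 <;> field_simp
  ring

theorem Af.canc (h : Af a b g l γ) (h1 : l ≠ 1) {t : F} (ht : (1 - l) * t ∈ WW F G a b) :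
    t ∈ WW F G a b := by
  have l0 : 1 - l ≠ 0 := sub_ne_zero.2 h1.symm
  let f : WW F G a b → WW F G a b := fun w =>
    ⟨(1 - l) * w, by rw [sub_mul, one_mul]; exact sub_mem w.2 (h.conj w.2)⟩
  obtain ⟨w, hw⟩ := Finite.surjective_of_injective (f := f)
    (fun x y e => Subtype.ext (mul_left_cancel₀ l0 (congrArg Subtype.val e))) ⟨_, ht⟩
  exact mul_left_cancel₀ l0 (congrArg Subtype.val hw) ▸ w.2

theorem Af.memW {ω : F} (hσ : Af a b σ ω 0) (h1 : ω ≠ 1) (h : Af a b g l γ) :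
    γ ∈ WW F G a b := by
  have l0 := h.choose_spec.2.1
  have ω0 := hσ.choose_spec.2.1
  refine hσ.canc h1 ⟨g * σ * g⁻¹ * σ⁻¹, ?_⟩
  convert ((h.mul hσ).mul h.inv).mul hσ.inv using 1 <;> field_simp
  ring

theorem Af.pow {ω : F} (hσ : Af a b σ ω 0) (i : ℕ) : Af a b (σ ^ i) (ω ^ i) 0 := by
  induction i with
  | zero => simpa using Af.one
  | succ i ih => simpa [pow_succ] using ih.mul hσ

end G2a

open G2a

/-- an element fixing three points of a line fixes all of them -/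
theorem mem_Dl_of_three {x y : V} {g : G} {a b c : V} (ha : a ∈ pl F x y) (hb : b ∈ pl F x y)
    (hc : c ∈ pl F x y) (a0 : a ≠ 0) (hba : b ∉ (F ∙ a)) (hca : c ∉ (F ∙ a)) (hcb : c ∉ (F ∙ b))
    (h1 : g ∈ ps F G a) (h2 : g ∈ ps F G b) (h3 : g ∈ ps F G c) : g ∈ Dl G (pl F x y) := by
  rw [← pl_eq_of_mem ha hb a0 hba] at hc ⊢
  obtain ⟨s, t, s0, t0, rfl⟩ := nz hc hca hcb
  obtain ⟨α, -, e1⟩ := mem_ps.1 h1
  obtain ⟨β, -, e2⟩ := mem_ps.1 h2
  obtain ⟨γ, -, e3⟩ := mem_ps.1 h3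
  rw [smul_add g, smul_comm g s, smul_comm g t, e1, e2] at e3
  obtain ⟨k1, k2⟩ := coord a0 hba (s := s * α) (t := t * β) (s' := s * γ) (t' := t * γ)
    (by linear_combination (norm := module) e3)
  exact scal (mul_left_cancel₀ s0 k1 ▸ e1) (mul_left_cancel₀ t0 k2 ▸ e2)

/-- the points `F∙(b + ω^i t a)`, `i < n`, are distinct -/
theorem le_ncard_orb {a b : V} {α β : F} (ha : a ≠ 0) (hb : b ∉ (F ∙ a)) (h1 : σ • a = α • a)
    (h2 : σ • b = β • b) (hω : IsPrimitiveRoot (α / β) n) (hn : 0 < n) {A : Subgroup G}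
    (hσ : σ ∈ A) {y : V} (hy : y ∈ pl F a b) (hya : y ∉ (F ∙ a)) (hyb : y ∉ (F ∙ b)) :
    n ≤ (orb A (F ∙ y)).ncard := by
  obtain ⟨s, t, s0, t0, rfl⟩ := nz hy hya hyb
  have β0 : β ≠ 0 := by
    rintro rfl
    exact smul_ne0 (g := σ) (ne0_of_not_mem hb) (by rw [h2, zero_smul])
  have := Set.ncard_le_ncard_of_injOn (s := Set.Iio n) (t := orb A (F ∙ (s • a + t • b)))
    (fun i => σ ^ i • (F ∙ (s • a + t • b))) (fun i _ => ⟨σ ^ i, pow_mem hσ i, rfl⟩)
    (fun i hi j hj e => ?_) (orb_finite _ _)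
  · simpa using this
  simp only [smul_pt, smul_add, smul_comm (σ ^ _), G2a.pow_smul h1, G2a.pow_smul h2] at e
  obtain ⟨c, -, e⟩ := pt_eq_iff.1 e
  obtain ⟨k1, k2⟩ := coord ha hb (s := s * (c * α ^ i)) (t := t * (c * β ^ i)) (s' := s * α ^ j)
    (t' := t * β ^ j) (by linear_combination (norm := module) e)
  refine hω.pow_inj hi hj ?_
  rw [div_pow, div_pow, ← mul_left_cancel₀ s0 k1, ← mul_left_cancel₀ t0 k2, mul_div_mul_left]
  rintro rfl
  exact pow_ne_zero j β0 (by rw [← mul_left_cancel₀ t0 k2, zero_mul])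

/-- Riemann–Hurwitz for three orbits.  `L = stab ℓ`, `L0 = Dl ℓ`, `O_i` the orbits.  Count pairs
`(g, p)`, `g ∈ L \ L0`, `p ∈ O₁ ∪ O₂ ∪ O₃`, `g p = p`: each `g` fixes `≤ 2` points
(`mem_Dl_of_three`), all stabilisers along an orbit have the same order, so
`∑ |O_i| (|L_i| - |L0|) ≤ 2 (|L| - |L0|)`, `|O_i| |L_i| = |L|`; hence
`|L| < |L0| ∑ |O_i| ≤ |L| (1/5 + 1/5 + 1/2)`. -/
theorem rh3 {x y a b c : V} (ha : a ∈ pl F x y) (hb : b ∈ pl F x y) (hc : c ∈ pl F x y)
    (a0 : a ≠ 0) (b0 : b ≠ 0) (c0 : c ≠ 0)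
    (hab : (F ∙ b) ∉ orb (stabilizer G (pl F x y)) (F ∙ a))
    (hac : (F ∙ c) ∉ orb (stabilizer G (pl F x y)) (F ∙ a))
    (hbc : (F ∙ c) ∉ orb (stabilizer G (pl F x y)) (F ∙ b))
    (h1 : 5 * Nat.card (Dl G (pl F x y)) ≤ Nat.card ↥(stabilizer G (pl F x y) ⊓ ps F G a))
    (h2 : 5 * Nat.card (Dl G (pl F x y)) ≤ Nat.card ↥(stabilizer G (pl F x y) ⊓ ps F G b))
    (h3 : 2 * Nat.card (Dl G (pl F x y)) ≤ Nat.card ↥(stabilizer G (pl F x y) ⊓ ps F G c)) :
    False := by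
  have pt : ∀ p ∈ orb (stabilizer G (pl F x y)) (F ∙ a) ∪ orb (stabilizer G (pl F x y)) (F ∙ b) ∪
      orb (stabilizer G (pl F x y)) (F ∙ c), ∃ v ∈ pl F x y, v ≠ 0 ∧ (F ∙ v) = p := by
    rintro p ((⟨g, hg, rfl⟩ | ⟨g, hg, rfl⟩) | ⟨g, hg, rfl⟩)
    · exact ⟨_, stab_mem hg ha, smul_ne0 a0, (smul_pt _ _).symm⟩
    · exact ⟨_, stab_mem hg hb, smul_ne0 b0, (smul_pt _ _).symm⟩
    · exact ⟨_, stab_mem hg hc, smul_ne0 c0, (smul_pt _ _).symm⟩
  have key := rh (K := Dl G (pl F x y)) hab hac hbc fun g hg p hp q hq r hr e1 e2 e3 f1 f2 f3 => by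
    obtain ⟨u, hu, u0, rfl⟩ := pt p hp
    obtain ⟨v, hv, v0, rfl⟩ := pt q hq
    obtain ⟨w, hw, w0, rfl⟩ := pt r hr
    exact mem_Dl_of_three hu hv hw u0 (fun k => e1 (pt_eq_of_mem v0 k).symm)
      (fun k => e2 (pt_eq_of_mem w0 k).symm) (fun k => e3 (pt_eq_of_mem w0 k).symm) f1 f2 f3
  have o1 := ncard_orb_mul (stabilizer G (pl F x y)) (F ∙ a)
  have o2 := ncard_orb_mul (stabilizer G (pl F x y)) (F ∙ b)
  have o3 := ncard_orb_mul (stabilizer G (pl F x y)) (F ∙ c)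
  have p1 := (Nat.mul_le_mul_left _ h1).trans o1.le
  have p2 := (Nat.mul_le_mul_left _ h2).trans o2.le
  have p3 := (Nat.mul_le_mul_left _ h3).trans o3.le
  have : 0 < Nat.card (stabilizer G (pl F x y)) := Nat.card_pos
  nlinarith

/-- `A = ps a ⊓ stab ℓ` acts on the points `y_t = F∙(b + t a)` by affine maps `t ↦ λ t + γ`
(`g a = c λ a`, `g b = c (b + γ a)`); `σ` is `t ↦ ω t`.  `W` = the `γ` occurring with `λ = 1`.
Conjugation: `λ W ⊆ W` for each `(λ, γ)` that occurs, so `(1 - λ) W = W` if `λ ≠ 1` (injective on a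
finite set); the commutator `g σ g⁻¹ σ⁻¹` is the translation by `(1 - ω) γ`, so `γ ∈ W`.
`|W| ≡ 1 mod n` or directly: `0, ω^i γ` are `n + 1` elements.  For `t ∉ W` the cosets `ω^i t + W`
are disjoint; `λ t + γ = t` with `λ ≠ 1` would give `t ∈ W`. -/
theorem exists_W {a b : V} {α β : F} (ha : a ≠ 0) (hb : b ∉ (F ∙ a)) (h1 : σ • a = α • a)
    (h2 : σ • b = β • b) (hω : IsPrimitiveRoot (α / β) n) (hn : 1 < n) :
    ∃ W : AddSubgroup F,
      orb (ps F G a ⊓ stabilizer G (pl F a b)) (F ∙ b) = (fun t : F => F ∙ (b + t • a)) '' W ∧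
      (W = ⊥ ∨ n + 1 ≤ Nat.card W) ∧
      (∀ t ∉ W, n * Nat.card W ≤
        (orb (ps F G a ⊓ stabilizer G (pl F a b)) (F ∙ (b + t • a))).ncard) ∧
      ∀ t ∉ W, ∀ g ∈ ps F G a ⊓ stabilizer G (pl F a b), g ∈ ps F G (b + t • a) →
        g ∈ Dl G (pl F a b) := by
  have β0 : β ≠ 0 := by
    rintro rfl
    exact smul_ne0 (g := σ) (ne0_of_not_mem hb) (by rw [h2, zero_smul])
  have ω0 := hω.ne_zero (by omega)
  have ω1 := hω.ne_one hn
  have hσ : Af a b σ (α / β) 0 := ⟨β, β0, ω0, by rw [h1, mul_div_cancel₀ _ β0], by simpa using h2⟩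
  generalize α / β = ω at *
  refine ⟨WW F G a b, Set.ext fun p => ⟨?_, ?_⟩, ?_, fun t ht => ?_, fun t ht g hg h => ?_⟩
  · rintro ⟨g, hg, rfl⟩
    obtain ⟨l, γ, k⟩ := exists_af hb hg
    exact ⟨γ, hσ.memW ω1 k, by simpa using (k.pt 0).symm⟩
  · rintro ⟨γ, ⟨g, k⟩, rfl⟩
    exact ⟨g, k.mem, by simpa using k.pt 0⟩
  · refine or_iff_not_imp_left.2 fun k => ?_
    obtain ⟨⟨γ, hγ⟩, γ0⟩ := AddSubgroup.ne_bot_iff_exists_ne_zero.1 k
    have γ0 : γ ≠ 0 := fun e => γ0 (Subtype.ext e)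
    have := Nat.card_le_card_of_injective (fun i : Option (Fin n) =>
      (i.elim 0 fun i => ⟨ω ^ i.1 * γ, (hσ.pow i).conj hγ⟩ : WW F G a b)) ?_
    · simpa using this
    rintro (_ | i) (_ | j) e
    · rfl
    · exact absurd (congrArg Subtype.val e).symm (mul_ne_zero (pow_ne_zero _ ω0) γ0)
    · exact absurd (congrArg Subtype.val e) (mul_ne_zero (pow_ne_zero _ ω0) γ0)
    · exact congrArg some (Fin.ext (hω.pow_inj i.2 j.2
        (mul_right_cancel₀ γ0 (congrArg Subtype.val e))))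
  · have := (orb_finite (ps F G a ⊓ stabilizer G (pl F a b)) (F ∙ (b + t • a))).to_subtype
    have := Nat.card_le_card_of_injective (fun x : Fin n × WW F G a b =>
      (⟨F ∙ (b + (ω ^ x.1.1 * t + x.2) • a), by
        obtain ⟨g, k⟩ := x.2.2
        exact ⟨_, (k.mul (hσ.pow x.1)).mem, by simpa using (k.mul (hσ.pow x.1)).pt t⟩⟩ :
        orb (ps F G a ⊓ stabilizer G (pl F a b)) (F ∙ (b + t • a)))) ?_
    · simpa using this
    rintro ⟨i, w⟩ ⟨j, w'⟩ e
    have e := pt_inj ha hb (congrArg Subtype.val e)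
    simp only at e
    have e' : ω ^ i.1 = ω ^ j.1 := by
      by_contra k
      have i0 := pow_ne_zero i.1 ω0
      refine ht (((hσ.pow i).inv.mul (hσ.pow j)).canc
        (fun e => k ((inv_mul_eq_one₀ i0).1 e)) ?_)
      convert (hσ.pow i).inv.conj (sub_mem w'.2 w.2) using 1
      field_simp
      linear_combination e
    obtain rfl : i = j := Fin.ext (hω.pow_inj i.2 j.2 e')
    exact Prod.ext rfl (Subtype.ext (add_left_cancel e))
  · obtain ⟨l, γ, k⟩ := exists_af hb hg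
    have e := pt_inj ha hb ((k.pt t).symm.trans (mem_stabilizer_iff.1 h))
    obtain rfl : l = 1 := by
      by_contra k'
      exact ht (k.canc k' (by convert hσ.memW ω1 k using 1; linear_combination -e))
    obtain rfl : γ = 0 := by linear_combination e
    obtain ⟨c, -, -, e1, e2⟩ := k
    exact scal (c := c) (by simpa using e1) (by simpa using e2)

end Cfsg.Agent.Sing
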