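import Cfsg.Agent.Sing.KDef
import Cfsg.Agent.Char.Irr
import Cfsg.Agent.Char.Quot

/-!
# Characters of a group with an abelian TI-subgroup with Frobenius normaliser
-/

set_option autoImplicit false
set_option linter.unusedSectionVars false
set_option linter.style.haveILetI false

namespace Cfsg.Agent.Sing

open MulAction Pointwise Cfsg.Agent.Proj.CK Cfsg.Agent.Char Finset
open scoped ComplexConjugate

variable {H : Type*} [Group H] [Fintype H] {S N : Subgroup H} {σ : H} {n h : ℕ}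

theorem TId.card_N (D : TId S N σ n h) : Nat.card N ≤ n * h := by
  have := Nat.card_le_card_of_surjective (fun p : Fin n × S => (⟨p.2 * σ ^ (p.1 : ℕ),
    N.mul_mem (D.le p.2.2) (N.pow_mem D.σN _)⟩ : N)) fun ⟨g, hg⟩ => by
      obtain ⟨s, hs, i, rfl⟩ := D.gen g hg
      refine ⟨(⟨i % n, Nat.mod_lt _ D.prime.pos⟩, ⟨s * (σ ^ n) ^ (i / n),
        S.mul_mem hs (S.pow_mem D.pown _)⟩), Subtype.ext ?_⟩
      simp only [mul_assoc, ← pow_mul, ← pow_add, Nat.div_add_mod]
  simpa [D.card] using this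

/-- `|N| ≤ n h` (`gen`, `pown`: `N` is the image of `S × Fin n`).  The map
`(x, s) ↦ x s x⁻¹` on `H × (S \ 1)` has fibres of size `≤ |N|` (`ti`: `x'⁻¹ x ∈ N`, and `s'` is
determined by `x'`), so `|H| ∑ ‖f s‖² ≤ |N| ∑_g ‖f g‖²` (`classInner_self_eq_sum_normSq`). -/
theorem TId.ti_bound [Fintype S] (D : TId S N σ n h) {f : H → ℂ} (hf : IsClassFunction H f) :
    ∑ s : S, ‖f s‖ ^ 2 - ‖f 1‖ ^ 2 ≤ n * h * (classInner f f).re := by
  classical
  have hH : (0 : ℝ) < Nat.card H := by exact_mod_cast Nat.card_pos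
  let T : Finset (H × S) := univ ×ˢ univ.erase 1
  have e1 : ∑ p ∈ T, ‖f (p.1 * p.2 * p.1⁻¹)‖ ^ 2 = Nat.card H * (∑ s : S, ‖f s‖ ^ 2 - ‖f 1‖ ^ 2) := by
    rw [sum_product]
    simp [hf _ _, mul_sub]
  have e2 : ∀ g : H, (#{p ∈ T | p.1 * p.2 * p.1⁻¹ = g} : ℝ) ≤ n * h := fun g => by
    rcases (T.filter fun p => p.1 * p.2 * p.1⁻¹ = g).eq_empty_or_nonempty with k | ⟨q, hq⟩
    · rw [k]; simp; positivity
    have : #{p ∈ T | p.1 * p.2 * p.1⁻¹ = g} ≤ #{x | x ∈ N} := by
      refine card_le_card_of_injOn (fun p => q.1⁻¹ * p.1) (fun p hp => ?_) fun p hp p' hp' e => ?_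
      · simp only [coe_filter, T, mem_product, mem_univ, mem_erase, true_and, and_true, mem_filter,
          Set.mem_ofPred_eq] at hp hq ⊢
        refine D.ti _ _ p.2.2 (fun k => hp.1 (Subtype.ext k)) ?_
        convert q.2.2 using 1
        rw [← mul_right_inj q.1, ← mul_left_inj q.1⁻¹, hq.2, ← hp.2]; group
      · have e1 : p.1 = p'.1 := mul_left_cancel e
        have := (mem_filter.1 hp).2.trans (mem_filter.1 hp').2.symm
        rw [e1, mul_left_inj, mul_right_inj] at this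
        exact Prod.ext e1 (Subtype.ext this)
    rw [← Fintype.card_subtype, ← Nat.card_eq_fintype_card] at this
    exact_mod_cast this.trans D.card_N
  have e3 : ∑ p ∈ T, ‖f (p.1 * p.2 * p.1⁻¹)‖ ^ 2 ≤ ∑ g, n * h * ‖f g‖ ^ 2 := by
    rw [← sum_fiberwise T (fun p => p.1 * p.2 * p.1⁻¹)]
    refine sum_le_sum fun g _ => ?_
    rw [sum_congr rfl fun p hp => by rw [(mem_filter.1 hp).2], sum_const, nsmul_eq_mul]
    exact mul_le_mul_of_nonneg_right (e2 g) (by positivity)
  rw [e1, ← mul_sum] at e3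
  rw [classInner_self_eq_sum_normSq, Complex.ofReal_re, mul_left_comm, ← div_eq_inv_mul,
    le_div_iff₀' hH]
  exact e3

theorem shift_eq {ι : Type*} [Fintype ι] (m : ι → ℤ) (a : ℤ) :
    (Fintype.card ι : ℤ) * ∑ l, (m l - a) ^ 2 - (∑ l, (m l - a)) ^ 2 =
      Fintype.card ι * ∑ l, m l ^ 2 - (∑ l, m l) ^ 2 := by
  simp only [sub_sq, sum_add_distrib, sum_sub_distrib, sum_const, card_univ, nsmul_eq_mul, ← sum_mul,
    ← mul_sum]
  ring

theorem abs_sum_le {ι : Type*} [Fintype ι] (u : ι → ℤ) : |∑ l, u l| ≤ ∑ l, u l ^ 2 :=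
  (abs_sum_le_sum_abs _ _).trans (sum_le_sum fun l _ => by
    rw [← sq_abs]; exact Int.le_self_sq _)

/-- `∑_μ ∑_l (m l - m μ)² = 2 (h ∑ m² - (∑ m)²) ≤ 2 c h`, so some `a = m μ` has
`T = ∑ (m - a)² ≤ 2c`; `|∑ (m - a)| ≤ T` (integers), and `h T - T² ≤ c h` gives
`h (T - c) ≤ 4 c² < h`. -/
theorem exists_shift {ι : Type*} [Fintype ι] (m : ι → ℤ) (c : ℕ)
    (h1 : (Fintype.card ι : ℤ) * ∑ l, m l ^ 2 - (∑ l, m l) ^ 2 ≤ c * Fintype.card ι)
    (h2 : 4 * c ^ 2 < Fintype.card ι) : ∃ a : ℤ, ∑ l, (m l - a) ^ 2 ≤ c := by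
  have hne : (univ : Finset ι).Nonempty := card_pos.1 (by rw [card_univ]; omega)
  obtain ⟨μ, -, hμ⟩ := exists_le_of_sum_le (f := fun μ => ∑ l, (m l - m μ) ^ 2)
    (g := fun _ => (2 * c : ℤ)) hne (by
      simp only [sub_sq, sum_add_distrib, sum_sub_distrib, sum_const, card_univ, nsmul_eq_mul,
        ← sum_mul, ← mul_sum]
      nlinarith)
  refine ⟨m μ, ?_⟩
  rw [← shift_eq m (m μ)] at h1
  have h3 := abs_sum_le fun l => m l - m μ
  have h4 : (4 * c ^ 2 : ℤ) < Fintype.card ι := by exact_mod_cast h2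
  have h5 := sq_le_sq' (neg_le_of_abs_le (h3.trans hμ)) (le_of_abs_le (h3.trans hμ))
  by_contra k
  nlinarith

section
variable [Fintype S]

/-- Multiplicities of the restriction. -/
def Mu (S : Subgroup H) [Fintype S] (f : H → ℂ) (m : IrrCharacter S → ℤ) : Prop :=
  ∀ l : IrrCharacter S, classInner (fun s : S => f s) l = m l

theorem exists_mu {f : H → ℂ} (hf : IsGeneralizedCharacter H f) : ∃ m, Mu S f m :=
  (hf.restrict S).exists_coeff.imp fun _ h => h.1

theorem Mu.apply {f : H → ℂ} {m : IrrCharacter S → ℤ} (k : Mu S f m) (hf : IsClassFunction H f)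
    (s : S) : f s = ∑ l, (m l : ℂ) * (l : S → ℂ) s := by
  rw [(hf.restrict S).apply_eq_sum_irr s]; simp only [k _]

theorem TId.l1 (D : TId S N σ n h) (l : IrrCharacter S) : (l : S → ℂ) 1 = 1 :=
  l.2.one_eq_one_of_comm fun a b => Subtype.ext (D.comm _ a.2 _ b.2)

theorem TId.cI (D : TId S N σ n h) : Fintype.card (IrrCharacter S) = h := by
  have := sum_irr_one_sq (G := S)
  rw [D.card] at this
  simpa [D.l1] using this

theorem TId.deg (D : TId S N σ n h) {f : H → ℂ} {m : IrrCharacter S → ℤ} (k : Mu S f m)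
    (hf : IsClassFunction H f) : f 1 = (∑ l, m l : ℤ) := by
  simpa [D.l1] using k.apply hf 1

theorem TId.ineq (D : TId S N σ n h) {f : H → ℂ} {m : IrrCharacter S → ℤ} (k : Mu S f m)
    (hf : IsGeneralizedCharacter H f) {c : ℕ} (hc : classInner f f = c) :
    (h : ℤ) * ∑ l, m l ^ 2 - (∑ l, m l) ^ 2 ≤ c * n * h := by
  have e := D.ti_bound hf.isClassFunction
  have e1 := (hf.restrict S).inner_self_eq_sum_sq k
  rw [classInner_self_eq_sum_normSq, ← Complex.ofReal_intCast, Complex.ofReal_inj, D.card,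
    inv_mul_eq_iff_eq_mul₀ (by have := D.big; exact_mod_cast (show h ≠ 0 by omega))] at e1
  rw [e1, hc, D.deg k hf.isClassFunction, Complex.norm_intCast, sq_abs, Complex.natCast_re] at e
  have : ((h * ∑ l, m l ^ 2 - (∑ l, m l) ^ 2 : ℤ) : ℝ) ≤ (c * n * h : ℤ) := by push_cast at e ⊢; linarith
  exact_mod_cast this

/-- Conjugation on `S`. -/
def TId.cj (D : TId S N σ n h) (i : ℕ) : S →* S where
  toFun s := ⟨σ ^ i * s * (σ ^ i)⁻¹, D.norm _ (N.pow_mem D.σN i) _ s.2⟩
  map_one' := by simp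
  map_mul' a b := Subtype.ext (by simp [mul_assoc])

theorem TId.cj_surj (D : TId S N σ n h) (i : ℕ) : Function.Surjective (D.cj i) :=
  Finite.surjective_of_injective fun a b e => by simpa [TId.cj] using e

/-- The orbit of a linear character. -/
noncomputable def TId.O (D : TId S N σ n h) (l : IrrCharacter S) : Finset (IrrCharacter S) :=
  open Classical in (range n).image fun i => inflateIrr _ (D.cj_surj i) l

theorem TId.mu_O (D : TId S N σ n h) {f : H → ℂ} {m : IrrCharacter S → ℤ} (k : Mu S f m)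
    (hf : IsClassFunction H f) {l l' : IrrCharacter S} (hl : l' ∈ D.O l) : m l' = m l := by
  classical
  obtain ⟨i, -, rfl⟩ := mem_image.1 hl
  have := classInner_comp_surjective _ (D.cj_surj i) (fun s : S => f s) l
  rw [k l, show (fun x : S => f (D.cj i x)) = fun s : S => f s from funext fun s => hf _ _] at this
  exact_mod_cast (k (inflateIrr _ (D.cj_surj i) l)).symm.trans this

theorem TId.card_O (D : TId S N σ n h) {l : IrrCharacter S} (hl : l ≠ irrOne S) : #(D.O l) = n := by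
  classical
  have key : ∀ i j, i < j → j < n → inflateIrr _ (D.cj_surj i) l ≠ inflateIrr _ (D.cj_surj j) l :=
    fun i j h1 h2 e => hl (Subtype.ext (funext fun s => ?_))
  · rw [TId.O, card_image_of_injOn, card_range]
    intro i hi j hj e
    rcases lt_trichotomy i j with k | k | k
    · exact absurd e (key i j k (mem_range.1 hj))
    · exact k
    · exact absurd e.symm (key j i k (mem_range.1 hi))
  obtain ⟨lam, hlam⟩ := l.2.exists_linear_of_comm fun a b => Subtype.ext (D.comm _ a.2 _ b.2)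
  obtain ⟨u, rfl⟩ := Finite.surjective_of_injective (f := fun u : S => D.cj (j - i) u * u⁻¹)
    (fun a b e => by
      have e1 := congrArg Subtype.val e
      have := D.fpf (j - i) (by omega) (by omega) _ (b⁻¹ * a).2 (by
        simp only [TId.cj, MonoidHom.coe_mk, OneHom.coe_mk, Subgroup.coe_mul, Subgroup.coe_inv] at e1 ⊢
        calc _ = (σ ^ (j - i) * b * (σ ^ (j - i))⁻¹)⁻¹ * (σ ^ (j - i) * a * (σ ^ (j - i))⁻¹ * (a : H)⁻¹) *
            a * σ ^ (j - i) := by group
          _ = _ := by rw [e1]; group)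
      exact (inv_mul_eq_one.1 (Subtype.ext this)).symm) s
  obtain ⟨v, rfl⟩ := D.cj_surj i u
  have e1 := congrFun (congrArg Subtype.val e) v
  have e2 : D.cj (j - i) (D.cj i v) = D.cj j v := Subtype.ext (by
    simp only [TId.cj, MonoidHom.coe_mk, OneHom.coe_mk]
    rw [show σ ^ j = σ ^ (j - i) * σ ^ i by rw [← pow_add, Nat.sub_add_cancel h1.le]]; group)
  simp only [inflateIrr_apply, hlam, Units.val_inj] at e1
  simp [hlam, e2, e1]

open Classical in
/-- The shape of the restriction of an irreducible character. -/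
structure Sh (D : TId S N σ n h) (χ : H → ℂ) (m : IrrCharacter S → ℤ) (a : ℤ) : Prop where
  mu : Mu S χ m
  nn : ∀ l, 0 ≤ m l
  a0 : 0 ≤ a
  sq : ∑ l, (m l - a) ^ 2 ≤ n
  cd : #{l | m l ≠ a} ≤ n
  ex : ∀ l₀, l₀ ≠ irrOne S → m l₀ ≠ a → (m l₀ - a) ^ 2 = 1 ∧
    ∀ l, m l - a = if l ∈ D.O l₀ then m l₀ - a else 0

theorem TId.exists_sh (D : TId S N σ n h) {χ : H → ℂ} (hχ : IsIrrCharacter H χ) :
    ∃ m a, Sh D χ m a := by
  classical
  obtain ⟨m, k⟩ := exists_mu (S := S) hχ.isGen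
  have hb := D.big
  have hp := D.prime.pos
  obtain ⟨a, ha⟩ := exists_shift m n
    (by simpa [D.cI] using D.ineq k hχ.isGen (c := 1) (by simpa using hχ.inner_self)) (by rw [D.cI]; omega)
  have nn : ∀ l, 0 ≤ m l := fun l => by
    obtain ⟨c, hc⟩ := (hχ.isCharacter.restrict S).exists_nat_inner l.2.isCharacter
    rw [k l] at hc
    have : m l = c := by exact_mod_cast hc
    omega
  have cd : #{l | m l ≠ a} ≤ n := by
    have : ∑ l ∈ {l | m l ≠ a}, (1 : ℤ) ≤ n :=
      ((sum_le_sum fun l hl => (one_le_sq_iff_one_le_abs _).2 (Int.one_le_abs (sub_ne_zero.2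
        (mem_filter.1 hl).2))).trans (sum_le_univ_sum_of_nonneg fun l => sq_nonneg _)).trans ha
    simpa using this
  refine ⟨m, a, k, nn, ?_, ha, cd, fun l₀ h1 h2 => ?_⟩
  · by_contra h0
    rw [filter_true_of_mem fun l _ => by have := nn l; omega, card_univ, D.cI] at cd
    nlinarith
  have e : ∑ l ∈ D.O l₀, (m l - a) ^ 2 = n * (m l₀ - a) ^ 2 := by
    rw [sum_congr rfl fun l hl => by rw [D.mu_O k hχ.isClassFunction hl], sum_const, D.card_O h1,
      nsmul_eq_mul]
  rw [← sum_add_sum_compl (D.O l₀), e] at ha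
  have p1 : 1 ≤ (m l₀ - a) ^ 2 := (one_le_sq_iff_one_le_abs _).2 (Int.one_le_abs (sub_ne_zero.2 h2))
  have p2 : 0 ≤ ∑ l ∈ (D.O l₀)ᶜ, (m l - a) ^ 2 := sum_nonneg fun _ _ => sq_nonneg _
  have p3 : (0 : ℤ) < n := by exact_mod_cast hp
  refine ⟨by nlinarith, fun l => ?_⟩
  split_ifs with hl
  · rw [D.mu_O k hχ.isClassFunction hl]
  · exact pow_eq_zero_iff two_ne_zero |>.1 ((sum_eq_zero_iff_of_nonneg fun _ _ => sq_nonneg _).1
      (le_antisymm (by nlinarith) p2) l (mem_compl.2 hl))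

theorem Sh.val {D : TId S N σ n h} {χ : H → ℂ} {m : IrrCharacter S → ℤ} {a : ℤ} (k : Sh D χ m a)
    (hχ : IsClassFunction H χ) (h0 : ∀ l, l ≠ irrOne S → m l = a) {s : H} (hs : s ∈ S) (h1 : s ≠ 1) :
    χ s = (m (irrOne S) - a : ℤ) := by
  classical
  have e := sum_irr_one_mul (G := S) (g := ⟨s, hs⟩) fun e => h1 (congrArg Subtype.val e)
  simp only [D.l1, one_mul] at e
  rw [k.mu.apply hχ ⟨s, hs⟩, ← add_sum_erase _ _ (mem_univ (irrOne S)),
    sum_congr rfl fun l hl => by rw [h0 l (ne_of_mem_erase hl)], ← mul_sum,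
    sum_erase_eq_sub (mem_univ _), e]
  simp; ring

theorem TId.deg_or (D : TId S N σ n h) (hS : Subgroup.normalClosure (S : Set H) = ⊤) {χ : H → ℂ}
    (hχ : IsIrrCharacter H χ) (hne : χ ≠ fun _ => 1) {d : ℕ} (hd : χ 1 = d) : h ≤ d + n ∨ d = n := by
  classical
  obtain ⟨m, a, k⟩ := D.exists_sh hχ
  have e : (d : ℤ) = ∑ l, m l := by exact_mod_cast hd.symm.trans (D.deg k.mu hχ.isClassFunction)
  rcases k.a0.eq_or_lt with rfl | ha
  · by_cases h0 : ∀ l, l ≠ irrOne S → m l = 0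
    · haveI := charKer_normal hχ.isClassFunction
      refine absurd (eq_one_of_charKer_eq_top hχ (eq_top_iff.2 (hS ▸ Subgroup.normalClosure_le_normal
        fun s hs => (mem_charKer_iff hχ.isCharacter).2 ?_))) hne
      by_cases h1 : s = 1
      · rw [h1]
      rw [k.val hχ.isClassFunction h0 hs h1, D.deg k.mu hχ.isClassFunction,
        sum_eq_single _ (fun l _ => h0 l) (by simp), sub_zero]
    push Not at h0
    obtain ⟨l, h1, h2⟩ := h0
    obtain ⟨k1, k2⟩ := k.ex l h1 h2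
    simp only [sub_zero] at k1 k2
    have : m l = 1 := by have := k.nn l; nlinarith
    rw [sum_congr rfl fun l _ => k2 l, this, sum_ite_mem, univ_inter, sum_const, D.card_O h1] at e
    exact .inr (by simpa using e)
  · have h1 := neg_le_of_abs_le ((abs_sum_le fun l => m l - a).trans k.sq)
    rw [sum_sub_distrib, ← e, sum_const, card_univ, D.cI, nsmul_eq_mul] at h1
    have : (h : ℤ) ≤ d + n := by nlinarith
    exact .inl (by exact_mod_cast this)

omit [Fintype S] in
theorem exists_deg {ψ : H → ℂ} (hψ : IsCharacter H ψ) : ∃ c d : IrrCharacter H → ℕ,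
    (∀ χ : IrrCharacter H, classInner ψ χ = c χ) ∧ (∀ χ : IrrCharacter H, (χ : H → ℂ) 1 = d χ) ∧
    ψ = ∑ χ : IrrCharacter H, (c χ : ℂ) • (χ : H → ℂ) ∧ ψ 1 = (∑ χ, c χ * d χ : ℕ) := by
  obtain ⟨c, h1, h2⟩ := hψ.exists_coeff
  choose d hd using fun χ : IrrCharacter H => χ.2.isCharacter.exists_nat_one
  exact ⟨c, d, h1, hd, h2, by rw [congrFun h2 1]; simp [hd]⟩

theorem TId.deg_ge (D : TId S N σ n h) (hS : Subgroup.normalClosure (S : Set H) = ⊤) {χ : H → ℂ}
    (hχ : IsIrrCharacter H χ) (hne : χ ≠ fun _ => 1) {d : ℕ} (hd : χ 1 = d) : h ≤ d + n := by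
  classical
  refine (D.deg_or hS hχ hne hd).elim id fun e => ?_
  subst e
  obtain ⟨c, e, h1, h2, -, h3⟩ := exists_deg (hχ.isCharacter.mul hχ.isCharacter.conj)
  have c1 : c (irrOne H) = 1 := by
    have := h1 (irrOne H)
    rw [classInner_mul_left] at this
    simp only [irrOne_apply, Complex.conj_conj, mul_one, hχ.inner_self] at this
    exact_mod_cast this.symm
  have d1 : e (irrOne H) = 1 := by simpa using (h2 (irrOne H)).symm
  have h4 : d * d = ∑ χ, c χ * e χ := by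
    simp only [Pi.mul_apply, hd, map_natCast] at h3
    exact_mod_cast h3
  have h5 : d ∣ ∑ ψ ∈ univ.erase (irrOne H), c ψ * e ψ := dvd_sum fun ψ hψ => by
    rcases Nat.eq_zero_or_pos (c ψ) with k | k
    · simp [k]
    have k1 : c ψ * e ψ ≤ d * d := h4 ▸ single_le_sum (f := fun χ => c χ * e χ) (by simp) (mem_univ ψ)
    have k2 := D.big
    rcases D.deg_or hS ψ.2 (fun e => ne_of_mem_erase hψ (Subtype.ext e)) (h2 ψ) with k3 | k3
    · nlinarith [D.prime.pos]
    · rw [k3]; exact dvd_mul_left _ _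
  rw [← add_sum_erase _ _ (mem_univ (irrOne H)), c1, d1] at h4
  exact absurd ((Nat.dvd_add_left h5).1 (h4 ▸ dvd_mul_left d d)) D.prime.not_dvd_one

end

/-- `Irr S` has `h` elements, all linear (`S` abelian).  For a generalized character `f` of `H` let
`m l = ⟨f|S, l⟩ ∈ ℤ`; `∑_s ‖f s‖² = h ∑ m²`, `f 1 = ∑ m`, and `m` is invariant under
`τ : l ↦ l ∘ conj σ`.  `τ^i l = l`, `0 < i < n` forces `l = 1` (`s ↦ σ^i s σ^-i s⁻¹` is an injective
(`fpf`), so surjective, map `S → S`, and `l` is a homomorphism), so `O l = {τ^i l | i < n}` has `n`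
elements and `O l' = O l` for `l' ∈ O l` (`τ^n = 1` by `pown`).
For irreducible `χ`: `ti_bound`, `exists_shift` (`c = n`) give `u = m - a`, `∑ u² ≤ n`.  So either
(N) `u l = 0` for `l ≠ 1`: `χ s = u 1 =: b` for `s ≠ 1` (`∑_l l s = 0`), `χ 1 = a h + b`; or
(E) `u = ε = ±1` on one `O l₀` and `0` elsewhere, `χ 1 = a h + ε n`.  Always `a ≥ 0` (`a = m l` for
some `l`, `h > n + 1`).  If `χ ≠ 1`: in (N) `a = 0` would put `S`, so `H`, in the kernel; so either
`χ 1 ≥ h - n` or `χ 1 = n` (E).  If `χ 1 = n`, decompose `χ χ̄` (degree `n² < h - n`): trivial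
character once, the others of degree `n`: `n² = 1 + n M`, absurd.  So `χ 1 ≥ h - n` for `χ ≠ 1`.
Now `π = ∑ c_χ χ` has degree `≤ n h`, so `∑_{χ ≠ 1} c_χ ≤ n`; `π|S` is a multiple of the regular
character, so `∑ c_χ u_χ l` is independent of `l ≠ 1`; the supports cover `≤ n² < h - 1`
characters, so it is `0`.  If a constituent `χ₀` is of type (E) at `l₀`, another constituent `χ'`
has `u_χ' l₀ = -ε`; `f = χ₀ - χ'` has norm `2`, `m = a - a' + 2ε` on `O l₀`, `a - a'` elsewhere, and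
`ti_bound` gives `4 n h - 4 n² ≤ 2 n h`, false. -/
theorem TId.const (D : TId S N σ n h) (hS : Subgroup.normalClosure (S : Set H) = ⊤)
    {π : H → ℂ} (hπ : IsCharacter H π) (h1 : (π 1).re ≤ n * h) (h0 : ∀ s ∈ S, s ≠ 1 → π s = 0)
    {χ : H → ℂ} (hχ : IsIrrCharacter H χ) (hne : χ ≠ fun _ => 1) (hi : classInner π χ ≠ 0) :
    (h : ℝ) - n ≤ (χ 1).re ∧ ∃ b : ℤ, b ^ 2 ≤ n ∧ ∀ s ∈ S, s ≠ 1 → χ s = b := by
  classical
  haveI := Fintype.ofFinite S
  have hb := D.big
  have hp := D.prime.pos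
  choose m a k using fun ψ : IrrCharacter H => D.exists_sh ψ.2
  obtain ⟨c, d, c1, d1, c2, c3⟩ := exists_deg hπ
  refine ⟨?_, ?_⟩
  · have := D.deg_ge hS hχ hne (d1 ⟨χ, hχ⟩)
    rw [show χ 1 = _ from d1 ⟨χ, hχ⟩, Complex.natCast_re, sub_le_iff_le_add]
    exact_mod_cast this
  -- few constituents
  have f1 : #{ψ | c ψ ≠ 0} ≤ 2 * n + 1 := by
    have e1 : ∑ χ, c χ * d χ ≤ n * h := by rw [c3, Complex.natCast_re] at h1; exact_mod_cast h1
    have e2 := card_nsmul_le_sum (({ψ | c ψ ≠ 0} : Finset _).erase (irrOne H)) (fun χ => c χ * d χ)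
      (h - n) fun ψ hψ => by
        have := D.deg_ge hS ψ.2 (fun e => ne_of_mem_erase hψ (Subtype.ext e)) (d1 ψ)
        have := Nat.le_mul_of_pos_left (d ψ) (Nat.pos_of_ne_zero (mem_filter.1 (mem_of_mem_erase hψ)).2)
        omega
    have e3 := (e2.trans (sum_le_univ_sum_of_nonneg fun _ => Nat.zero_le _)).trans e1
    have e4 := pred_card_le_card_erase (s := ({ψ | c ψ ≠ 0} : Finset _)) (a := irrOne H)
    obtain ⟨t, rfl⟩ : ∃ t, h = t + n := ⟨h - n, (Nat.sub_add_cancel (by nlinarith)).symm⟩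
    rw [smul_eq_mul, Nat.add_sub_cancel] at e3
    have : #(({ψ | c ψ ≠ 0} : Finset _).erase (irrOne H)) ≤ 2 * n := by
      by_contra k; nlinarith
    omega
  -- a linear character outside all supports
  obtain ⟨l₁, hl₁⟩ : ∃ l₁, ∀ ψ, c ψ ≠ 0 → m ψ l₁ = a ψ := by
    have e1 := card_biUnion_le_card_mul ({ψ | c ψ ≠ 0} : Finset _)
      (fun ψ => ({l | m ψ l ≠ a ψ} : Finset _)) n fun ψ _ => (k ψ).cd
    obtain ⟨l, -, hl⟩ := exists_mem_notMem_of_card_lt_card (t := univ)
      (e1.trans_lt (by rw [card_univ, D.cI]; nlinarith))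
    exact ⟨l, fun ψ hψ => not_not.1 fun e => hl (mem_biUnion.2 ⟨ψ, by simpa using hψ, by simpa using e⟩)⟩
  have f2 : ∀ l, ∑ ψ, (c ψ : ℤ) * (m ψ l - a ψ) = 0 := fun l => by
    have e : ∀ l : IrrCharacter S, ((∑ ψ, c ψ * m ψ l : ℤ) : ℂ) = (Nat.card S : ℂ)⁻¹ * π 1 := fun l => by
      have e1 : classInner (fun s : S => π s) l = (Nat.card S : ℂ)⁻¹ * π 1 := by
        rw [classInner_def, sum_eq_single 1 (fun s _ hs => by
          rw [h0 s s.2 fun e => hs (Subtype.ext e), zero_mul]) (by simp)]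
        simp [D.l1]
      rw [← e1, show (fun s : S => π s) = ∑ χ : IrrCharacter H, (c χ : ℂ) • fun s : S => (χ : H → ℂ) s from
        funext fun s => by rw [congrFun c2 s]; simp, classInner_sum_left]
      simp [classInner_smul_left, (k _).mu l]
    have e1 : ∑ ψ, (c ψ : ℤ) * m ψ l = ∑ ψ, c ψ * m ψ l₁ := by exact_mod_cast (e l).trans (e l₁).symm
    simp only [mul_sub, sum_sub_distrib, e1]
    rw [← sum_sub_distrib]
    exact sum_eq_zero fun ψ _ => by by_cases hc : c ψ = 0 <;> simp [hc, hl₁]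
  set x : IrrCharacter H := ⟨χ, hχ⟩
  have cx : c x ≠ 0 := fun e => hi (by simpa [e] using c1 x)
  have f3 : ∀ l, l ≠ irrOne S → m x l = a x := fun l hl => by
    by_contra h2
    obtain ⟨k1, k2⟩ := (k x).ex l hl h2
    obtain ⟨y, hy⟩ : ∃ y, (m y l - a y) * (m x l - a x) < 0 := by
      by_contra k3
      push Not at k3
      have := (sum_eq_zero_iff_of_nonneg (s := univ) (f := fun y => (c y : ℤ) * ((m y l - a y) *
        (m x l - a x))) fun y _ => mul_nonneg (by positivity) (k3 y)).1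
        (by simp only [← mul_assoc, ← sum_mul, f2, zero_mul]) x (mem_univ _)
      rw [← sq, k1, mul_one] at this
      exact cx (by exact_mod_cast this)
    have yx : x ≠ y := by rintro rfl; nlinarith
    obtain ⟨k3, k4⟩ := (k y).ex l hl fun e => by simp [e] at hy
    have k5 : m y l - a y = -(m x l - a x) := by
      rcases sq_eq_one_iff.1 k1 with e | e <;>
        rcases sq_eq_one_iff.1 k3 with e' | e' <;> simp [e, e'] at hy ⊢
    have e := D.ineq (m := fun l => m x l - m y l) (f := x.1 - y.1) (c := 2) (fun l => by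
      have := classInner_sub_left (fun s : S => x.1 s) (fun s : S => y.1 s) l
      rw [(k x).mu, (k y).mu] at this
      exact_mod_cast this) (x.2.isGen.sub y.2.isGen) (by
        simp [classInner_sub_left, classInner_sub_right, irr_inner, yx, yx.symm]; norm_num)
    have e2 : ∀ l', m x l' - m y l' - (a x - a y) = if l' ∈ D.O l then 2 * (m x l - a x) else 0 :=
      fun l' => by
        have := k2 l'; have := k4 l'
        split_ifs at * <;> omega
    rw [← D.cI, ← shift_eq _ (a x - a y), D.cI] at e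
    simp only [e2, ite_pow, sum_ite_mem, univ_inter, sum_const, D.card_O hl, nsmul_eq_mul, mul_pow, k1,
      ne_eq, OfNat.ofNat_ne_zero, not_false_eq_true, zero_pow] at e
    have : (16 * n ^ 2 : ℤ) < h := by exact_mod_cast hb
    have : (0 : ℤ) < n := by exact_mod_cast hp
    push_cast at e
    nlinarith
  exact ⟨_, (single_le_sum (f := fun l => (m x l - a x) ^ 2) (fun _ _ => sq_nonneg _)
    (mem_univ (irrOne S))).trans (k x).sq, fun s hs h1 => (k x).val hχ.isClassFunction f3 hs h1⟩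

end Cfsg.Agent.Sing
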