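import Cfsg.Agent.Sing.ChA

/-!
# Orbital counts from the permutation character
-/

set_option autoImplicit false
set_option linter.unusedSectionVars false
set_option linter.style.haveILetI false

namespace Cfsg.Agent.Sing

open MulAction Pointwise Cfsg.Agent.Proj.CK

open scoped ComplexConjugate
open Cfsg.Agent.Char

section Aux

variable {H : Type*} [Group H] [Fintype H] {P : Type*} [MulAction H P] [DecidableEq P]

theorem card_fib (a : P) (k : H) :
    (Finset.univ.filter fun g : H => g • a = k • a).card = Nat.card (stabilizer H a) := by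
  classical
  rw [Nat.card_eq_fintype_card, Fintype.card_subtype]
  refine Finset.card_bij (fun g _ => k⁻¹ * g) (fun g hg => ?_) (fun g _ g' _ e => ?_)
    (fun g hg => ⟨k * g, ?_, ?_⟩)
  · simp only [Finset.mem_filter, Finset.mem_univ, true_and, mem_stabilizer_iff] at hg ⊢
    rw [mul_smul, hg, inv_smul_smul]
  · exact mul_left_cancel e
  · simp only [Finset.mem_filter, Finset.mem_univ, true_and, mem_stabilizer_iff] at hg ⊢
    rw [mul_smul, hg]
  · simp

theorem card_fib_le (a b : P) :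
    (Finset.univ.filter fun g : H => g • a = b).card ≤ Nat.card (stabilizer H a) := by
  by_cases h : ∃ k : H, k • a = b
  · obtain ⟨k, rfl⟩ := h
    exact (card_fib a k).le
  · rw [Finset.filter_eq_empty_iff.2 fun g _ e => h ⟨g, e⟩]
    exact Nat.zero_le _

/-- matrix entries of `∑ f g • g` in the permutation representation -/
noncomputable def Mw (f : H → ℂ) (p : P × P) : ℂ := ∑ g, if g • p.1 = p.2 then f g else 0

theorem Mw_sub (f f' : H → ℂ) (p : P × P) : Mw (f - f') p = Mw f p - Mw f' p := by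
  rw [Mw, Mw, Mw, ← Finset.sum_sub_distrib]
  refine Finset.sum_congr rfl fun g _ => ?_
  split_ifs <;> simp

theorem Mw_smul {f : H → ℂ} (hf : IsClassFunction H f) (k : H) (p : P × P) :
    Mw f (k • p) = Mw f p := by
  rw [Mw, Mw, ← Equiv.sum_comp (MulAut.conj k).toEquiv]
  refine Finset.sum_congr rfl fun g _ => ?_
  simp [mul_smul, hf g k]

variable [DecidableEq H]

/-- multiplicities of the conjugates of `s` -/
noncomputable def Fs (s g : H) : ℂ := ∑ x : H, if x * s * x⁻¹ = g then 1 else 0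

theorem Fs_class (s : H) : IsClassFunction H (Fs s) := by
  intro g k
  rw [Fs, Fs, ← Equiv.sum_comp (Equiv.mulLeft k)]
  refine Finset.sum_congr rfl fun x _ => ?_
  have : k * x * s * (k * x)⁻¹ = k * g * k⁻¹ ↔ x * s * x⁻¹ = g := by
    rw [show k * x * s * (k * x)⁻¹ = k * (x * s * x⁻¹) * k⁻¹ by group]; simp
  simp only [Equiv.coe_mulLeft, this]

theorem sum_Fs_mul (s : H) (φ : H → ℂ) : ∑ g, Fs s g * φ g = ∑ x, φ (x * s * x⁻¹) := by
  simp only [Fs, Finset.sum_mul]
  rw [Finset.sum_comm]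
  simp

theorem sum_Fs_class (s : H) {φ : H → ℂ} (hφ : IsClassFunction H φ) :
    ∑ g, Fs s g * φ g = Nat.card H * φ s := by
  rw [sum_Fs_mul]
  simp [hφ s]

variable [Fintype P]

theorem Mw_Fs (s : H) (y z : P) :
    Mw (Fs s) (y, z) = Nn s y z * Nat.card (stabilizer H (y, z)) := by
  classical
  have h1 : Mw (Fs s) (y, z) = ∑ g : H, if g • z = s • g • y then 1 else 0 := by
    have := sum_Fs_mul s fun g => if g • y = z then 1 else 0
    simp only [mul_ite, mul_one, mul_zero] at this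
    rw [Mw, this, ← Equiv.sum_comp (Equiv.inv H)]
    refine Finset.sum_congr rfl fun g _ => ?_
    refine if_congr ?_ rfl rfl
    rw [Equiv.inv_apply, inv_inv, mul_smul, mul_smul, inv_smul_eq_iff, eq_comm]
  rw [h1, Finset.sum_boole, Finset.card_eq_sum_card_fiberwise (f := fun g : H => g • y)
    (t := Finset.univ.filter fun w => ∃ g : H, g • y = w ∧ g • z = s • w)
    (fun g hg => by simpa using ⟨g, rfl, by simpa using hg⟩)]
  rw [Finset.sum_congr rfl (g := fun _ => Nat.card (stabilizer H (y, z))), Finset.sum_const,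
    smul_eq_mul, Nat.cast_mul, Nn, Set.ncard_eq_toFinset_card', Set.toFinset_ofPred]
  intro w hw
  obtain ⟨k, rfl, hk⟩ := (Finset.mem_filter.1 hw).2
  rw [← card_fib (y, z) k, Finset.filter_filter]
  congr 1
  refine Finset.filter_congr fun g _ => ?_
  simp only [Prod.smul_mk, Prod.mk.injEq]
  constructor
  · rintro ⟨a, b⟩; exact ⟨b, by rw [a, b, hk]⟩
  · rintro ⟨a, b⟩; exact ⟨by rw [a, b, hk], a⟩

theorem Mw_one (y : P) (k : H) :
    Mw (fun _ : H => 1) (y, k • y) =
      (orb (stabilizer H y) (k • y)).ncard * Nat.card (stabilizer H (y, k • y)) := by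
  have : stabilizer H (y, k • y) = stabilizer H y ⊓ stabilizer H (k • y) := by
    ext g; simp [Prod.ext_iff]
  rw [Mw, Finset.sum_boole, card_fib, this, ← Nat.cast_mul, ncard_orb_mul]

theorem sum_Mw_mul_conj (f : H → ℂ) :
    ∑ p : P × P, Mw f p * conj (Mw f p) =
      ∑ g', conj (f g') * ∑ g, f g * (Nat.card (fixedBy P (g * g'⁻¹)) : ℂ) := by
  have h1 : ∀ g g' : H, ∑ p : P × P, (if g • p.1 = p.2 then f g else 0) *
      (if g' • p.1 = p.2 then conj (f g') else 0) =
      conj (f g') * (f g * (Nat.card (fixedBy P (g * g'⁻¹)) : ℂ)) := by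
    intro g g'
    rw [Fintype.sum_prod_type]
    have : ∀ y : P, ∑ z : P, (if g • y = z then f g else 0) * (if g' • y = z then conj (f g') else 0)
        = conj (f g') * (f g * if g • y = g' • y then 1 else 0) := by
      intro y
      rw [Finset.sum_eq_single (g' • y) (fun z _ hz => by rw [if_neg hz.symm, mul_zero]) (by simp)]
      split_ifs <;> simp [mul_comm] at *
    simp only [this, ← Finset.mul_sum, Finset.sum_boole]
    congr 3
    rw [Nat.card_eq_fintype_card, Fintype.card_subtype]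
    refine Finset.card_bij (fun y _ => g' • y) (fun y hy => ?_) (fun y _ y' _ e => ?_)
      (fun y hy => ⟨g'⁻¹ • y, ?_, ?_⟩)
    · simp only [Finset.mem_filter, Finset.mem_univ, true_and, mem_fixedBy] at hy ⊢
      rw [mul_smul, inv_smul_smul, hy]
    · exact smul_left_cancel _ e
    · simp only [Finset.mem_filter, Finset.mem_univ, true_and, mem_fixedBy] at hy ⊢
      rw [← mul_smul, hy, smul_inv_smul]
    · simp
  simp only [Mw, map_sum, Finset.sum_mul_sum, apply_ite conj, map_zero]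
  simp only [Finset.mul_sum, ← h1]
  rw [Finset.sum_comm]
  exact (Finset.sum_congr rfl fun g _ => Finset.sum_comm).trans Finset.sum_comm

theorem sum_Mw_sq {f : H → ℂ} (hf : IsClassFunction H f) (c : IrrCharacter H → ℕ)
    (hc : (fun g : H => (Nat.card (fixedBy P g) : ℂ)) = ∑ χ : IrrCharacter H, (c χ : ℂ) • χ.1) :
    ∑ p : P × P, ‖Mw f p‖ ^ 2 =
      ∑ χ : IrrCharacter H, c χ * ‖∑ g, f g * χ.1 g‖ ^ 2 / (χ.1 1).re := by
  have h1 := sum_Mw_mul_conj (P := P) f
  have h2 : ∀ g : H, (Nat.card (fixedBy P g) : ℂ) = ∑ χ : IrrCharacter H, (c χ : ℂ) * χ.1 g := by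
    intro g
    simpa using congrFun hc g
  apply Complex.ofReal_injective
  push_cast
  simp only [← Complex.mul_conj']
  rw [h1]
  simp only [h2, Finset.mul_sum]
  rw [Finset.sum_congr rfl fun g' _ => Finset.sum_comm, Finset.sum_comm]
  refine Finset.sum_congr rfl fun χ _ => ?_
  obtain ⟨d, d0, hd⟩ := χ.2.exists_nat_one
  have d1 : χ.1 1 ≠ 0 := χ.2.one_ne_zero
  have e : (((χ.1 1).re : ℝ) : ℂ) = χ.1 1 := by rw [hd]; simp
  rw [e, eq_div_iff d1, map_sum, Finset.mul_sum, Finset.mul_sum, Finset.sum_mul]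
  refine Finset.sum_congr rfl fun g' _ => ?_
  have := χ.2.one_mul_sum_mul hf g'⁻¹
  rw [χ.2.map_inv] at this
  rw [map_mul]
  have h3 : ∑ g, conj (f g') * (f g * (c χ * χ.1 (g * g'⁻¹))) =
      conj (f g') * c χ * ∑ g, f g * χ.1 (g * g'⁻¹) := by
    rw [Finset.mul_sum]; exact Finset.sum_congr rfl fun g _ => by ring
  rw [h3]
  linear_combination conj (f g') * c χ * this

theorem card_mul_Mw_le {f : H → ℂ} (hf : IsClassFunction H f) (p : P × P) :
    Nat.card H * ‖Mw f p‖ ^ 2 ≤ Nat.card (stabilizer H p) * ∑ p : P × P, ‖Mw f p‖ ^ 2 := by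
  have h1 : (Nat.card H : ℝ) * ‖Mw f p‖ ^ 2 = ∑ k : H, ‖Mw f (k • p)‖ ^ 2 := by
    simp [Mw_smul hf]
  rw [h1, ← Finset.sum_fiberwise (s := Finset.univ) (g := fun k : H => k • p), Finset.mul_sum]
  refine Finset.sum_le_sum fun w _ => ?_
  rw [Finset.sum_congr rfl (g := fun _ => ‖Mw f w‖ ^ 2) fun k hk => by
    rw [(Finset.mem_filter.1 hk).2], Finset.sum_const, nsmul_eq_mul]
  exact mul_le_mul_of_nonneg_right (by exact_mod_cast card_fib_le (H := H) p w) (by positivity)

end Aux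

variable {H : Type*} [Group H] [Finite H] {S N : Subgroup H} {σ : H} {n h : ℕ}
  {P : Type*} [MulAction H P] [Finite P]

/-- `π g = |fixedBy P g|` (`isCharacter_fixedBy`), `π = ∑ c_χ χ`.  Let
`A s y z = #{x | (x s x⁻¹) • y = z}`, `B y z = #{x | x • y = z}`.  `x ↦ x⁻¹ • y` shows
`A s y z = Nn s y z * |H_y ⊓ H_z|`; for `z ∈ H y`, `B y z = |H_y| = κ |H_y ⊓ H_z|`.
`∑_{y,z} A s y z * A t y z = ∑_{x,x'} π ((x' t x'⁻¹)⁻¹ (x s x⁻¹)) = |H|² ∑ c_χ χ(t⁻¹) χ(s) / χ 1`
(`χ 1 * ∑_x χ (x a x⁻¹ b) = |H| χ a χ b`: `one_mul_sum_mul` with the class function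
`g ↦ #{x | x a x⁻¹ = g}`), `∑ A B = ∑ B² = |H|² c_1`.  By `TId.const` the first sum does not depend
on `s, t ≠ 1`, so `∑ (A s - A t)² = 0` (this is `c1`), and
`∑ (A - B)² = |H|² η`, `η = ∑_{χ ≠ 1} c_χ b_χ² / χ 1 ≤ n² / (h - n)` (`∑_{χ ≠ 1} c_χ ≤ n` by
degrees).  `A`, `B` are constant on the orbital of `(y, z)`, which has `|H| / |H_y ⊓ H_z|` elements:
`|H_y ⊓ H_z| (Nn - κ)² ≤ |H| η`, `|H| = |H y| κ |H_y ⊓ H_z|`, `|H y| η ≤ n h n² / (h - n) ≤ 2 n³`. -/
theorem TId.ci (D : TId S N σ n h) (hS : Subgroup.normalClosure (S : Set H) = ⊤)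
    (hP : Nat.card P ≤ n * h) (hsr : ∀ s ∈ S, ∀ p : P, s • p = p → s = 1) :
    CI (⊥ : Subgroup H) S (Set.univ : Set P) n := by
  classical
  haveI := Fintype.ofFinite H
  haveI := Fintype.ofFinite P
  have hπ := isCharacter_fixedBy (G := H) P
  obtain ⟨c, hc1, hc⟩ := hπ.exists_coeff
  have π1 : (Nat.card (fixedBy P (1 : H)) : ℂ) = Nat.card P := by simp
  have hn : 1 ≤ n := D.prime.one_le
  have hbig := D.big
  have key : ∀ χ : IrrCharacter H, χ.1 ≠ (fun _ => 1) → c χ ≠ 0 →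
      (h : ℝ) - n ≤ (χ.1 1).re ∧ ∃ b : ℤ, b ^ 2 ≤ n ∧ ∀ s ∈ S, s ≠ 1 → χ.1 s = b := by
    intro χ h1 h2
    refine D.const hS hπ ?_ (fun s hs s1 => ?_) χ.2 h1 (by rw [hc1]; exact_mod_cast h2)
    · rw [π1]; exact_mod_cast hP
    · have : IsEmpty (fixedBy P s) := ⟨fun p => s1 (hsr s hs p.1 p.2)⟩
      simp
  have epos : ∀ p : P × P, 0 < Nat.card (stabilizer H p) := fun p => Nat.card_pos
  refine ⟨fun s hs s1 t ht t1 y _ z _ => ?_, fun s hs s1 y _ z hz => ?_⟩
  · rw [Subgroup.mem_bot] at s1 t1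
    have h1 := sum_Mw_sq (P := P) ((Fs_class s).sub (Fs_class t)) c hc
    rw [Finset.sum_eq_zero (s := Finset.univ) (f := fun χ : IrrCharacter H => _ / _) fun χ _ => by
      by_cases h0 : c χ = 0
      · simp [h0]
      have : χ.1 s = χ.1 t := by
        by_cases h1 : χ.1 = fun _ => 1
        · rw [h1]
        · obtain ⟨-, b, -, hb⟩ := key χ h1 h0
          rw [hb s hs s1, hb t ht t1]
      simp only [Pi.sub_apply, sub_mul, Finset.sum_sub_distrib,
        sum_Fs_class _ χ.2.isClassFunction, this, sub_self]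
      simp] at h1
    have h2 := (Finset.sum_eq_zero_iff_of_nonneg fun _ _ => by positivity).1 h1 (y, z)
      (Finset.mem_univ _)
    rw [pow_eq_zero_iff two_ne_zero, norm_eq_zero, Mw_sub, Mw_Fs, Mw_Fs, sub_eq_zero] at h2
    exact Nat.eq_of_mul_eq_mul_right (epos (y, z)) (by exact_mod_cast h2)
  · rw [Subgroup.mem_bot] at s1
    obtain ⟨k, -, rfl⟩ := hz
    have hf := (Fs_class s).sub (isClassFunction_const (G := H) 1)
    have hn' : (1 : ℝ) ≤ n := by exact_mod_cast hn
    have hh : (16 : ℝ) * n ^ 2 < h := by exact_mod_cast hbig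
    have hhn : (0 : ℝ) < h - n := by nlinarith
    have h1 : ∑ p : P × P, ‖Mw (Fs s - fun _ => 1) p‖ ^ 2 ≤
        (Nat.card H : ℝ) ^ 2 * n / (h - n) ^ 2 * Nat.card P := by
      have e1 : (Nat.card P : ℝ) = ∑ χ : IrrCharacter H, c χ * (χ.1 1).re := by
        have := congrArg Complex.re (congrFun hc 1)
        simp only [π1] at this
        simpa using this
      rw [sum_Mw_sq hf c hc, e1, Finset.mul_sum]
      refine Finset.sum_le_sum fun χ _ => ?_
      have d0 : 0 ≤ (χ.1 1).re := χ.2.isCharacter.one_re_nonneg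
      by_cases h0 : c χ = 0
      · simp [h0]
      simp only [Pi.sub_apply, sub_mul, Finset.sum_sub_distrib,
        sum_Fs_class _ χ.2.isClassFunction, one_mul]
      by_cases h1 : χ.1 = fun _ => 1
      · have : (Nat.card H : ℂ) * χ.1 s - ∑ g, χ.1 g = 0 := by simp [h1]
        rw [this, norm_zero]
        simp only [ne_eq, OfNat.ofNat_ne_zero, not_false_eq_true, zero_pow, mul_zero, zero_div]
        positivity
      obtain ⟨a1, b, a2, hb⟩ := key χ h1 h0
      have a3 : (b : ℝ) ^ 2 ≤ n := by exact_mod_cast a2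
      have d1 : 0 < (χ.1 1).re := lt_of_lt_of_le hhn a1
      rw [χ.2.sum_eq_zero h1, sub_zero, hb s hs s1, norm_mul, mul_pow, Complex.norm_natCast,
        Complex.norm_intCast, sq_abs, div_mul_eq_mul_div, div_le_div_iff₀ d1 (by positivity)]
      have a4 : ((h : ℝ) - n) ^ 2 ≤ (χ.1 1).re ^ 2 := by gcongr
      calc _ = c χ * (Nat.card H : ℝ) ^ 2 * ((b : ℝ) ^ 2 * (h - n) ^ 2) := by ring
        _ ≤ c χ * (Nat.card H : ℝ) ^ 2 * (n * (χ.1 1).re ^ 2) := by gcongr
        _ = _ := by ring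
    have h2 := card_mul_Mw_le hf (y, k • y)
    rw [Mw_sub, Mw_Fs, Mw_one, ← sub_mul, norm_mul, mul_pow, Complex.norm_natCast] at h2
    have h3 : ‖(Nn s y (k • y) : ℂ) - (orb (stabilizer H y) (k • y)).ncard‖ ^ 2 =
        ((Nn s y (k • y) : ℝ) - (orb (stabilizer H y) (k • y)).ncard) ^ 2 := by
      rw [← sq_abs (_ - _), ← Real.norm_eq_abs, ← Complex.norm_real]; simp
    rw [h3] at h2
    have h4 := ncard_orb_mul (⊤ : Subgroup H) y
    have h5 := ncard_orb_mul (stabilizer H y) (k • y)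
    have h6 : stabilizer H (y, k • y) = stabilizer H y ⊓ stabilizer H (k • y) := by
      ext g; simp [Prod.ext_iff]
    have h7 : (orb (⊤ : Subgroup H) y).ncard ≤ Nat.card P := Set.ncard_le_card _
    rw [top_inf_eq, Subgroup.card_top, ← h5, ← h6] at h4
    have e0 := epos (y, k • y)
    have H0 : 0 < Nat.card H := Nat.card_pos
    generalize Nn s y (k • y) = a at *
    generalize (orb (stabilizer H y) (k • y)).ncard = κ at *
    generalize Nat.card (stabilizer H (y, k • y)) = e at *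
    have h8 : (Nat.card H : ℝ) ≤ n * h * (κ * e) := by
      exact_mod_cast h4 ▸ Nat.mul_le_mul_right _ (h7.trans hP)
    have h9 : (Nat.card P : ℝ) ≤ n * h := by exact_mod_cast hP
    have e1 : (0 : ℝ) < e := by exact_mod_cast e0
    have H1 : (0 : ℝ) < Nat.card H := by exact_mod_cast H0
    have h10 : (Nat.card H : ℝ) * e * (((a : ℝ) - κ) ^ 2 * e * (h - n) ^ 2) ≤
        Nat.card H * e * (n ^ 3 * h ^ 2 * κ * e) := by
      have b1 : (∑ p : P × P, ‖Mw (Fs s - fun _ => 1) p‖ ^ 2) * (h - n) ^ 2 ≤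
          (Nat.card H : ℝ) ^ 2 * n * Nat.card P := by
        rwa [div_mul_eq_mul_div, le_div_iff₀ (by positivity)] at h1
      calc _ = Nat.card H * (((a : ℝ) - κ) ^ 2 * e ^ 2) * (h - n) ^ 2 := by ring
        _ ≤ e * (∑ p : P × P, ‖Mw (Fs s - fun _ => 1) p‖ ^ 2) * (h - n) ^ 2 := by gcongr
        _ ≤ e * ((Nat.card H : ℝ) ^ 2 * n * Nat.card P) := by rw [mul_assoc]; gcongr
        _ = Nat.card H * e * n * (Nat.card H * Nat.card P) := by ring
        _ ≤ Nat.card H * e * n * (n * h * (κ * e) * (n * h)) := by gcongr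
        _ = _ := by ring
    replace h10 := le_of_mul_le_mul_left h10 (by positivity)
    have h11 : (h : ℝ) ^ 2 ≤ 2 * (h - n) ^ 2 := by nlinarith
    have h12 : ((a : ℝ) - κ) ^ 2 * (e * (h - n) ^ 2) ≤ 2 * n ^ 3 * κ * (e * (h - n) ^ 2) := by
      calc _ = ((a : ℝ) - κ) ^ 2 * e * (h - n) ^ 2 := by ring
        _ ≤ n ^ 3 * h ^ 2 * κ * e := h10
        _ ≤ n ^ 3 * (2 * (h - n) ^ 2) * κ * e := by gcongr
        _ = _ := by ring
    exact_mod_cast le_of_mul_le_mul_right h12 (by positivity)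

end Cfsg.Agent.Sing
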