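import Cfsg.Agent.Proj.CKLarge

/-!
# Cameron–Kantor over `𝔽_q`: definitions and basic linear algebra

Port of `Proj/CK*` (the case `q = 2`).  Points are submodules `F ∙ x`; `ps F G x` is the
stabiliser of the point; the group contains a subgroup `Z` inducing all scalars, so that orbits
on vectors of subgroups containing `Z` are unions of punctured points.
-/

set_option autoImplicit false
set_option linter.unusedSectionVars false
set_option linter.style.haveILetI false

namespace Cfsg.Agent.Sing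

open MulAction Pointwise Cfsg.Agent.Proj.CK

section Lin

variable {F : Type*} [Field F] {V : Type*} [AddCommGroup V] [Module F V]

variable (F) in
/-- the line through two points -/
def pl (x y : V) : Submodule F V := (F ∙ x) ⊔ (F ∙ y)

theorem mem_pt {x v : V} : v ∈ (F ∙ x) ↔ ∃ a : F, a • x = v := Submodule.mem_span_singleton

theorem self_mem_pt (x : V) : x ∈ (F ∙ x) := Submodule.mem_span_singleton_self x

theorem smul_mem_pt (a : F) (x : V) : a • x ∈ (F ∙ x) := mem_pt.2 ⟨a, rfl⟩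

theorem pt_le {x : V} {S : Submodule F V} : (F ∙ x) ≤ S ↔ x ∈ S :=
  Submodule.span_singleton_le_iff_mem x S

theorem pt_smul {a : F} (ha : a ≠ 0) (x : V) : (F ∙ (a • x)) = F ∙ x :=
  Submodule.span_singleton_smul_eq (IsUnit.mk0 a ha) x

theorem pt_eq_of_mem {x y : V} (hy : y ≠ 0) (h : y ∈ (F ∙ x)) : (F ∙ y) = F ∙ x := by
  obtain ⟨a, rfl⟩ := mem_pt.1 h
  exact pt_smul (by rintro rfl; simp at hy) x

theorem pt_eq_iff {x y : V} : (F ∙ x) = (F ∙ y) ↔ ∃ a : F, a ≠ 0 ∧ a • x = y := by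
  constructor
  · intro h
    obtain ⟨a, ha⟩ := Submodule.span_singleton_eq_span_singleton.1 h
    exact ⟨a, a.ne_zero, ha⟩
  · rintro ⟨a, ha, rfl⟩; exact (pt_smul ha x).symm

theorem ne0_of_not_mem {y : V} {S : Submodule F V} (h : y ∉ S) : y ≠ 0 := by
  rintro rfl; exact h S.zero_mem

theorem not_mem_pt_symm {x y : V} (hx : x ≠ 0) (h : y ∉ (F ∙ x)) : x ∉ (F ∙ y) := fun hc =>
  h (pt_eq_of_mem hx hc ▸ self_mem_pt y)

theorem mem_pl {x y v : V} : v ∈ pl F x y ↔ ∃ a b : F, a • x + b • y = v := by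
  rw [pl, Submodule.mem_sup]
  constructor
  · rintro ⟨_, h1, _, h2, rfl⟩
    obtain ⟨a, rfl⟩ := mem_pt.1 h1
    obtain ⟨b, rfl⟩ := mem_pt.1 h2
    exact ⟨a, b, rfl⟩
  · rintro ⟨a, b, rfl⟩
    exact ⟨_, smul_mem_pt a x, _, smul_mem_pt b y, rfl⟩

theorem pl_comm (x y : V) : pl F x y = pl F y x := sup_comm _ _

theorem pt_le_pl (x y : V) : (F ∙ x) ≤ pl F x y := le_sup_left

theorem pt_le_pl' (x y : V) : (F ∙ y) ≤ pl F x y := le_sup_right

theorem left_mem_pl (x y : V) : x ∈ pl F x y := pt_le_pl x y (self_mem_pt x)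

theorem right_mem_pl (x y : V) : y ∈ pl F x y := pt_le_pl' x y (self_mem_pt y)

theorem pl_le {x y : V} {S : Submodule F V} : pl F x y ≤ S ↔ x ∈ S ∧ y ∈ S := by
  rw [pl, sup_le_iff, pt_le, pt_le]

theorem le_of_diff_subset {S E T : Submodule F V} {z : V} (hz : z ∈ S) (hz' : z ∉ E)
    (h : (S : Set V) \ E ⊆ T) : S ≤ T :=
  Proj.CK.le_of_diff_subset (S := S.toAddSubgroup) (E := E.toAddSubgroup) (T := T.toAddSubgroup)
    hz hz' h

theorem card_sup_mul_card_inf (S T : Submodule F V) :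
    Nat.card ↥(S ⊔ T) * Nat.card ↥(S ⊓ T) = Nat.card S * Nat.card T := by
  have := Proj.CK.card_sup_mul_card_inf S.toAddSubgroup T.toAddSubgroup
  rwa [← Submodule.sup_toAddSubgroup] at this

theorem ncard_coe (S : Submodule F V) : (S : Set V).ncard = Nat.card S := by
  rw [← Nat.card_coe_set_eq]; rfl

theorem card_bot : Nat.card (⊥ : Submodule F V) = 1 := Nat.card_unique

theorem card_top : Nat.card (⊤ : Submodule F V) = Nat.card V :=
  Nat.card_congr Submodule.topEquiv.toEquiv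

theorem card_pt {x : V} (hx : x ≠ 0) : Nat.card (F ∙ x) = Nat.card F :=
  (Nat.card_congr (LinearEquiv.toSpanNonzeroSingleton F V x hx).toEquiv).symm

theorem pt_inf_pt {x y : V} (hyx : y ∉ (F ∙ x)) : (F ∙ x) ⊓ (F ∙ y) = ⊥ := by
  rw [eq_bot_iff]
  rintro v ⟨h1, h2⟩
  by_contra h0
  exact hyx (pt_eq_of_mem h0 h1 ▸ pt_eq_of_mem h0 h2 ▸ self_mem_pt y)

theorem card_pl {x y : V} (hx : x ≠ 0) (hyx : y ∉ (F ∙ x)) :
    Nat.card (pl F x y) = Nat.card F ^ 2 := by
  have h := card_sup_mul_card_inf (F ∙ x) (F ∙ y)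
  rw [pt_inf_pt hyx, card_bot, mul_one, card_pt hx, card_pt (ne0_of_not_mem hyx)] at h
  rw [pl, h, pow_two]

variable [Finite V]

theorem card_le_of_le {S T : Submodule F V} (h : S ≤ T) : Nat.card S ≤ Nat.card T :=
  AddSubgroup.card_le_of_le (H := S.toAddSubgroup) (K := T.toAddSubgroup) h

theorem eq_of_le_of_card_ge {S T : Submodule F V} (h : S ≤ T) (hc : Nat.card T ≤ Nat.card S) :
    S = T :=
  Submodule.toAddSubgroup_injective
    (AddSubgroup.eq_of_le_of_card_ge (H := S.toAddSubgroup) (K := T.toAddSubgroup) h hc)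

theorem ncard_diff {S E : Submodule F V} (h : E ≤ S) :
    ((S : Set V) \ E).ncard = Nat.card S - Nat.card E := by
  rw [Set.ncard_sdiff (by exact h), ncard_coe, ncard_coe]

theorem ncard_diff' (S E : Submodule F V) :
    ((S : Set V) \ E).ncard + Nat.card ↥(S ⊓ E) = Nat.card S :=
  Proj.CK.ncard_diff' S.toAddSubgroup E.toAddSubgroup

theorem exists_not_mem_of_card_lt {T X : Submodule F V} (h : Nat.card X < Nat.card T) :
    ∃ v ∈ T, v ∉ X := by
  by_contra! hc
  exact absurd (card_le_of_le hc) (by omega)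

theorem card_eq_pow (S : Submodule F V) : Nat.card S = Nat.card F ^ Module.finrank F S :=
  Module.natCard_eq_pow_finrank

theorem pl_eq_of_mem {x y a b : V} (ha : a ∈ pl F x y) (hb : b ∈ pl F x y) (a0 : a ≠ 0)
    (hba : b ∉ (F ∙ a)) : pl F a b = pl F x y := by
  refine Submodule.eq_of_le_of_finrank_le (pl_le.2 ⟨ha, hb⟩) ?_
  have h1 : Module.finrank F (pl F x y) ≤ 2 := by
    have := Submodule.finrank_add_le_finrank_add_finrank (F ∙ x) (F ∙ y)
    have a1 := finrank_span_le_card (R := F) ({x} : Set V)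
    have a2 := finrank_span_le_card (R := F) ({y} : Set V)
    simp only [Set.toFinset_singleton, Finset.card_singleton] at a1 a2
    unfold pl; omega
  have h2 := Submodule.finrank_sup_add_finrank_inf_eq (F ∙ a) (F ∙ b)
  rw [pt_inf_pt hba, finrank_bot, finrank_span_singleton a0,
    finrank_span_singleton (ne0_of_not_mem hba)] at h2
  unfold pl at *; omega

variable [Finite F]

theorem two_le_q : 2 ≤ Nat.card F := Finite.one_lt_card

theorem q_mul_card_le_of_lt {S E : Submodule F V} (h : E ≤ S) (hne : E ≠ S) :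
    Nat.card F * Nat.card E ≤ Nat.card S := by
  rw [card_eq_pow E, card_eq_pow S, ← pow_succ']
  exact Nat.pow_le_pow_right Nat.card_pos (Submodule.finrank_lt_finrank_of_lt (lt_of_le_of_ne h hne))

/-- two distinct hyperplanes meet in codimension two -/
theorem card_inf_of_index {U E E' : Submodule F V} (h : E ≤ U) (h' : E' ≤ U)
    (hc : Nat.card U = Nat.card F * Nat.card E) (hc' : Nat.card U = Nat.card F * Nat.card E')
    (hne : E ≠ E') : Nat.card E = Nat.card F * Nat.card ↥(E ⊓ E') := by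
  have h1 := card_sup_mul_card_inf E E'
  have hq : 0 < Nat.card F := Nat.card_pos
  have h6 : Nat.card E' = Nat.card E := Nat.eq_of_mul_eq_mul_left hq (hc'.symm.trans hc)
  have h2 : E ≠ E ⊔ E' := by
    intro e
    exact hne (eq_of_le_of_card_ge (e ▸ le_sup_right : E' ≤ E) h6.ge).symm
  have h3 := q_mul_card_le_of_lt (le_sup_left : E ≤ E ⊔ E') h2
  have h4 := card_le_of_le (sup_le h h')
  have h5 : Nat.card ↥(E ⊔ E') = Nat.card F * Nat.card E := by omega
  have hp : 0 < Nat.card E := Nat.card_pos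
  rw [h5, h6] at h1
  apply Nat.eq_of_mul_eq_mul_left hp
  rw [← h1]; ring

theorem span2 {T X Y : Submodule F V} {γ : ℕ} (hT : Nat.card T = Nat.card F * γ)
    (hX : Nat.card ↥(T ⊓ X) = γ) (hY : Nat.card ↥(T ⊓ Y) = γ) (hne : T ⊓ X ≠ T ⊓ Y) :
    T ≤ X ⊔ Y := by
  have h1 : T ⊓ X ≠ (T ⊓ X) ⊔ (T ⊓ Y) := fun e =>
    hne (eq_of_le_of_card_ge (e ▸ le_sup_right : T ⊓ Y ≤ T ⊓ X) (by omega)).symm
  have h2 := q_mul_card_le_of_lt le_sup_left h1
  rw [← eq_of_le_of_card_ge (sup_le inf_le_left inf_le_left : (T ⊓ X) ⊔ (T ⊓ Y) ≤ T)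
    (by rw [hT, ← hX]; exact h2)]
  exact sup_le_sup inf_le_right inf_le_right

end Lin

section Arith

/-- `geo q k = 1 + q + ⋯ + q ^ (k - 1)` -/
def geo (q k : ℕ) : ℕ := ∑ i ∈ Finset.range k, q ^ i

theorem geo_succ (q k : ℕ) : geo q (k + 1) = q * geo q k + 1 := by
  unfold geo
  rw [Finset.sum_range_succ', Finset.mul_sum, pow_zero]
  simp only [pow_succ']

theorem geo_mul {q : ℕ} (hq : 1 ≤ q) (k : ℕ) : (q - 1) * geo q k = q ^ k - 1 := by
  obtain ⟨r, rfl⟩ := Nat.exists_eq_add_of_le' hq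
  induction k with
  | zero => simp [geo]
  | succ k ih =>
    have h1 : 1 ≤ (r + 1) ^ k := Nat.one_le_pow _ _ (by omega)
    rw [geo_succ, pow_succ]
    simp only [Nat.add_sub_cancel] at ih ⊢
    zify [h1] at ih
    have : 1 ≤ (r + 1) ^ k * (r + 1) := Nat.one_le_iff_ne_zero.2 (by positivity)
    zify [this]
    linear_combination (r + 1 : ℤ) * ih

theorem cop_geo (q k : ℕ) : (geo q (k + 1)).Coprime q := by
  rw [geo_succ]; simp

theorem cop_pred {q : ℕ} (hq : 1 ≤ q) (k : ℕ) : (q ^ (k + 1) - 1).Coprime q := by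
  have h : 1 ≤ q ^ (k + 1) := Nat.one_le_pow _ _ hq
  refine Nat.Coprime.coprime_dvd_right (dvd_pow_self q (Nat.succ_ne_zero k)) ?_
  exact (Nat.coprime_self_sub_left h).2 (by simp)

theorem cop_iff {F : Type*} [Field F] [Finite F] {m : ℕ} :
    m.Coprime (Nat.card F) ↔ ¬ ringChar F ∣ m := by
  haveI := Fintype.ofFinite F
  obtain ⟨e, hp, he⟩ := FiniteField.card F (ringChar F)
  rw [Nat.card_eq_fintype_card, he, Nat.coprime_pow_right_iff e.pos, Nat.coprime_comm,
    hp.coprime_iff_not_dvd]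

end Arith

section Act

variable {F : Type*} [Field F] {G : Type*} [Group G] {V : Type*} [AddCommGroup V] [Module F V]
  [DistribMulAction G V] [SMulCommClass G F V]

variable (F G) in
/-- stabiliser of a point -/
abbrev ps (x : V) : Subgroup G := stabilizer G (F ∙ x)

variable (G) in
/-- the elements fixing all points of `L` -/
def Dl (L : Submodule F V) : Subgroup G := ⨅ v ∈ L, ps F G v

theorem mem_Dl {L : Submodule F V} {g : G} : g ∈ Dl G L ↔ ∀ v ∈ L, g ∈ ps F G v := by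
  simp [Dl, Subgroup.mem_iInf]

theorem mem_smul_iff {g : G} {S : Submodule F V} {v : V} : v ∈ g • S ↔ g⁻¹ • v ∈ S := by
  rw [Submodule.mem_smul_pointwise_iff_exists]
  exact ⟨fun ⟨b, hb, e⟩ => by simpa [← e] using hb, fun h => ⟨_, h, smul_inv_smul _ _⟩⟩

theorem smul_pt (g : G) (x : V) : g • (F ∙ x) = F ∙ (g • x) := by
  rw [Submodule.smul_span, Set.smul_set_singleton]

theorem smul_pl (g : G) (x y : V) : g • pl F x y = pl F (g • x) (g • y) := by
  rw [pl, Submodule.smul_sup', smul_pt, smul_pt, pl]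

theorem card_smul (g : G) (S : Submodule F V) : Nat.card ↥(g • S) = Nat.card S :=
  Nat.card_congr ⟨fun v => ⟨g⁻¹ • v.1, mem_smul_iff.1 v.2⟩,
    fun v => ⟨g • v.1, mem_smul_iff.2 (by simp)⟩, fun v => by simp, fun v => by simp⟩

theorem inv_iff_le_stab {A : Subgroup G} {S : Submodule F V} :
    Inv A (S : Set V) ↔ A ≤ stabilizer G S := by
  constructor
  · intro h g hg
    rw [mem_stabilizer_iff]
    ext v
    rw [mem_smul_iff]
    exact ⟨fun hv => by simpa using h g hg _ hv, fun hv => h _ (A.inv_mem hg) _ hv⟩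
  · intro h g hg v hv
    have := mem_stabilizer_iff.1 (h hg)
    rw [SetLike.mem_coe, ← this, mem_smul_iff]
    simpa using hv

theorem stab_mem {g : G} {T : Submodule F V} (hg : g ∈ stabilizer G T) {v : V} (hv : v ∈ T) :
    g • v ∈ T :=
  (inv_iff_le_stab.2 le_rfl) g hg v hv

theorem mem_ps {g : G} {x : V} : g ∈ ps F G x ↔ ∃ a : F, a ≠ 0 ∧ g • x = a • x := by
  rw [mem_stabilizer_iff, smul_pt, eq_comm, pt_eq_iff]
  simp only [eq_comm]

theorem mem_ps' {g : G} {x : V} : g ∈ ps F G x ↔ (F ∙ (g • x)) = F ∙ x := by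
  rw [mem_stabilizer_iff, smul_pt]

theorem mem_ps_of_mem {g : G} {x : V} (h : g • x ∈ (F ∙ x)) : g ∈ ps F G x := by
  by_cases hx : x = 0
  · exact mem_ps'.2 (by simp [hx])
  · exact mem_ps'.2 (pt_eq_of_mem (smul_ne0 hx) h)

theorem mem_ps_of_eq {g : G} {x : V} (h : g • x = x) : g ∈ ps F G x := mem_ps'.2 (by rw [h])

theorem ps_congr {x y : V} (h : (F ∙ x) = F ∙ y) : ps F G x = ps F G y := by
  unfold ps; rw [h]

theorem smul_not_mem_pt {g : G} {x y : V} (h : y ∉ (F ∙ x)) : g • y ∉ (F ∙ (g • x)) := by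
  rw [← smul_pt, mem_smul_iff, inv_smul_smul]; exact h

theorem smul_not_mem {g : G} {T : Submodule F V} (hg : g ∈ stabilizer G T) {y : V} (h : y ∉ T) :
    g • y ∉ T := fun hc => h (by simpa using stab_mem ((stabilizer G T).inv_mem hg) hc)

theorem inv_pt {A : Subgroup G} {x : V} (h : A ≤ ps F G x) : Inv A ((F ∙ x : Submodule F V) : Set V) :=
  inv_iff_le_stab.2 h

theorem inv_top (A : Subgroup G) : Inv A ((⊤ : Submodule F V) : Set V) := fun _ _ _ _ => trivial

theorem inv_bot (A : Subgroup G) : Inv A ((⊥ : Submodule F V) : Set V) := fun g _ v hv => by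
  rw [SetLike.mem_coe, Submodule.mem_bot] at hv ⊢; rw [hv, smul_zero]

theorem inv_span {A : Subgroup G} {Y : Set V} (h : Inv A Y) :
    Inv A (Submodule.span F Y : Set V) := by
  intro g hg v hv
  have : Submodule.span F Y ≤ (Submodule.span F Y).comap (DistribSMul.toLinearMap F V g) :=
    Submodule.span_le.2 fun y hy => Submodule.subset_span (h g hg y hy)
  exact this hv

theorem inv_sup {A : Subgroup G} {S T : Submodule F V} (h : Inv A (S : Set V))
    (h' : Inv A (T : Set V)) : Inv A ((S ⊔ T : Submodule F V) : Set V) := by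
  intro g hg v hv
  obtain ⟨a, ha, c, hc, rfl⟩ := Submodule.mem_sup.1 hv
  rw [smul_add]
  exact Submodule.add_mem_sup (h g hg a ha) (h' g hg c hc)

theorem ps_inf_le_pl (x y : V) : ps F G x ⊓ ps F G y ≤ stabilizer G (pl F x y) :=
  inv_iff_le_stab.1 (inv_sup (inv_pt inf_le_left) (inv_pt inf_le_right))

theorem smul_pl_eq [Finite V] {g : G} {x y : V} (h : g • x ∈ pl F x y) (h' : g • y ∈ pl F x y) :
    g ∈ stabilizer G (pl F x y) := by
  refine eq_of_le_of_card_ge ?_ (card_smul g _).ge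
  rw [smul_pl]; exact pl_le.2 ⟨h, h'⟩

theorem Dl_le_stab (L : Submodule F V) : Dl G L ≤ stabilizer G L :=
  inv_iff_le_stab.1 fun g hg v hv => pt_le.2 hv (stab_mem (mem_Dl.1 hg v hv) (self_mem_pt v))

variable (F G V) in
/-- double transitivity on points (for a group containing the scalars) -/
def T2 : Prop :=
  ∀ x y x' y' : V, x ≠ 0 → y ∉ (F ∙ x) → x' ≠ 0 → y' ∉ (F ∙ x') →
    ∃ g : G, g • (F ∙ x) = (F ∙ x') ∧ g • y = y'

end Act

/-- an invariant perfect pairing, with a subgroup `Z` inducing the scalars -/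
structure Pr (F G V V' : Type*) [Field F] [Group G] [AddCommGroup V] [AddCommGroup V']
    [Module F V] [Module F V'] [DistribMulAction G V] [DistribMulAction G V'] where
  b : V →ₗ[F] V' →ₗ[F] F
  inv : ∀ (g : G) (v : V) (φ : V'), b (g • v) (g • φ) = b v φ
  sepL : ∀ v, (∀ φ, b v φ = 0) → v = 0
  sepR : ∀ φ, (∀ v, b v φ = 0) → φ = 0
  Z : Subgroup G
  zv : ∀ c : F, c ≠ 0 → ∃ g ∈ Z, ∀ v : V, g • v = c • v
  zv' : ∀ c : F, c ≠ 0 → ∃ g ∈ Z, ∀ φ : V', g • φ = c • φ
  sv : ∀ g ∈ Z, ∃ c : F, ∀ v : V, g • v = c • v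
  sv' : ∀ g ∈ Z, ∃ c : F, ∀ φ : V', g • φ = c • φ

variable {F G V V' : Type*} [Field F] [Group G] [AddCommGroup V] [AddCommGroup V']
  [Module F V] [Module F V'] [DistribMulAction G V] [DistribMulAction G V']

namespace Pr

/-- the dual pairing -/
def flip (P : Pr F G V V') : Pr F G V' V where
  b := P.b.flip
  inv g φ v := P.inv g v φ
  sepL := P.sepR
  sepR := P.sepL
  Z := P.Z
  zv := P.zv'
  zv' := P.zv
  sv := P.sv'
  sv' := P.sv

@[simp] theorem flip_b (P : Pr F G V V') (φ : V') (v : V) : P.flip.b φ v = P.b v φ := rfl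

@[simp] theorem flip_Z (P : Pr F G V V') : P.flip.Z = P.Z := rfl

variable (P : Pr F G V V')

theorem inv' (g : G) (v : V) (φ : V') : P.b (g • v) φ = P.b v (g⁻¹ • φ) := by
  rw [← P.inv g v, smul_inv_smul]

theorem inv'' (g : G) (v : V) (φ : V') : P.b v (g • φ) = P.b (g⁻¹ • v) φ := by
  rw [← P.inv g (g⁻¹ • v), smul_inv_smul]

/-- annihilator -/
def perp (S : Submodule F V) : Submodule F V' where
  carrier := {φ | ∀ v ∈ S, P.b v φ = 0}
  zero_mem' := fun _ _ => map_zero _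
  add_mem' := fun {a b} ha hb v hv => by rw [map_add, ha v hv, hb v hv, add_zero]
  smul_mem' := fun c a ha v hv => by rw [map_smul, ha v hv, smul_zero]

theorem mem_perp {S : Submodule F V} {φ : V'} : φ ∈ P.perp S ↔ ∀ v ∈ S, P.b v φ = 0 := Iff.rfl

theorem perp_anti {S T : Submodule F V} (h : S ≤ T) : P.perp T ≤ P.perp S :=
  fun _ hφ v hv => hφ v (h hv)

theorem perp_sup (S T : Submodule F V) : P.perp (S ⊔ T) = P.perp S ⊓ P.perp T := by
  refine le_antisymm (le_inf (P.perp_anti le_sup_left) (P.perp_anti le_sup_right)) ?_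
  rintro φ ⟨h1, h2⟩ v hv
  obtain ⟨a, ha, c, hc, rfl⟩ := Submodule.mem_sup.1 hv
  rw [map_add, LinearMap.add_apply, h1 a ha, h2 c hc, add_zero]

theorem le_perp_perp (S : Submodule F V) : S ≤ P.flip.perp (P.perp S) :=
  fun v hv _ hφ => hφ v hv

theorem inv_perp {A : Subgroup G} {S : Submodule F V} (h : Inv A (S : Set V)) :
    Inv A (P.perp S : Set V') := by
  intro g hg φ hφ v hv
  rw [P.inv'']
  exact hφ _ (h _ (A.inv_mem hg) v hv)

theorem perp_span {Y : Set V} {φ : V'} :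
    φ ∈ P.perp (Submodule.span F Y) ↔ ∀ y ∈ Y, P.b y φ = 0 := by
  refine ⟨fun h y hy => h y (Submodule.subset_span hy), fun h v hv => ?_⟩
  have : Submodule.span F Y ≤ LinearMap.ker (P.b.flip φ) := Submodule.span_le.2 h
  exact this hv

theorem mem_perp_pt {x : V} {φ : V'} : φ ∈ P.perp (F ∙ x) ↔ P.b x φ = 0 := by
  rw [perp_span]; simp

theorem mem_perp_pl {x y : V} {φ : V'} :
    φ ∈ P.perp (pl F x y) ↔ P.b x φ = 0 ∧ P.b y φ = 0 := by
  rw [pl, perp_sup, Submodule.mem_inf, mem_perp_pt, mem_perp_pt]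

theorem Z_le_stab [SMulCommClass G F V] (S : Submodule F V) : P.Z ≤ stabilizer G S :=
  inv_iff_le_stab.1 fun g hg v hv => by
    obtain ⟨c, hc⟩ := P.sv g hg
    rw [hc]; exact S.smul_mem c hv

theorem Z_le_stab' [SMulCommClass G F V'] (S : Submodule F V') : P.Z ≤ stabilizer G S :=
  P.flip.Z_le_stab S

theorem Z_le_Dl [SMulCommClass G F V] (L : Submodule F V) : P.Z ≤ Dl G L :=
  fun _ hg => mem_Dl.2 fun _ _ => P.Z_le_stab _ hg

theorem smul_mem_orb {A : Subgroup G} (hA : P.Z ≤ A) {z w : V} (h : w ∈ orb A z) {c : F}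
    (hc : c ≠ 0) : c • w ∈ orb A z := by
  obtain ⟨g, hg, e⟩ := P.zv c hc
  rw [← e]; exact inv_orb A z g (hA hg) w h

theorem mem_orb_of_pt [SMulCommClass G F V] {A : Subgroup G} (hA : P.Z ≤ A) {z w : V} {g : G}
    (hg : g ∈ A) (h : g • (F ∙ z) = F ∙ w) : w ∈ orb A z := by
  rw [smul_pt] at h
  obtain ⟨a, ha, rfl⟩ := pt_eq_iff.1 h
  exact P.smul_mem_orb hA ⟨g, hg, rfl⟩ ha

section Count

variable [Finite G] [SMulCommClass G F V]

theorem ncard_orb_pt [Finite V] {A : Subgroup G} (hA : P.Z ≤ A) {z : V} (hz : z ≠ 0) :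
    (orb A z).ncard = (Nat.card F - 1) * (orb A (F ∙ z)).ncard := by
  have h := orb_dc A z (F ∙ z)
  have e1 : orb (A ⊓ stabilizer G z) (F ∙ z) = {F ∙ z} := by
    ext p
    constructor
    · rintro ⟨g, hg, rfl⟩; exact mem_ps_of_eq hg.2
    · rintro rfl; exact mem_orb_self _ _
  have e2 : orb (A ⊓ stabilizer G (F ∙ z)) z =
      ((F ∙ z : Submodule F V) : Set V) \ (⊥ : Submodule F V) := by
    ext v
    constructor
    · rintro ⟨g, hg, rfl⟩; exact ⟨stab_mem hg.2 (self_mem_pt z), smul_ne0 hz⟩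
    · rintro ⟨h1, h2⟩
      exact P.mem_orb_of_pt (le_inf hA (P.Z_le_stab _)) (Subgroup.one_mem _)
        (by rw [one_smul, pt_eq_of_mem h2 h1])
  rw [e1, e2, Set.ncard_singleton, ncard_diff bot_le, card_pt hz, card_bot] at h
  linarith

theorem ncard_orb_mul' [Finite V] {A : Subgroup G} (hA : P.Z ≤ A) {z : V} (hz : z ≠ 0) :
    (orb A z).ncard * Nat.card ↥(A ⊓ ps F G z) = (Nat.card F - 1) * Nat.card A := by
  rw [P.ncard_orb_pt hA hz, mul_assoc, ncard_orb_mul]

/-- double counting, a vector and a covector -/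
theorem orb_dc1 [Finite V] [Finite V'] [SMulCommClass G F V'] {A : Subgroup G} (hA : P.Z ≤ A)
    {z : V} (hz : z ≠ 0) {w : V'} (hw : w ≠ 0) :
    (orb A z).ncard * (orb (A ⊓ ps F G z) w).ncard =
      (orb A w).ncard * (orb (A ⊓ ps F G w) z).ncard := by
  have h := orb_dc A (F ∙ z) (F ∙ w)
  rw [P.ncard_orb_pt hA hz, P.flip.ncard_orb_pt hA hw,
    P.flip.ncard_orb_pt (le_inf hA (P.Z_le_stab _)) hw,
    P.ncard_orb_pt (le_inf hA (P.Z_le_stab' _)) hz]
  linear_combination (Nat.card F - 1) * (Nat.card F - 1) * h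

/-- double counting, two vectors -/
theorem orb_dc2 [Finite V] {A : Subgroup G} (hA : P.Z ≤ A) {z : V} (hz : z ≠ 0) {w : V}
    (hw : w ≠ 0) : (orb A z).ncard * (orb (A ⊓ ps F G z) w).ncard =
      (orb A w).ncard * (orb (A ⊓ ps F G w) z).ncard := by
  have h := orb_dc A (F ∙ z) (F ∙ w)
  rw [P.ncard_orb_pt hA hz, P.ncard_orb_pt hA hw,
    P.ncard_orb_pt (le_inf hA (P.Z_le_stab _)) hw,
    P.ncard_orb_pt (le_inf hA (P.Z_le_stab _)) hz]
  linear_combination (Nat.card F - 1) * (Nat.card F - 1) * h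

theorem orb_dvd [Finite V] [Finite F] {A B : Subgroup G} (hB : P.Z ≤ B) (hBA : B ≤ A) {k m : ℕ}
    (hk : Nat.card A = k * Nat.card B) {z : V} (hz : z ≠ 0)
    (hm : (orb A z).ncard = (Nat.card F - 1) * m) :
    ∃ j, 0 < j ∧ (orb B z).ncard = (Nat.card F - 1) * j ∧ m ∣ k * j := by
  refine ⟨_, ncard_orb_pos _ _, P.ncard_orb_pt hB hz, ?_⟩
  have h := ncard_orb_dvd hBA hk (F ∙ z)
  rw [P.ncard_orb_pt (hB.trans hBA) hz] at hm
  have : 0 < Nat.card F - 1 := by have := two_le_q (F := F); omega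
  rwa [Nat.eq_of_mul_eq_mul_left this hm] at h

/-- a subgroup of index prime to `q` stays transitive on a set of size `(q - 1) q ^ s` -/
theorem of_cop [Finite V] [Finite F] {A B : Subgroup G} {T : Set V} (h : Tr A T) (hi : Inv A T)
    (hB : P.Z ≤ B) (hBA : B ≤ A) {k s : ℕ} (hk : Nat.card A = k * Nat.card B)
    (hc : k.Coprime (Nat.card F)) (h0 : (0 : V) ∉ T)
    (hs : T.ncard = (Nat.card F - 1) * Nat.card F ^ s) : Tr B T := by
  refine Tr.of_ncard_le (Set.toFinite _) (hi.mono hBA) fun z hz => ?_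
  obtain ⟨j, j0, j1, j2⟩ := P.orb_dvd hB hBA hk (z := z) (by rintro rfl; exact h0 hz)
    (by rw [h.orb_eq hi hz, hs])
  rw [hs, j1]
  exact Nat.mul_le_mul_left _
    (Nat.le_of_dvd j0 ((Nat.Coprime.pow_left s hc.symm).dvd_of_dvd_mul_left j2))

end Count

end Pr

variable [SMulCommClass G F V] [SMulCommClass G F V']

/-- a group containing the scalars, doubly transitive on points and on hyperplanes;
the dimension is `s + 3` -/
structure St (F G V V' : Type*) [Field F] [Group G] [AddCommGroup V] [AddCommGroup V']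
    [Module F V] [Module F V'] [DistribMulAction G V] [DistribMulAction G V']
    [SMulCommClass G F V] [SMulCommClass G F V'] extends Pr F G V V' where
  s : ℕ
  cV : Nat.card V = Nat.card F ^ (s + 3)
  cV' : Nat.card V' = Nat.card F ^ (s + 3)
  t : T2 F G V
  t' : T2 F G V'

namespace St

/-- the dual set-up -/
def flip (S : St F G V V') : St F G V' V where
  toPr := S.toPr.flip
  s := S.s
  cV := S.cV'
  cV' := S.cV
  t := S.t'
  t' := S.t

variable (S : St F G V V')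

@[simp] theorem flip_b (φ : V') (v : V) : S.flip.b φ v = S.b v φ := rfl

@[simp] theorem flip_s : S.flip.s = S.s := rfl

@[simp] theorem flip_Z : S.flip.Z = S.Z := rfl

theorem flip_flip : S.flip.flip = S := rfl

/-- special triples: the stabiliser of (point, line, hyperplane) has index prime to `q` -/
structure Sp (x y : V) (φ : V') : Prop where
  hx : x ≠ 0
  hφ : φ ≠ 0
  xφ : S.b x φ = 0
  yφ : S.b y φ = 0
  yx : y ∉ (F ∙ x)
  nd : (orb (⊤ : Subgroup G) ((F ∙ x), pl F x y, (F ∙ φ))).ncard.Coprime (Nat.card F)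

variable {S} in
theorem Sp.hy {x y : V} {φ : V'} (h : S.Sp x y φ) : y ≠ 0 := ne0_of_not_mem h.yx

variable {S} in
theorem Sp.smul {x y : V} {φ : V'} (h : S.Sp x y φ) (g : G) : S.Sp (g • x) (g • y) (g • φ) :=
  ⟨smul_ne0 h.hx, smul_ne0 h.hφ, by rw [S.inv, h.xφ], by rw [S.inv, h.yφ], smul_not_mem_pt h.yx, by
    rw [orb_eq_of_mem (A := ⊤) (z := ((F ∙ x), pl F x y, (F ∙ φ)))
      ⟨g, trivial, by simp only [Prod.smul_mk, smul_pt, smul_pl]⟩]
    exact h.nd⟩

variable {S} in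
/-- `Sp` only depends on the point, the line and the hyperplane -/
theorem Sp.congr {x y x' y' : V} {φ φ' : V'} (h : S.Sp x y φ) (e1 : (F ∙ x') = F ∙ x)
    (e2 : pl F x' y' = pl F x y) (e3 : (F ∙ φ') = F ∙ φ) : S.Sp x' y' φ' := by
  have hp : φ' ∈ S.perp (pl F x' y') := by
    rw [e2]; exact pt_le.2 (S.mem_perp_pl.2 ⟨h.xφ, h.yφ⟩) (e3 ▸ self_mem_pt φ')
  refine ⟨?_, ?_, (S.mem_perp_pl.1 hp).1, (S.mem_perp_pl.1 hp).2, fun hc => h.yx ?_, ?_⟩
  · rintro rfl
    exact h.hx (by simpa using e1.symm)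
  · rintro rfl
    exact h.hφ (by simpa using e3.symm)
  · have : pl F x' y' ≤ (F ∙ x') := pl_le.2 ⟨self_mem_pt _, hc⟩
    rw [e2, e1] at this
    exact this (right_mem_pl x y)
  · rw [e1, e2, e3]; exact h.nd

/-- the union of the special lines through `x` in `φ` (see `mem_W1` in `Sing/Gam`) -/
def W1 (x : V) (φ : V') : Submodule F V := (F ∙ x) ⊔ Submodule.span F {v | S.Sp x v φ}

/-- the hyperplanes in which the line through `x, y` is special (see `mem_Lam` in `Sing/Gam`) -/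
def Lam (x y : V) : Submodule F V' := Submodule.span F {ψ | S.Sp x y ψ}

/-- the annihilator of the dual `W1` -/
def W (x : V) (φ : V') : Submodule F V := S.flip.perp (S.flip.W1 φ x)

/-- the parameter `γ = q ^ g` -/
structure HasG (γ : ℕ) : Prop where
  cW : ∀ {x φ}, x ≠ 0 → φ ≠ 0 → S.b x φ = 0 → Nat.card (S.W1 x φ) = Nat.card F * γ
  cL : ∀ {x y}, x ≠ 0 → y ∉ (F ∙ x) → Nat.card (S.Lam x y) = γ
  pow : ∃ g, γ = Nat.card F ^ (g + 1)

/-- the symmetric situation -/
structure Hyp (γ : ℕ) : Prop where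
  hγ : S.HasG γ
  hγ' : S.flip.HasG γ
  n4 : Nat.card F ^ 2 * γ ≠ Nat.card F ^ (S.s + 3)
  h4 : Nat.card F ^ 2 ∣ γ

variable {S} in
theorem Hyp.flip {γ : ℕ} (H : S.Hyp γ) : S.flip.Hyp γ := ⟨H.hγ', H.hγ, H.n4, H.h4⟩

end St

end Cfsg.Agent.Sing
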