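import Cfsg.Agent.Sing.G2

/-!
# Transitivity on points
-/

set_option autoImplicit false
set_option linter.unusedSectionVars false
set_option linter.style.haveILetI false

namespace Cfsg.Agent.Sing

open MulAction Pointwise Cfsg.Agent.Proj.CK

variable {F G V : Type*} [Field F] [Group G] [AddCommGroup V] [Module F V] [DistribMulAction G V]
  [SMulCommClass G F V] [Finite F] [Finite V] [Finite G] {σ : G} {n : ℕ} {ν : V → F}

omit [Finite G] in
theorem const_of_ne {α : Type*} {f : F → α} (hn : n.Prime) (h5 : 5 ≤ n)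
    (hB : ∀ c u : F, c ≠ 0 → u ≠ 0 → f (c ^ n * u) = f u)
    (h1 : ∀ u v : F, u ≠ 0 → v ≠ 0 → f u ≠ f v → u + v ≠ 0 ∧ (f (u + v) = f u ∨ f (u + v) = f v))
    (h2 : ∀ u v : F, u ≠ 0 → v ≠ 0 → f u = f v → (∀ c : F, v ≠ c ^ n * u) → f (u + v) = f u)
    {u v : F} (hu : u ≠ 0) (hv : v ≠ 0) : f u = f v := by
  have ho : Odd n := hn.odd_of_ne_two (by omega)
  let H : Subgroup Fˣ :=
    { carrier := {y | ∀ u : F, u ≠ 0 → f (u * y) = f u}
      one_mem' := fun u _ => by simp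
      mul_mem' := fun {a b} ha hb u hu => by
        rw [Units.val_mul, ← mul_assoc, hb _ (mul_ne_zero hu a.ne_zero), ha u hu]
      inv_mem' := fun {a} ha u hu => by
        rw [← ha _ (mul_ne_zero hu a⁻¹.ne_zero), Units.inv_mul_cancel_right] }
  have hE : ∀ c : Fˣ, c ^ n ∈ H := fun c u hu => by
    rw [Units.val_pow_eq_pow_val, mul_comm, hB _ _ c.ne_zero hu]
  have key : ∀ (x : Fˣ) (u : F), u ≠ 0 → u + u * x ≠ 0 → f (u * x) ≠ f u → f (u + u * x) = f u →
      1 + (x : F) ∈ Units.val '' (H : Set Fˣ) := by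
    intro x u hu h0 hne e
    by_contra hc
    have e1 : f (-u) = f u := by rw [← hB (-1) u (by simp) hu, ho.neg_one_pow, neg_one_mul]
    have := h2 _ (-u) h0 (neg_ne_zero.2 hu) (e.trans e1.symm) fun c hc' => hc ?_
    · rw [add_neg_cancel_comm] at this
      exact hne (this.trans e)
    have c0 : c ≠ 0 := by
      rintro rfl
      rw [zero_pow hn.ne_zero, zero_mul] at hc'
      exact hu (neg_eq_zero.1 hc')
    refine ⟨_, hE (Units.mk0 (-c⁻¹) (neg_ne_zero.2 (inv_ne_zero c0))), ?_⟩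
    rw [Units.val_pow_eq_pow_val, Units.val_mk0, ho.neg_pow, inv_pow]
    apply mul_left_cancel₀ (mul_ne_zero (pow_ne_zero n c0) hu)
    field_simp
    apply mul_left_cancel₀ hu
    linear_combination hc'
  have hi : H.index ≤ 3 := by
    have hs : (H : Set Fˣ)ᶜ ⊆ {x : Fˣ | 1 + (x : F) ∈ Units.val '' (H : Set Fˣ)} ∪
        {x : Fˣ | 1 + ((x⁻¹ : Fˣ) : F) ∈ Units.val '' (H : Set Fˣ)} := by
      intro x hx
      obtain ⟨u, hu, hne⟩ : ∃ u : F, u ≠ 0 ∧ f (u * x) ≠ f u := by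
        by_contra! hc
        exact hx hc
      obtain ⟨a1, a2 | a2⟩ := h1 u (u * x) hu (mul_ne_zero hu x.ne_zero) hne.symm
      · exact Or.inl (key x u hu a1 hne a2)
      · refine Or.inr (key x⁻¹ (u * x) (mul_ne_zero hu x.ne_zero) ?_ ?_ ?_) <;>
          rw [Units.mul_inv_cancel_right]
        exacts [add_comm u _ ▸ a1, hne.symm, add_comm u _ ▸ a2]
    have c0 : (Units.val '' (H : Set Fˣ)).ncard ≤ Nat.card H := Set.ncard_image_le
    have c1 := Set.ncard_le_ncard_of_injOn (s := {x : Fˣ | 1 + (x : F) ∈ Units.val '' (H : Set Fˣ)})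
      (t := Units.val '' (H : Set Fˣ)) (fun x => 1 + (x : F)) (fun _ h => h) fun x _ y _ e => Units.ext (add_left_cancel e)
    have c2 := Set.ncard_le_ncard_of_injOn
      (s := {x : Fˣ | 1 + ((x⁻¹ : Fˣ) : F) ∈ Units.val '' (H : Set Fˣ)})
      (t := Units.val '' (H : Set Fˣ)) (fun x => 1 + ((x⁻¹ : Fˣ) : F)) (fun _ h => h)
      fun x _ y _ e => inv_injective (Units.ext (add_left_cancel e))
    have c3 := (Set.ncard_le_ncard hs).trans (Set.ncard_union_le _ _)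
    have c4 := Set.ncard_add_ncard_compl (H : Set Fˣ)
    have c5 := H.index_mul_card
    have c6 : (H : Set Fˣ).ncard = Nat.card H := rfl
    exact Nat.le_of_mul_le_mul_right (c := Nat.card H) (by omega) Nat.card_pos
  have hy : ∀ y : Fˣ, y ∈ H := fun y => by
    have c : Nat.Coprime n H.index :=
      Nat.Coprime.symm (Nat.coprime_of_lt_prime H.index_ne_zero_of_finite (by omega) hn).symm
    obtain ⟨m, hm⟩ := (powCoprime (G := Fˣ ⧸ H) (n := n) c.symm).surjective (y : Fˣ ⧸ H)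
    obtain ⟨m, rfl⟩ := QuotientGroup.mk_surjective m
    rw [← QuotientGroup.eq_one_iff, ← hm]
    exact (QuotientGroup.eq_one_iff _).2 (hE m)
  simpa [hu] using (hy (Units.mk0 (u⁻¹ * v) (mul_ne_zero (inv_ne_zero hu) hv)) u hu).symm

omit [Finite G] in
theorem const_of_eq {α : Type*} {f : F → α} (hq : Nat.card F = n + 1) (h0 : ∀ u : F, u + u = 0)
    (h1 : ∀ u v : F, u ≠ 0 → v ≠ 0 → f u ≠ f v → u + v ≠ 0 ∧ (f (u + v) = f u ∨ f (u + v) = f v))
    (h3 : ∀ u v : F, u ≠ 0 → v ≠ 0 → f u = f v → v ≠ u → f (u + v) ≠ f u →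
      n + 1 ≤ 2 * {w | w ≠ 0 ∧ f w = f (u + v)}.ncard)
    {u v : F} (hu : u ≠ 0) (hv : v ≠ 0) : f u = f v := by
  have tot : ∀ u : F, {w | w ≠ 0 ∧ f w = f u}.ncard + {w | w ≠ 0 ∧ f w ≠ f u}.ncard = n := by
    intro u
    rw [← Set.ncard_union_eq (Set.disjoint_left.2 fun w a b => b.2 a.2),
      show {w | w ≠ 0 ∧ f w = f u} ∪ {w | w ≠ 0 ∧ f w ≠ f u} = Set.univ \ {0} by
        ext w; simp only [Set.mem_union, Set.mem_setOf_eq, Set.mem_diff, Set.mem_univ,
          Set.mem_singleton_iff]; tauto,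
      Set.ncard_diff_singleton_of_mem (Set.mem_univ _), Set.ncard_univ, hq]
    rfl
  have big : ∀ u : F, u ≠ 0 → n + 1 ≤ 2 * {w | w ≠ 0 ∧ f w = f u}.ncard := by
    intro u hu
    by_contra hc
    have c1 := Set.ncard_le_ncard_of_injOn (s := {w | w ≠ 0 ∧ f w ≠ f u})
      (t := {w | w ≠ 0 ∧ f w = f u} \ {u}) (fun w => u + w) (fun w hw => by
        obtain ⟨a1, a2⟩ := h1 u w hu hw.1 (Ne.symm hw.2)
        refine ⟨⟨a1, a2.resolve_right fun a3 => hc ?_⟩, by simpa using hw.1⟩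
        have e : w + (u + w) = u := by rw [add_left_comm, h0, add_zero]
        have := h3 w (u + w) hw.1 a1 a3.symm (by simpa using hu) (by rw [e]; exact Ne.symm hw.2)
        rwa [e] at this) fun _ _ _ _ e => add_left_cancel e
    have c2 := Set.ncard_diff_singleton_add_one (s := {w | w ≠ 0 ∧ f w = f u}) (a := u) ⟨hu, rfl⟩
    have := tot u
    omega
  by_contra hne
  have c := Set.ncard_le_ncard (s := {w | w ≠ 0 ∧ f w = f v}) (t := {w | w ≠ 0 ∧ f w ≠ f u})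
    fun w hw => ⟨hw.1, fun e => hne (e.symm.trans hw.2)⟩
  have := tot u
  have := big u hu
  have := big v hv
  omega

/-- For `u ≠ 0` choose a frame vector `a u` with `ν (a u) = u` (`nu_surj`, rescale by `nu_smul`;
multiples of frame vectors are frame vectors), `f u = Om (a u)`; `Om x = f (ν x)`,
`f (c^n u) = f u` (`nu_sim`), `f (-u) = f u` (`n` odd).  (1) `f u ≠ f v` ⇒ `u + v = ν (a u + a v) ≠ 0`
and `f (u+v) ∈ {f u, f v}` (`b1`, `nu_add`).  Suppose `f` is not constant; `E = (Fˣ)^n` has prime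
index `n`.
Case `q ≠ n + 1`: (2) `f u = f v`, `v ∉ u E` ⇒ `f (u+v) = f u` (`b2`).  For `x ∉ E` there is `u` with
`f u ≠ f (u x)` (`x` generates `Fˣ/E`); `w = u + u x`.  If `f w = f u` then `w ∈ u E` (else (2) for
`w, -u` gives `f (u x) = f u`), i.e. `1 + x ∈ E`; else likewise `1 + x⁻¹ ∈ E`.  Counting,
`(n-1) |E| ≤ 2 |E|`.
Case `q = n + 1`: `c^n = 1` for `c ≠ 0`, `-1 = 1`, `u ↦ F∙(a u)` is a bijection from `F \ 0` onto
the frame points, `k(u) = #{v ≠ 0 | f v = f u} = kk`.  Call `u` minor if `u = v + w`, `f v = f w ≠ f u`;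
`minor` gives `n + 1 ≤ 2 k(u)`.  Take `f u ≠ f v`; by (1) one of them, say `v`, is minor
(`v = u + (u+v)`), so `2 k(u) ≤ n - 1` and nothing in the part of `u` is minor; then `w ↦ u + w`
injects the complement of that part into the part minus `u`: `n - k(u) ≤ k(u) - 1`. -/
theorem GH.trans (D : GH σ n ν) {x y : V} (hx : x ≠ 0) (hy : y ≠ 0) : (F ∙ y) ∈ Om F G x := by
  haveI := fin_sub (F := F) (V := V)
  obtain ⟨a, ha⟩ : ∃ a : F → V, ∀ u, u ≠ 0 → Fr F σ (a u) ∧ ν (a u) = u := by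
    refine Classical.skolem.1 (fun u => ?_ : ∀ u : F, ∃ a, u ≠ 0 → Fr F σ a ∧ ν a = u)
    by_cases hu : u = 0
    · exact ⟨0, fun h => absurd hu h⟩
    obtain ⟨a, h1, c, h2⟩ := D.nu_surj u hu
    have c0 : c ≠ 0 := by
      rintro rfl
      rw [zero_pow D.prime.ne_zero, zero_mul] at h2
      exact D.nu_ne a h1.1 h2
    refine ⟨c⁻¹ • a, fun _ => ⟨⟨smul_ne_zero (inv_ne_zero c0) h1.1, ?_⟩, ?_⟩⟩
    · rw [ps_congr (pt_smul (inv_ne_zero c0) a)]; exact h1.2
    · rw [D.nu_smul, h2, inv_pow, inv_mul_cancel_left₀ (pow_ne_zero _ c0)]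
  have hA : ∀ x : V, x ≠ 0 → Om F G (a (ν x)) = Om F G x := fun x hx =>
    orb_eq_of_mem (D.nu_sim x _ 1 hx (ha _ (D.nu_ne x hx)).1.1
      (by rw [(ha _ (D.nu_ne x hx)).2, one_pow, one_mul]))
  have nm : ∀ u v : F, u ≠ 0 → v ≠ 0 → (∀ c : F, v ≠ c ^ n * u) → a v ∉ (F ∙ a u) := by
    intro u v hu hv h hc
    obtain ⟨c, hc⟩ := mem_pt.1 hc
    exact h c (by rw [← (ha v hv).2, ← hc, D.nu_smul, (ha u hu).2])
  have ad : ∀ u v : F, u ≠ 0 → v ≠ 0 → a v ∉ (F ∙ a u) → a u + a v ≠ 0 ∧ u + v ≠ 0 ∧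
      Om F G (a (u + v)) = Om F G (a u + a v) := by
    intro u v hu hv h
    have h0 : a u + a v ≠ 0 := ne0_of_not_mem (S := F ∙ a u)
      fun hc => h ((Submodule.add_mem_iff_right _ (self_mem_pt _)).1 hc)
    have e := D.nu_add _ _ (ha u hu).1 (ha v hv).1 h
    rw [(ha u hu).2, (ha v hv).2] at e
    exact ⟨h0, e ▸ D.nu_ne _ h0, e ▸ hA _ h0⟩
  have mm : ∀ u v : F, a u + a v ∈ pl F (a u) (a v) := fun u v =>
    add_mem (left_mem_pl _ _) (right_mem_pl _ _)
  have h1 : ∀ u v : F, u ≠ 0 → v ≠ 0 → Om F G (a u) ≠ Om F G (a v) → u + v ≠ 0 ∧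
      (Om F G (a (u + v)) = Om F G (a u) ∨ Om F G (a (u + v)) = Om F G (a v)) := by
    intro u v hu hv h
    have h' : (F ∙ a v) ∉ Om F G (a u) := fun hc => h (orb_eq_of_mem hc).symm
    have hn : a v ∉ (F ∙ a u) := fun hc => h' (pt_eq_of_mem (ha v hv).1.1 hc ▸ mem_orb_self _ _)
    obtain ⟨b1, b2, b3⟩ := ad u v hu hv hn
    rw [b3]
    exact ⟨b2, (D.b1 (ha u hu).1 (ha v hv).1 hn h' (mm u v) b1).imp orb_eq_of_mem orb_eq_of_mem⟩
  suffices e : Om F G (a (ν x)) = Om F G (a (ν y)) by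
    rw [← hA x hx, e, hA y hy]; exact mem_orb_self _ _
  by_cases hq : Nat.card F = n + 1
  · have hp : ∀ c : F, c ≠ 0 → c ^ n = 1 := fun c hc => by
      haveI := Fintype.ofFinite F
      have := FiniteField.pow_card_sub_one_eq_one c hc
      rwa [← Nat.card_eq_fintype_card, hq] at this
    have ho : Odd n := D.prime.odd_of_ne_two (by have := D.h13; omega)
    refine const_of_eq (f := fun u => Om F G (a u)) hq (fun u => ?_) h1 (fun u v hu hv e h h' => ?_)
      (D.nu_ne x hx) (D.nu_ne y hy)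
    · have := hp (-1) (by simp)
      rw [ho.neg_one_pow] at this
      linear_combination -u * this
    have hn := nm u v hu hv fun c hc => by
      by_cases c0 : c = 0
      · rw [c0, zero_pow D.prime.ne_zero, zero_mul] at hc; exact hv hc
      · rw [hp c c0, one_mul] at hc; exact h hc
    obtain ⟨b1, b2, b3⟩ := ad u v hu hv hn
    simp only [b3] at h' ⊢
    refine (D.minor (ha u hu).1 (ha v hv).1 hn (e ▸ mem_orb_self _ _)
      fun hc => h' (orb_eq_of_mem hc)).trans (Nat.mul_le_mul_left _ ?_)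
    refine (Set.ncard_le_ncard (t := (fun w => F ∙ a w) '' _) ?_).trans Set.ncard_image_le
    rintro p ⟨p1, p2⟩
    obtain ⟨b, b0, rfl⟩ := Om_sub_pts b1 p1
    have n0 := D.nu_ne b b0
    refine ⟨ν b, ⟨n0, (hA b b0).trans (orb_eq_of_mem p1)⟩, (pt_eq_of_mem b0 ?_).symm⟩
    exact D.nu_inj _ b 1 (ha _ n0).1 ⟨b0, p2⟩ (by rw [(ha _ n0).2, one_pow, one_mul])
  · refine const_of_ne (f := fun u => Om F G (a u)) D.prime (by have := D.h13; omega)
      (fun c u hc hu => ?_) h1 (fun u v hu hv e h => ?_) (D.nu_ne x hx) (D.nu_ne y hy)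
    · have h0 := mul_ne_zero (pow_ne_zero n hc) hu
      exact orb_eq_of_mem (D.nu_sim _ _ c (ha u hu).1.1 (ha _ h0).1.1
        (by rw [(ha _ h0).2, (ha u hu).2]))
    have hn := nm u v hu hv h
    obtain ⟨b1, -, b3⟩ := ad u v hu hv hn
    exact b3.trans (orb_eq_of_mem (((D.b2 (ha u hu).1 (ha v hv).1 hn
      (e ▸ mem_orb_self _ _)).resolve_right fun k => hq k.1) _ (mm u v) b1))

end Cfsg.Agent.Sing
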