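import Cfsg.Agent.Sing.Def

/-!
# Cameron–Kantor over `𝔽_q`: pairings, Fourier inversion, flags (port of `Proj/CKPair`)
-/

set_option autoImplicit false
set_option linter.unusedSectionVars false
set_option linter.style.haveILetI false

namespace Cfsg.Agent.Sing

open MulAction Pointwise Cfsg.Agent.Proj.CK

variable {F G V V' : Type*} [Field F] [Group G] [AddCommGroup V] [AddCommGroup V']
  [Module F V] [Module F V'] [DistribMulAction G V] [DistribMulAction G V']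
  [SMulCommClass G F V] [SMulCommClass G F V'] [Finite F] [Finite V] [Finite V']

namespace Pr

variable (P : Pr F G V V')

include P in
theorem finrank_eq : Module.finrank F V' = Module.finrank F V := by
  have h1 : Function.Injective P.b := (injective_iff_map_eq_zero _).2 fun v hv =>
    P.sepL v fun φ => by rw [hv]; rfl
  have h2 : Function.Injective P.b.flip := (injective_iff_map_eq_zero _).2 fun v hv =>
    P.sepR v fun φ => by rw [← LinearMap.flip_apply, hv]; rfl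
  have a1 := LinearMap.finrank_le_finrank_of_injective h1
  have a2 := LinearMap.finrank_le_finrank_of_injective h2
  have e1 : Module.finrank F (V' →ₗ[F] F) = Module.finrank F V' := Subspace.dual_finrank_eq
  have e2 : Module.finrank F (V →ₗ[F] F) = Module.finrank F V := Subspace.dual_finrank_eq
  omega

theorem bij_flip : Function.Bijective P.b.flip := by
  have h2 : Function.Injective P.b.flip := (injective_iff_map_eq_zero _).2 fun v hv =>
    P.sepR v fun φ => by rw [← LinearMap.flip_apply, hv]; rfl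
  refine ⟨h2, (LinearMap.injective_iff_surjective_of_finrank_eq_finrank ?_).1 h2⟩
  rw [P.finrank_eq]; exact Subspace.dual_finrank_eq.symm

theorem card_mul_card_perp (S : Submodule F V) :
    Nat.card S * Nat.card (P.perp S) = Nat.card V' := by
  have e : (P.perp S).map P.b.flip = S.dualAnnihilator := by
    ext f
    rw [Submodule.mem_dualAnnihilator]
    constructor
    · rintro ⟨φ, hφ, rfl⟩ v hv; exact hφ v hv
    · intro h
      obtain ⟨φ, rfl⟩ := P.bij_flip.2 f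
      exact ⟨φ, h, rfl⟩
  have h1 := (Submodule.equivMapOfInjective _ P.bij_flip.1 (P.perp S)).finrank_eq
  have h2 := Subspace.finrank_add_finrank_dualAnnihilator_eq S
  rw [card_eq_pow S, card_eq_pow (P.perp S), ← pow_add, h1, e, h2, ← P.finrank_eq,
    Module.natCard_eq_pow_finrank (K := F) (V := V')]

include P in
theorem card_eq : Nat.card V' = Nat.card V := by
  rw [Module.natCard_eq_pow_finrank (K := F) (V := V'), Module.natCard_eq_pow_finrank (K := F) (V := V),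
    P.finrank_eq]

theorem perp_perp (S : Submodule F V) : P.flip.perp (P.perp S) = S := by
  have h1 := P.card_mul_card_perp S
  have h2 := P.flip.card_mul_card_perp (P.perp S)
  rw [P.card_eq] at h1
  have hp : 0 < Nat.card (P.perp S) := Nat.card_pos
  refine (eq_of_le_of_card_ge (P.le_perp_perp S) (le_of_eq ?_)).symm
  apply Nat.eq_of_mul_eq_mul_left hp
  rw [h2, ← h1, mul_comm]

theorem exists_sep {S : Submodule F V} {z : V} (hz : z ∉ S) : ∃ ε ∈ P.perp S, P.b z ε = 1 := by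
  obtain ⟨ε, h1, h2⟩ : ∃ ε ∈ P.perp S, P.b z ε ≠ 0 := by
    by_contra! hc
    apply hz
    rw [← P.perp_perp S]
    exact hc
  exact ⟨(P.b z ε)⁻¹ • ε, Submodule.smul_mem _ _ h1, by simp [h2]⟩

theorem le_of_perp_le {S T : Submodule F V} (h : P.perp T ≤ P.perp S) : S ≤ T := by
  rw [← P.perp_perp S, ← P.perp_perp T]
  exact P.flip.perp_anti h

open Classical in
/-- character sum over a set -/
noncomputable def sig [Fintype V'] (χ : AddChar F ℂ) (O : Set V') (z : V) : ℂ :=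
  ∑ ψ : V', if ψ ∈ O then χ (P.b z ψ) else 0

theorem sig_eq_zero [Fintype V'] {χ : AddChar F ℂ} (hχ : χ ≠ 1) {O : Set V'} {z : V} {ε : V'}
    (hε : P.b z ε ≠ 0) (hO : ∀ ψ ∈ O, ∀ c : F, ψ + c • ε ∈ O) : P.sig χ O z = 0 := by
  classical
  obtain ⟨a, ha⟩ := AddChar.ne_one_iff.1 hχ
  set c := a / P.b z ε
  have h := Equiv.sum_comp (Equiv.addRight (c • ε)) (fun ψ => if ψ ∈ O then χ (P.b z ψ) else 0)
  have h2 : ∀ ψ, (if ψ + c • ε ∈ O then χ (P.b z (ψ + c • ε)) else 0) =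
      χ a * (if ψ ∈ O then χ (P.b z ψ) else 0) := by
    intro ψ
    by_cases hψ : ψ ∈ O
    · rw [if_pos (hO ψ hψ c), if_pos hψ, map_add, map_smul, smul_eq_mul, div_mul_cancel₀ _ hε,
        AddChar.map_add_eq_mul, mul_comm]
    · have : ψ + c • ε ∉ O := fun hc => hψ (by simpa using hO _ hc (-c))
      rw [if_neg this, if_neg hψ, mul_zero]
  have h' := (Finset.sum_congr rfl (fun ψ _ => h2 ψ)).symm.trans h
  rw [← Finset.mul_sum] at h'
  unfold sig
  exact (mul_left_eq_self₀.1 h').resolve_left ha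

theorem sig_univ [Fintype V'] {χ : AddChar F ℂ} (hχ : χ ≠ 1) (z : V) [Decidable (z = 0)] :
    ∑ ψ : V', χ (P.b z ψ) = if z = 0 then (Nat.card V' : ℂ) else 0 := by
  split_ifs with h
  · simp [h]
  · obtain ⟨ε, hε⟩ : ∃ ε, P.b z ε ≠ 0 := by
      by_contra! hc; exact h (P.sepL z hc)
    have := P.sig_eq_zero hχ (O := Set.univ) hε (fun _ _ _ => trivial)
    simpa [sig] using this

/-- Fourier inversion for orbits -/
theorem fourier (A : Subgroup G) (z₁ z₂ : V)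
    (h : ∀ ψ : V', (∀ ψ' ∈ orb A ψ, P.b z₁ ψ' = P.b z₂ ψ') ∨ ∃ S : Set V', orb A ψ ⊆ S ∧
      (∀ ψ' ∈ S \ orb A ψ, P.b z₁ ψ' = P.b z₂ ψ') ∧
      (∃ ε, P.b z₁ ε ≠ 0 ∧ ∀ ψ' ∈ S, ∀ c : F, ψ' + c • ε ∈ S) ∧
      (∃ ε, P.b z₂ ε ≠ 0 ∧ ∀ ψ' ∈ S, ∀ c : F, ψ' + c • ε ∈ S)) :
    ∃ g ∈ A, g • z₁ = z₂ := by
  classical
  haveI := Fintype.ofFinite V
  haveI := Fintype.ofFinite V'
  haveI := Fintype.ofFinite F
  obtain ⟨χ, hχ⟩ : ∃ χ : AddChar F ℂ, χ ≠ 1 :=
    ⟨AddChar.FiniteField.primitiveChar_to_Complex F, by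
      simpa using AddChar.FiniteField.primitiveChar_to_Complex_isPrimitive F one_ne_zero⟩
  have hs : ∀ ψ, P.sig χ (orb A ψ) z₁ = P.sig χ (orb A ψ) z₂ := by
    intro ψ
    rcases h ψ with h | ⟨S, h1, h2, ⟨ε₁, a1, a2⟩, ε₂, b1, b2⟩
    · refine Finset.sum_congr rfl fun ψ' _ => ?_
      split_ifs with hψ
      · rw [h _ hψ]
      · rfl
    · have e : ∀ z, P.sig χ S z = P.sig χ (orb A ψ) z + P.sig χ (S \ orb A ψ) z := by
        intro z
        unfold sig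
        rw [← Finset.sum_add_distrib]
        refine Finset.sum_congr rfl fun ψ' _ => ?_
        by_cases c1 : ψ' ∈ orb A ψ
        · simp [c1, h1 c1]
        · by_cases c2 : ψ' ∈ S <;> simp [c1, c2]
      have e1 := e z₁
      have e2 := e z₂
      rw [P.sig_eq_zero hχ a1 a2] at e1
      rw [P.sig_eq_zero hχ b1 b2] at e2
      have : P.sig χ (S \ orb A ψ) z₁ = P.sig χ (S \ orb A ψ) z₂ := by
        refine Finset.sum_congr rfl fun ψ' _ => ?_
        split_ifs with hψ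
        · rw [h2 _ hψ]
        · rfl
      linear_combination e2 - e1 - this
  set Φ : V' → ℂ := fun ψ => P.flip.sig χ (orb A z₁) (-ψ) with hF
  have hFi : ∀ g ∈ A, ∀ ψ, Φ (g • ψ) = Φ ψ := by
    intro g hg ψ
    simp only [hF, sig]
    rw [← Equiv.sum_comp (MulAction.toPerm g)]
    refine Finset.sum_congr rfl fun v _ => ?_
    have : g • v ∈ orb A z₁ ↔ v ∈ orb A z₁ :=
      ⟨fun h => by simpa using inv_orb A z₁ _ (A.inv_mem hg) _ h, fun h => inv_orb A z₁ _ hg _ h⟩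
    simp only [MulAction.toPerm_apply, this, map_neg, LinearMap.neg_apply, flip_b, P.inv]
  have hsum : ∀ z : V, ∑ ψ, Φ ψ * χ (P.b z ψ) =
      if z ∈ orb A z₁ then (Nat.card V' : ℂ) else 0 := by
    intro z
    simp only [hF, sig, Finset.sum_mul]
    rw [Finset.sum_comm, Finset.sum_eq_single z]
    · split_ifs with hz
      · simp only [flip_b, ← AddChar.map_add_eq_mul, map_neg, neg_add_cancel]
        simp
      · simp
    · intro v _ hv
      split_ifs with hz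
      · have := P.sig_univ hχ (z - v)
        rw [if_neg (fun hc => hv (sub_eq_zero.1 hc).symm)] at this
        rw [← this]
        refine Finset.sum_congr rfl fun ψ _ => ?_
        rw [flip_b, ← AddChar.map_add_eq_mul, map_neg, map_sub, LinearMap.sub_apply]
        congr 1; ring
      · simp
    · simp
  have hz : ∑ ψ, Φ ψ * (χ (P.b z₁ ψ) - χ (P.b z₂ ψ)) = 0 := by
    refine Finset.sum_cancels_of_partition_cancels
      ⟨fun a c => a ∈ orb A c, ⟨mem_orb_self A, orb_symm, fun h h' => orb_trans h' h⟩⟩ ?_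
    intro ψ _
    rw [Finset.sum_congr rfl (g := fun a => Φ ψ * (χ (P.b z₁ a) - χ (P.b z₂ a)))]
    · rw [← Finset.mul_sum, Finset.sum_sub_distrib, Finset.sum_filter, Finset.sum_filter]
      have := hs ψ
      unfold sig at this
      refine mul_eq_zero_of_right _ (sub_eq_zero.2 ?_)
      convert this <;> rfl
    · intro a ha
      obtain ⟨g, hg, rfl⟩ := (Finset.mem_filter.1 ha).2
      rw [hFi g hg]
  simp only [mul_sub, Finset.sum_sub_distrib, hsum, if_pos (mem_orb_self A z₁)] at hz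
  by_contra hc
  rw [if_neg (show z₂ ∉ orb A z₁ from hc), sub_zero] at hz
  exact (Nat.card_pos (α := V')).ne' (by exact_mod_cast hz)

include P in
theorem tr (h : T2 F G V) (h4 : Nat.card F ^ 2 ≤ Nat.card V) {x x' : V} (hx : x ≠ 0)
    (hx' : x' ≠ 0) : ∃ g : G, g • x = x' := by
  have key : ∀ {u : V}, u ≠ 0 → ∃ y, y ∉ (F ∙ u) := fun {u} hu => by
    obtain ⟨y, -, hy⟩ := exists_not_mem_of_card_lt (T := (⊤ : Submodule F V)) (X := F ∙ u) (by
      have := two_le_q (F := F)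
      rw [card_pt hu, card_top]; nlinarith)
    exact ⟨y, hy⟩
  obtain ⟨y, hy⟩ := key hx
  obtain ⟨y', hy'⟩ := key hx'
  obtain ⟨g, hg, -⟩ := h x y x' y' hx hy hx' hy'
  obtain ⟨k, -, hk⟩ := P.mem_orb_of_pt (A := ⊤) le_top (Subgroup.mem_top g) hg
  exact ⟨k, hk⟩

include P in
theorem tr_dual (h : T2 F G V) (h4 : Nat.card F ^ 2 ≤ Nat.card V) {φ φ' : V'} (hφ : φ ≠ 0)
    (hφ' : φ' ≠ 0) : ∃ g : G, g • φ = φ' := by
  obtain ⟨g, -, hg⟩ := P.flip.fourier ⊤ φ φ' fun v => by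
    by_cases hv : v = 0
    · left; rintro _ ⟨g, -, rfl⟩; simp [hv]
    · right
      refine ⟨Set.univ, Set.subset_univ _, fun w hw => ?_, ?_, ?_⟩
      · by_cases hw0 : w = 0
        · simp [hw0]
        · obtain ⟨g, hg⟩ := P.tr h h4 hv hw0
          exact absurd ⟨g, trivial, hg⟩ hw.2
      · obtain ⟨ε, -, e⟩ := P.flip.exists_sep (S := ⊥) hφ
        exact ⟨ε, by rw [e]; exact one_ne_zero, fun _ _ _ => trivial⟩
      · obtain ⟨ε, -, e⟩ := P.flip.exists_sep (S := ⊥) hφ'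
        exact ⟨ε, by rw [e]; exact one_ne_zero, fun _ _ _ => trivial⟩
  exact ⟨g, hg⟩

theorem tr_stab (h : T2 F G V) {x : V} (hx : x ≠ 0) {φ φ' : V'} (hφ : φ ≠ 0) (hφ' : φ' ≠ 0)
    (e : P.b x φ = P.b x φ') : ∃ g ∈ ps F G x, g • φ = φ' := by
  refine P.flip.fourier (ps F G x) φ φ' fun v => ?_
  have hl : ∀ w ∈ (F ∙ x), P.b w φ = P.b w φ' := by
    intro w hw
    obtain ⟨a, rfl⟩ := mem_pt.1 hw
    simp [e]
  by_cases hv : v ∈ (F ∙ x)
  · left
    rintro _ ⟨g, hg, rfl⟩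
    exact hl _ (stab_mem hg hv)
  · right
    refine ⟨Set.univ, Set.subset_univ _, fun w hw => ?_, ?_, ?_⟩
    · by_cases hw0 : w ∈ (F ∙ x)
      · exact hl w hw0
      · obtain ⟨g, hg, hg'⟩ := h x v x w hx hv hx hw0
        exact absurd ⟨g, hg, hg'⟩ hw.2
    · obtain ⟨ε, -, e⟩ := P.flip.exists_sep (S := ⊥) hφ
      exact ⟨ε, by rw [e]; exact one_ne_zero, fun _ _ _ => trivial⟩
    · obtain ⟨ε, -, e⟩ := P.flip.exists_sep (S := ⊥) hφ'
      exact ⟨ε, by rw [e]; exact one_ne_zero, fun _ _ _ => trivial⟩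

/-- transitivity on flags and on antiflags -/
theorem tr_flag (h : T2 F G V) (h4 : Nat.card F ^ 2 ≤ Nat.card V) {x x' : V} (hx : x ≠ 0)
    (hx' : x' ≠ 0) {φ φ' : V'} (hφ : φ ≠ 0) (hφ' : φ' ≠ 0)
    (e : P.b x φ = 0 ↔ P.b x' φ' = 0) : ∃ g : G, g • x = x' ∧ g • (F ∙ φ) = F ∙ φ' := by
  obtain ⟨g, hg⟩ := P.tr h h4 hx hx'
  obtain ⟨c, c0, hc⟩ : ∃ c : F, c ≠ 0 ∧ P.b x' (g • φ) = P.b x' (c • φ') := by
    rw [← hg, P.inv, hg]
    by_cases h0 : P.b x' φ' = 0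
    · exact ⟨1, one_ne_zero, by rw [one_smul, h0, e.2 h0]⟩
    · exact ⟨P.b x φ / P.b x' φ', div_ne_zero (fun hc => h0 (e.1 hc)) h0, by
        rw [map_smul, smul_eq_mul, div_mul_cancel₀ _ h0]⟩
  obtain ⟨k, hk, hk'⟩ := P.tr_stab h hx' (smul_ne0 (g := g) hφ) (smul_ne_zero c0 hφ') hc
  have e1 : (k * g) • (F ∙ φ) = F ∙ φ' := by rw [smul_pt, mul_smul, hk', pt_smul c0]
  obtain ⟨u, hu, hu'⟩ := P.mem_orb_of_pt (A := ps F G φ') (P.Z_le_stab' _) (Subgroup.one_mem _)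
    (z := (k * g) • x) (w := x') (by rw [one_smul, mul_smul, hg]; exact mem_ps'.1 hk)
  exact ⟨u * (k * g), by rw [mul_smul, hu'], by rw [mul_smul, e1]; exact hu⟩

include P in
theorem t2_dual (h : T2 F G V) (h4 : Nat.card F ^ 2 ≤ Nat.card V) : T2 F G V' := by
  intro φ ψ φ' ψ' hφ hψ hφ' hψ'
  obtain ⟨g, hg⟩ := P.tr_dual h h4 hφ hφ'
  have h1 : g • ψ ∉ (F ∙ φ') := hg ▸ smul_not_mem_pt hψ
  obtain ⟨ε₁, a1, a2⟩ := P.flip.exists_sep h1
  obtain ⟨ε₂, b1, b2⟩ := P.flip.exists_sep hψ'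
  rw [mem_perp_pt, flip_b] at a1 b1
  obtain ⟨k, hk, hk'⟩ := P.flip.fourier (ps F G φ') (g • ψ) ψ' fun v => by
    by_cases hv : v = 0
    · left; rintro _ ⟨g, -, rfl⟩; simp [hv]
    · right
      refine ⟨{w | P.b w φ' = 0 ↔ P.b v φ' = 0}, ?_, fun w hw => ?_,
        ⟨ε₁, by rw [a2]; exact one_ne_zero, fun w hw c => ?_⟩,
        ⟨ε₂, by rw [b2]; exact one_ne_zero, fun w hw c => ?_⟩⟩
      · rintro _ ⟨k, hk, rfl⟩
        obtain ⟨a, a0, ha⟩ := mem_ps.1 ((ps F G φ').inv_mem hk)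
        show P.b (k • v) φ' = 0 ↔ _
        rw [P.inv', ha, map_smul, smul_eq_mul, mul_eq_zero, or_iff_right a0]
      · by_cases hw0 : w = 0
        · simp [hw0]
        · obtain ⟨k, hk, hk'⟩ := P.tr_flag h h4 hv hw0 hφ' hφ' hw.1.symm
          exact absurd ⟨k, hk', hk⟩ hw.2
      · simpa [a1] using hw
      · simpa [b1] using hw
  exact ⟨k * g, by rw [mul_smul, smul_pt g, hg]; exact hk, by rw [mul_smul, hk']⟩

/-- the overlap lemma -/
theorem overlap {A : Subgroup G} {T : Submodule F V'} (hT : Inv A (T : Set V'))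
    {y : V} (h : Tr (A ⊓ ps F G y) {ψ | ψ ∈ T ∧ P.b y ψ ≠ 0}) :
    Tr A {ψ | ψ ∈ T ∧ ∃ y' ∈ orb A y, P.b y' ψ ≠ 0} := by
  have key : ∀ y' ∈ orb A y, Tr A {ψ | ψ ∈ T ∧ P.b y' ψ ≠ 0} := by
    rintro _ ⟨g, hg, rfl⟩ ψ hψ ψ' hψ'
    obtain ⟨k, hk, e⟩ := h (g⁻¹ • ψ) ⟨hT _ (A.inv_mem hg) _ hψ.1, by rw [← P.inv']; exact hψ.2⟩
      (g⁻¹ • ψ') ⟨hT _ (A.inv_mem hg) _ hψ'.1, by rw [← P.inv']; exact hψ'.2⟩
    exact ⟨g * k * g⁻¹, A.mul_mem (A.mul_mem hg hk.1) (A.inv_mem hg), by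
      rw [mul_smul, mul_smul, e, smul_inv_smul]⟩
  rintro ψ₁ ⟨h1, y₁, a1, b1⟩ ψ₂ ⟨h2, y₂, a2, b2⟩
  by_cases c : P.b y₂ ψ₁ = 0
  · by_cases d : P.b y₁ ψ₂ = 0
    · exact orb_trans (key y₁ a1 ψ₁ ⟨h1, b1⟩ (ψ₁ + ψ₂) ⟨T.add_mem h1 h2, by simp [b1, d]⟩)
        (key y₂ a2 (ψ₁ + ψ₂) ⟨T.add_mem h1 h2, by simp [b2, c]⟩ ψ₂ ⟨h2, b2⟩)
    · exact key y₁ a1 ψ₁ ⟨h1, b1⟩ ψ₂ ⟨h2, d⟩
  · exact key y₂ a2 ψ₁ ⟨h1, c⟩ ψ₂ ⟨h2, b2⟩

end Pr

end Cfsg.Agent.Sing
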