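import Cfsg.Agent.Sing.G3
import Cfsg.Agent.Sing.Pair

/-!
# Double transitivity on points
-/

set_option autoImplicit false
set_option linter.unusedSectionVars false
set_option linter.style.haveILetI false

namespace Cfsg.Agent.Sing

open MulAction Pointwise Cfsg.Agent.Proj.CK

variable {F G V : Type*} [Field F] [Group G] [AddCommGroup V] [Module F V] [DistribMulAction G V]
  [SMulCommClass G F V] [Finite F] [Finite V] [Finite G] {σ : G} {n : ℕ} {ν : V → F}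

theorem GH.line (D : GH σ n ν) {x z z' : V} (hx : x ≠ 0) (hz : z ∉ (F ∙ x)) (h1 : z' ∈ pl F x z)
    (h2 : z' ∉ (F ∙ x)) : (F ∙ z') ∈ orb (ps F G x) (F ∙ z) := by
  obtain ⟨g, a, b, ha, hb, hab, e⟩ := D.k2 x z hx hz
  have hba := not_mem_pt_symm ha.1 hab
  have t1 := fun y => D.b3 ha hb hab (y := y) fun _ _ y0 => D.trans ha.1 y0
  have t2 := fun y => D.b3 hb ha hba (y := y) fun _ _ y0 => D.trans hb.1 y0
  rw [pl_comm b a] at t2
  have m : ∀ {g : G} {L : Submodule F V} {v : V}, v ∈ L → g • v ∈ g • L := fun h => mem_smul_iff.2 (by rwa [inv_smul_smul])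
  obtain ⟨k, hk, e1⟩ : (F ∙ a) ∈ orb (stabilizer G (pl F a b)) (F ∙ (g • x)) := by
    by_cases c : g • x ∈ (F ∙ b)
    · rw [pt_eq_of_mem (smul_ne0 hx) c]
      have c1 := yt_not_mem hab 1
      have c2 := yt_not_mem hba 1
      rw [one_smul] at c1 c2
      rw [add_comm] at c2
      have c3 : b + a ∈ pl F a b := add_mem (right_mem_pl a b) (left_mem_pl a b)
      exact orb_trans (orb_mono inf_le_right _ (t1 _ c3 c1)) (orb_symm (orb_mono inf_le_right _ (t2 _ c3 c2)))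
    · exact orb_symm (orb_mono inf_le_right _ (t2 _ (e ▸ m (left_mem_pl x z)) c))
  rw [smul_pt, ← mul_smul] at e1
  have e2 : (k * g) • pl F x z = pl F a b := by rw [mul_smul, e, hk]
  obtain ⟨u, hu, e3⟩ := orb_trans (orb_symm (t1 _ (e2 ▸ m (right_mem_pl x z)) (e1 ▸ smul_not_mem_pt hz)))
    (t1 _ (e2 ▸ m h1) (e1 ▸ smul_not_mem_pt h2))
  refine ⟨(k * g)⁻¹ * u * (k * g), ?_, ?_⟩
  · rw [mem_stabilizer_iff, mul_smul, mul_smul, smul_pt (k * g), e1, hu.1, ← e1, ← smul_pt, inv_smul_smul]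
  · rw [mul_smul, mul_smul, smul_pt (k * g), e3, ← smul_pt, inv_smul_smul]

theorem GH.t2' {V' : Type*} [AddCommGroup V'] [Module F V'] [DistribMulAction G V'] [SMulCommClass G F V']
    [Finite V'] (D : GH σ n ν) (P : Pr F G V V') : T2 F G V := by
  have tr : ∀ {x y : V}, x ≠ 0 → y ≠ 0 → ∃ g : G, g • x = y := fun hx hy =>
    let ⟨g, _, e⟩ := D.trans hx hy
    let ⟨k, _, e⟩ := P.mem_orb_of_pt (A := ⊤) le_top (Subgroup.mem_top g) e
    ⟨k, e⟩
  have st : ∀ {x : V} {φ φ' : V'}, P.b x φ ≠ 0 → P.b x φ = P.b x φ' → ∃ g ∈ ps F G x, g • φ = φ' := by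
    intro x φ φ' h0 e
    refine P.flip.fourier (ps F G x) φ φ' fun v => ?_
    by_cases hv : v ∈ (F ∙ x)
    · left
      rintro _ ⟨g, hg, rfl⟩
      obtain ⟨a, ha⟩ := mem_pt.1 (stab_mem hg hv)
      simp [← ha, e]
    · have k : ∀ w ∈ orb (ps F G x) v, ∀ c : F, w + c • x ∈ orb (ps F G x) v := by
        rintro _ ⟨g, hg, rfl⟩ c
        obtain ⟨u, hu, e⟩ := D.line (by rintro rfl; simp at h0) (smul_not_mem hg hv) (yt_mem x _ c)
          (yt_not_mem (smul_not_mem hg hv) c)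
        exact orb_trans ⟨g, hg, rfl⟩ (P.mem_orb_of_pt (P.Z_le_stab _) hu e)
      exact .inr ⟨_, subset_rfl, fun _ h => absurd h.1 h.2, ⟨x, h0, k⟩, x, (e ▸ h0 : P.b x φ' ≠ 0), k⟩
  intro x₁ y₁ x₂ y₂ h1 k1 h2 k2
  obtain ⟨φ, -, hφ⟩ := P.exists_sep (S := ⊥) h1
  replace hφ : φ ≠ 0 := by rintro rfl; simp at hφ
  obtain ⟨m, rfl⟩ : ∃ m, n = m + 2 := ⟨n - 2, by have := D.h13; omega⟩
  have q2 := two_le_q (F := F)
  have cH := P.flip.card_mul_card_perp (F ∙ φ)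
  rw [card_pt hφ, D.cV, pow_succ', Nat.mul_right_inj (by omega)] at cH
  have mH : ∀ {v}, v ∈ P.flip.perp (F ∙ φ) ↔ P.b v φ = 0 := P.flip.mem_perp_pt
  have iH : Inv (ps F G φ) (P.flip.perp (F ∙ φ) : Set V) := P.flip.inv_perp (inv_pt le_rfl)
  generalize P.flip.perp (F ∙ φ) = H at cH mH iH
  have tA : Tr (ps F G φ) (((⊤ : Submodule F V) : Set V) \ H) := fun v hv v' hv' => by
    have a : P.b v φ ≠ 0 := fun c => hv.2 (mH.2 c)
    have a' : P.b v' φ ≠ 0 := fun c => hv'.2 (mH.2 c)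
    obtain ⟨g, rfl⟩ := tr (ne0_of_not_mem hv.2) (ne0_of_not_mem hv'.2)
    obtain ⟨k, hk, e⟩ := st (x := g • v) (φ := g • φ) (φ' := (P.b v φ / P.b (g • v) φ) • φ) (by rwa [P.inv])
      (by rw [P.inv, map_smul, smul_eq_mul, div_mul_cancel₀ _ a'])
    exact P.mem_orb_of_pt (P.Z_le_stab' _) (g := k * g) (mem_ps.2 ⟨_, div_ne_zero a a', by rw [mul_smul, e]⟩)
      (by rw [mul_smul, smul_pt g]; exact hk)
  have cH' : ((H : Set V) \ (⊥ : Submodule F V)).ncard = Nat.card F ^ (m + 1) - 1 := by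
    rw [ncard_diff bot_le, cH, card_bot]
  haveI := Fact.mk (CharP.char_is_prime F (ringChar F))
  obtain ⟨Q⟩ : Nonempty (Sylow (ringChar F) (ps F G φ)) := inferInstance
  let X : SubMulAction Q V := ⟨(H : Set V) \ (⊥ : Submodule F V), fun g _ hv => iH.diff (inv_bot _) g.1 g.1.2 _ hv⟩
  obtain ⟨⟨x, hx, x0⟩, fx⟩ := Q.isPGroup'.nonempty_fixed_point_of_prime_not_dvd_card X
    (cop_iff.1 (by rw [show Nat.card X = _ from (Nat.card_coe_set_eq _).trans cH']; exact cop_pred (by omega) m))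
  have tB := (P.of_cop tA ((inv_top _).diff iH) (B := ps F G φ ⊓ ps F G x) (le_inf (P.Z_le_stab' _) (P.Z_le_stab _))
    inf_le_left (k := ((ps F G φ ⊓ ps F G x).subgroupOf (ps F G φ)).index) (s := m + 1) (by
      rw [← Nat.card_congr (Subgroup.subgroupOfEquivOfLe inf_le_left).toEquiv, Subgroup.index_mul_card])
    (cop_iff.2 fun d => Q.not_dvd_index (d.trans (Subgroup.index_dvd_of_le fun g hg =>
      ⟨g.2, mem_ps_of_eq (congrArg Subtype.val (fx ⟨g, hg⟩))⟩))) (fun c => c.2 H.zero_mem) (by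
      rw [ncard_diff le_top, card_top, D.cV, cH, Nat.sub_one_mul, ← pow_succ'])).mono inf_le_right
  have key : ∀ {y}, y ∉ (F ∙ x) → ∃ v ∈ orb (ps F G x) y, v ∉ H := fun {y} hy => by
    by_contra! c
    have y0 := ne0_of_not_mem hy
    have l := Set.ncard_le_ncard (t := (H : Set V) \ (⊥ : Submodule F V))
      (fun v hv => ⟨c v hv, by obtain ⟨g, -, rfl⟩ := hv; exact smul_ne0 y0⟩)
    rw [cH', P.ncard_orb_pt (P.Z_le_stab _) y0, ← geo_mul (by omega)] at l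
    exact absurd (Nat.le_of_mul_le_mul_left l (by omega)) (not_le.2 (D.k3 x y x0 hy (D.trans x0 y0)))
  obtain ⟨g₁, rfl⟩ := tr x0 h1
  obtain ⟨g₂, rfl⟩ := tr x0 h2
  have n : ∀ {g : G} {y : V}, y ∉ (F ∙ (g • x)) → g⁻¹ • y ∉ (F ∙ x) := fun h c => h (by rwa [← smul_pt, mem_smul_iff])
  obtain ⟨v₁, a1, b1⟩ := key (n k1)
  obtain ⟨v₂, a2, b2⟩ := key (n k2)
  obtain ⟨k, hk, e⟩ := orb_trans (orb_trans a1 (tB v₁ ⟨trivial, b1⟩ v₂ ⟨trivial, b2⟩)) (orb_symm a2)
  exact ⟨g₂ * k * g₁⁻¹, by rw [mul_smul, mul_smul, ← smul_pt, inv_smul_smul, hk, smul_pt],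
    by rw [mul_smul, mul_smul, e, smul_inv_smul]⟩

/-- Use `P = dualPr hZ` (`letI := dualAct F G V`, `dualSC`).  By `trans`, `b3` (for `a, b` and
`b, a`) the stabiliser of `pl a b` is doubly transitive on its points; by `k2` this holds for all
lines: for `z ∉ F∙x`, `l ∈ F∙x` there is `g ∈ ps x` with `g z = z + l` (`Pr.mem_orb_of_pt`).
`P.flip.fourier (ps x)` (orbits outside `F∙x` are unions of cosets, `ε = x`): `ps x` is transitive
on `{φ | φ x ≠ 0}`.  With `trans`: `A = ps φ` is transitive on `T = {v | φ v ≠ 0}`,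
`|T| = (q-1) q^(n-1)`.  `Q` Sylow `p` in `A` fixes some `0 ≠ x ∈ ker φ`
(`IsPGroup.exists_fixed_point_of_prime_dvd_card_of_fixed_point`), `B = Q ⊔ Z ≤ ps x` has index
prime to `q` in `A`, so is transitive on `T` (`Pr.of_cop`).  By `k3` every orbit of `ps x` on points
`≠ F∙x` has more than `geo q (n-1)` points, the number of points of `ker φ`, so meets `T`. -/
theorem GH.t2 (D : GH σ n ν) (hZ : ∀ c : F, c ≠ 0 → ∃ g : G, ∀ v : V, g • v = c • v) :
    T2 F G V := by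
  letI := dualAct F G V
  haveI := dualSC F G V
  haveI : Finite (Module.Dual F V) := Module.finite_of_finite F
  exact D.t2' (dualPr hZ)

end Cfsg.Agent.Sing
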