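import Cfsg.Agent.Sing.Sp

/-!
# Cameron–Kantor over `𝔽_q`: the spaces `W1`, `Lam` (port of `Proj/CKGam`)

Same dictionary as in `Sing/Sp`; read `Proj/CKGam` side by side.  `W1`, `Lam` are defined as spans
in `Sing/Def`; `mem_W1` follows from `Sp.struct` + `Sp.orb_eq`, `mem_Lam` from `Sp.struct2`.
Elements of `ps x` fix `x` only up to a scalar: use `Sp.congr`, `W1_congr`, `mem_ps'`.
-/

set_option autoImplicit false
set_option linter.unusedSectionVars false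
set_option linter.style.haveILetI false

namespace Cfsg.Agent.Sing

open MulAction Pointwise Cfsg.Agent.Proj.CK

variable {F G V V' : Type*} [Field F] [Group G] [AddCommGroup V] [AddCommGroup V']
  [Module F V] [Module F V'] [DistribMulAction G V] [DistribMulAction G V']
  [SMulCommClass G F V] [SMulCommClass G F V'] [Finite F] [Finite V] [Finite V']
  [Finite G]

namespace St

variable {S : St F G V V'}

theorem Sp.smul_F {x y : V} {φ : V'} (h : S.Sp x y φ) {g : G} (hg : g ∈ ps F G x ⊓ ps F G φ) :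
    S.Sp x (g • y) φ := by
  refine (h.smul g).congr (mem_ps'.1 hg.1).symm ?_ (mem_ps'.1 hg.2).symm
  rw [pl, pl, mem_ps'.1 hg.1]

theorem Sp.smul_P {x y : V} {φ : V'} (h : S.Sp x y φ) {g : G}
    (hg : g ∈ ps F G x ⊓ stabilizer G (pl F x y)) : S.Sp x y (g • φ) := by
  refine (h.smul g).congr (mem_ps'.1 hg.1).symm ?_ rfl
  rw [← smul_pl, mem_stabilizer_iff.1 hg.2]

theorem Sp.uniq {x y y' : V} {φ : V'} (h : S.Sp x y φ) (h' : S.Sp x y' φ) :
    ∃ g ∈ ps F G x ⊓ ps F G φ, g • y = y' := by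
  set A := ps F G x ⊓ ps F G φ with hA
  have key : ∀ {y : V} (h : S.Sp x y φ), ∃ W : Submodule F V, S.perp W ≤ S.perp (F ∙ x) ∧
      orb A y = (W : Set V) \ (F ∙ x) ∧ ∀ ψ, S.b x ψ = 0 → S.b y ψ ≠ 0 →
      orb A ψ = (S.perp (F ∙ x) : Set V') \ S.perp W := by
    intro y h
    obtain ⟨W, a1, a2, a3⟩ := h.struct
    have hxW : (F ∙ x) ≤ W := pt_le.2 a1
    refine ⟨W, S.perp_anti hxW, a2, fun ψ b1 b2 => a3.orb_eq ?_ ⟨S.mem_perp_pt.2 b1, fun hc => ?_⟩⟩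
    · refine (S.inv_perp (A := A) (inv_pt inf_le_left)).diff (S.inv_perp fun g hg v hv => ?_)
      by_cases hl : v ∈ (F ∙ x)
      · exact hxW (inv_pt (A := A) inf_le_left g hg v hl)
      · have : v ∈ orb A y := by rw [a2]; exact ⟨hv, hl⟩
        have := inv_orb A y g hg v this
        rw [a2] at this
        exact this.1
    · have : y ∈ (W : Set V) \ (F ∙ x) := a2 ▸ mem_orb_self _ _
      exact b2 (hc y this.1)
  obtain ⟨W, a1, a2, a3⟩ := key h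
  obtain ⟨W', b1, b2, b3⟩ := key h'
  obtain ⟨ψ, c1, c2, c3⟩ : ∃ ψ, S.b x ψ = 0 ∧ S.b y ψ ≠ 0 ∧ S.b y' ψ ≠ 0 := by
    obtain ⟨ψ₁, d1, d2⟩ := S.exists_sep h.yx
    obtain ⟨ψ₂, d3, d4⟩ := S.exists_sep h'.yx
    rw [S.mem_perp_pt] at d1 d3
    by_cases e : S.b y' ψ₁ = 0
    · by_cases e' : S.b y ψ₂ = 0
      · exact ⟨ψ₁ + ψ₂, by simp [d1, d3], by simp [d2, e'], by simp [d4, e]⟩
      · exact ⟨ψ₂, d3, e', by simp [d4]⟩
    · exact ⟨ψ₁, d1, by simp [d2], e⟩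
  have e := (a3 ψ c1 c2).symm.trans (b3 ψ c1 c3)
  have : W' ≤ W := by
    refine S.le_of_perp_le fun χ hχ => ?_
    by_contra hc
    have : χ ∈ (S.perp (F ∙ x) : Set V') \ S.perp W' := ⟨a1 hχ, hc⟩
    rw [← e] at this
    exact this.2 hχ
  have h1 : y' ∈ (W' : Set V) \ (F ∙ x) := b2 ▸ mem_orb_self _ _
  have : y' ∈ orb A y := by rw [a2]; exact ⟨this h1.1, h1.2⟩
  exact this

theorem Sp.conj {x y x' y' : V} {φ φ' : V'} (h : S.Sp x y φ) (h' : S.Sp x' y' φ') :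
    ∃ g : G, g • (F ∙ x) = (F ∙ x') ∧ g • y = y' ∧ g • (F ∙ φ) = (F ∙ φ') := by
  obtain ⟨g, a1, a2⟩ := S.flag h.hx h'.hx h.hφ h'.hφ (iff_of_true h.xφ h'.xφ)
  have : S.Sp x' (g • y) φ' := (h.smul g).congr (by rw [a1]) (by rw [a1]) (by rw [← a2, smul_pt])
  obtain ⟨k, b1, b2⟩ := this.uniq h'
  exact ⟨k * g, by rw [mul_smul, smul_pt, a1, mem_stabilizer_iff.1 b1.1], by rw [mul_smul, b2],
    by rw [mul_smul, a2, mem_stabilizer_iff.1 b1.2]⟩

theorem Sp.orb_eq {x y : V} {φ : V'} (h : S.Sp x y φ) :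
    orb (ps F G x ⊓ ps F G φ) y = {v | S.Sp x v φ} := by
  ext v
  refine ⟨?_, fun hv => h.uniq hv⟩
  rintro ⟨g, hg, rfl⟩
  exact h.smul_F hg

theorem Sp.orb_eq' {x y : V} {φ : V'} (h : S.Sp x y φ) :
    orb (ps F G x ⊓ ps F G y) φ = {ψ | S.Sp x y ψ} := by
  ext ψ
  refine ⟨?_, fun hv => ?_⟩
  · rintro ⟨g, hg, rfl⟩
    exact h.smul_P ⟨hg.1, ps_inf_le_pl x y hg⟩
  · obtain ⟨g, a1, a2, a3⟩ := h.conj hv
    exact S.flip.mem_orb_of_pt (le_inf (S.Z_le_stab _) (S.Z_le_stab _)) ⟨a1, mem_ps_of_eq a2⟩ a3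

theorem mem_W1 {x v : V} {φ : V'} : v ∈ S.W1 x φ ↔ v ∈ (F ∙ x) ∨ S.Sp x v φ := by
  refine ⟨fun hv => ?_, ?_⟩
  · by_cases h : ∃ y, S.Sp x y φ
    · obtain ⟨y, h⟩ := h
      obtain ⟨W, a1, a2, -⟩ := h.struct
      rw [h.orb_eq] at a2
      have : S.W1 x φ ≤ W := sup_le (pt_le.2 a1) (Submodule.span_le.2 (a2 ▸ Set.diff_subset))
      exact or_iff_not_imp_left.2 fun hl => (Set.ext_iff.1 a2 v).2 ⟨this hv, hl⟩
    · have : S.W1 x φ ≤ (F ∙ x) := sup_le le_rfl (Submodule.span_le.2 fun y hy => absurd ⟨y, hy⟩ h)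
      exact Or.inl (this hv)
  · rintro (h | h)
    · exact Submodule.mem_sup_left h
    · exact Submodule.mem_sup_right (Submodule.subset_span h)

theorem Sp.mem {x v : V} {φ : V'} (h : S.Sp x v φ) : v ∈ S.W1 x φ := mem_W1.2 (Or.inr h)

theorem pt_le_W1 (x : V) (φ : V') : (F ∙ x) ≤ S.W1 x φ := le_sup_left

theorem self_mem_W1 (x : V) (φ : V') : x ∈ S.W1 x φ := pt_le_W1 x φ (self_mem_pt x)

theorem W1_diff (x : V) (φ : V') : (S.W1 x φ : Set V) \ (F ∙ x) = {v | S.Sp x v φ} := by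
  ext v
  simp only [Set.mem_setOf_eq, Set.mem_diff, SetLike.mem_coe, mem_W1]
  exact ⟨fun h => h.1.resolve_left h.2, fun h => ⟨Or.inr h, h.yx⟩⟩

theorem W1_congr {x x' : V} {φ φ' : V'} (e1 : (F ∙ x') = F ∙ x) (e2 : (F ∙ φ') = F ∙ φ) :
    S.W1 x' φ' = S.W1 x φ := by
  ext v
  rw [mem_W1, mem_W1, e1]
  exact or_congr_right ⟨fun h => h.congr e1.symm (by rw [pl, pl, e1]) e2.symm,
    fun h => h.congr e1 (by rw [pl, pl, e1]) e2⟩

theorem smul_mem_W1 {x v : V} {φ : V'} (g : G) (h : v ∈ S.W1 x φ) :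
    g • v ∈ S.W1 (g • x) (g • φ) := by
  rcases mem_W1.1 h with h | h
  · refine pt_le_W1 _ _ ?_
    rw [← smul_pt, mem_smul_iff, inv_smul_smul]
    exact h
  · exact (h.smul g).mem

theorem W1_smul (x : V) (φ : V') (g : G) : S.W1 (g • x) (g • φ) = g • S.W1 x φ := by
  ext v
  rw [mem_smul_iff]
  exact ⟨fun h => by simpa using smul_mem_W1 g⁻¹ h, fun h => by simpa using smul_mem_W1 g h⟩

theorem inv_W1 (x : V) (φ : V') : Inv (ps F G x ⊓ ps F G φ) (S.W1 x φ : Set V) := by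
  intro g hg v hv
  have := smul_mem_W1 g hv
  rwa [W1_congr (mem_ps'.1 hg.1) (mem_ps'.1 hg.2)] at this

theorem W1_le {x : V} {φ : V'} (e : S.b x φ = 0) : S.W1 x φ ≤ S.flip.perp (F ∙ φ) := by
  intro v hv
  rcases mem_W1.1 hv with h | h
  · exact pt_le.2 (S.flip.mem_perp_pt.2 e) h
  · exact S.flip.mem_perp_pt.2 h.yφ

theorem tr_W1 {x : V} {φ : V'} (hx : x ≠ 0) (hφ : φ ≠ 0) (e : S.b x φ = 0) :
    Tr (ps F G x ⊓ ps F G φ) ((S.perp (F ∙ x) : Set V') \ S.perp (S.W1 x φ)) := by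
  obtain ⟨y, h⟩ := S.exists_sp hx hφ e
  obtain ⟨W, a1, a2, a3⟩ := h.struct
  rw [h.orb_eq, ← W1_diff] at a2
  have : S.W1 x φ = W := by
    ext v
    have := Set.ext_iff.1 a2 v
    simp only [Set.mem_diff, SetLike.mem_coe] at this
    by_cases hl : v ∈ (F ∙ x)
    · exact ⟨fun _ => pt_le.2 a1 hl, fun _ => pt_le_W1 _ _ hl⟩
    · simpa [hl] using this
  rwa [this]

theorem Sp.tr_Bo {x y : V} {φ : V'} (h : S.Sp x y φ) :
    Tr (ps F G x ⊓ stabilizer G (pl F x y) ⊓ ps F G φ)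
      (((⊤ : Submodule F V) : Set V) \ S.flip.perp (F ∙ φ)) := by
  have := S.flip.tr_off_flag h.hφ h.hx h.xφ
  rw [inf_comm] at this
  obtain ⟨τ, t1, -, -, -, t2, -⟩ := h.tau
  exact S.of_cop this (S.flip.inv_off inf_le_right)
    (le_inf (le_inf (S.Z_le_stab _) (S.Z_le_stab _)) (S.Z_le_stab' _))
    (inf_le_inf_right _ inf_le_left) t2 t1 (fun r => r.2 (zero_mem _)) (S.flip.ncard_off h.hφ)

/-- `P = ps x ⊓ stab ℓ`; `|orb P φ| = (q-1)τ` (`ncard_orb_mul'`, `Sp.tau`), so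
`orb P φ = orb (ps x ⊓ ps y) φ`; then `overlap` and `orb_dc1` as in `CKGam`
(`τ' (q-1) q^(s+2) = (q^(s+3) - w)(q-1)κ`, multiply by `q`, `CK.St.arith`). -/
theorem Sp.struct2 {x y : V} {φ : V'} (h : S.Sp x y φ) : ∃ W : Submodule F V',
    {ψ | S.Sp x y ψ} = (W : Set V') \ (⊥ : Submodule F V') := by
  set P := ps F G x ⊓ stabilizer G (pl F x y) with hP
  set W := Submodule.span F (orb P φ) with hW
  have hZ : S.Z ≤ P := le_inf (S.Z_le_stab _) (S.Z_le_stab _)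
  have hq := two_le_q (F := F)
  have hle : ps F G x ⊓ ps F G y ≤ P := le_inf inf_le_left (ps_inf_le_pl x y)
  obtain ⟨τ, -, t0, t1, -, -, t2, -⟩ := h.tau
  have hτ : (orb P φ).ncard = (orb (ps F G x ⊓ ps F G y) φ).ncard := by
    have h1 := S.flip.ncard_orb_mul' hZ h.hφ
    rw [t2, ← mul_assoc, ← t1] at h1
    exact Nat.eq_of_mul_eq_mul_right Nat.card_pos h1
  have he : orb (ps F G x ⊓ ps F G y) φ = orb P φ :=
    Set.eq_of_subset_of_ncard_le (orb_mono hle φ) hτ.le (orb_finite _ _)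
  refine ⟨W, ?_⟩
  rw [← h.orb_eq', he]
  have hsub : orb P φ ⊆ (W : Set V') \ (⊥ : Submodule F V') := by
    intro ψ hψ
    refine ⟨Submodule.subset_span hψ, ?_⟩
    obtain ⟨g, -, rfl⟩ := hψ
    exact smul_ne0 h.hφ
  refine Set.eq_of_subset_of_ncard_le hsub ?_ (Set.toFinite _)
  have hT : Tr P (((⊤ : Submodule F V) : Set V) \ S.flip.perp W) := by
    have := S.flip.overlap (inv_top P) (y := φ) (by
      convert h.tr_Bo using 1
      ext v; rw [S.flip.mem_off]; simp)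
    convert this using 1
    ext ψ
    simp only [hW, Set.mem_diff, SetLike.mem_coe, S.flip.perp_span,
      Set.mem_setOf_eq, Submodule.mem_top, true_and, not_forall]
    tauto
  obtain ⟨z, hz⟩ : (((⊤ : Submodule F V) : Set V) \ S.flip.perp (F ∙ φ)).Nonempty := by
    rw [← Set.ncard_pos, S.flip.ncard_off h.hφ]
    exact Nat.mul_pos (by omega) (by positivity)
  have hz' : z ∈ ((⊤ : Submodule F V) : Set V) \ S.flip.perp W :=
    ⟨trivial, fun hc => hz.2 (S.flip.mem_perp_pt.2 (hc φ (hsub (mem_orb_self _ _)).1))⟩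
  have z0 : z ≠ 0 := ne0_of_not_mem hz.2
  have d := S.flip.orb_dc1 hZ h.hφ z0
  rw [h.tr_Bo.orb_eq (S.flip.inv_off inf_le_right) hz, S.flip.ncard_off h.hφ,
    hT.orb_eq ((inv_top P).diff (S.flip.inv_perp (inv_span (inv_orb P φ)))) hz',
    ncard_diff le_top, card_top, S.cV,
    S.flip.ncard_orb_pt (A := P ⊓ ps F G z) (le_inf hZ (S.Z_le_stab _)) h.hφ] at d
  have c1 := S.flip.card_perp_mul W
  have := Proj.CK.St.arith (τ := (orb P φ).ncard) (γ := Nat.card W)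
    (κ := Nat.card F * (orb (P ⊓ ps F G z) (F ∙ φ)).ncard)
    (Nat.card_pos (α := S.flip.perp W)) (ncard_orb_pos _ _) (by
      apply Nat.eq_of_mul_eq_mul_left (show 0 < Nat.card F - 1 by omega)
      rw [mul_comm _ (Nat.card W), c1, flip_s]
      rw [flip_s] at d
      linear_combination Nat.card F * d)
  rw [ncard_diff bot_le, card_bot]
  exact this

theorem mem_Lam {x y : V} {ψ : V'} : ψ ∈ S.Lam x y ↔ ψ = 0 ∨ S.Sp x y ψ := by
  refine ⟨fun hv => ?_, ?_⟩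
  · by_cases h : ∃ φ, S.Sp x y φ
    · obtain ⟨φ, h⟩ := h
      obtain ⟨W, e⟩ := h.struct2
      have : S.Lam x y ≤ W := Submodule.span_le.2 (e ▸ Set.diff_subset)
      exact or_iff_not_imp_left.2 fun hl => (Set.ext_iff.1 e ψ).2 ⟨this hv, hl⟩
    · have : S.Lam x y ≤ ⊥ := Submodule.span_le.2 fun φ hφ => absurd ⟨φ, hφ⟩ h
      exact Or.inl (this hv)
  · rintro (rfl | h)
    · exact zero_mem _
    · exact Submodule.subset_span h

theorem Lam_diff (x y : V) :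
    (S.Lam x y : Set V') \ (⊥ : Submodule F V') = {ψ | S.Sp x y ψ} := by
  ext v
  simp only [Set.mem_setOf_eq, Set.mem_diff, SetLike.mem_coe, mem_Lam, Submodule.mem_bot]
  exact ⟨fun h => h.1.resolve_left h.2, fun h => ⟨Or.inr h, h.hφ⟩⟩

theorem Lam_smul (x y : V) (g : G) : S.Lam (g • x) (g • y) = g • S.Lam x y := by
  ext v
  rw [mem_smul_iff, mem_Lam, mem_Lam]
  constructor
  · rintro (rfl | h)
    · simp
    · exact Or.inr (by simpa using h.smul g⁻¹)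
  · rintro (h | h)
    · left; simpa using congrArg (fun v => g • v) h
    · exact Or.inr (by simpa using h.smul g)

/-- `Lam` only depends on the line (`Sp.of_mem_pl`) -/
theorem Lam_congr {x y a c : V} (hx : x ≠ 0) (hyx : y ∉ (F ∙ x)) (a0 : a ≠ 0)
    (hca : c ∉ (F ∙ a)) (e : pl F a c = pl F x y) : S.Lam a c = S.Lam x y := by
  ext ψ
  rw [mem_Lam, mem_Lam]
  exact or_congr_right ⟨fun h => h.of_mem_pl (e ▸ left_mem_pl x y) (e ▸ right_mem_pl x y) hx hyx,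
    fun h => h.of_mem_pl (e ▸ left_mem_pl a c) (e ▸ right_mem_pl a c) a0 hca⟩

variable (S) in
theorem exists_sp' {x y : V} (hx : x ≠ 0) (hyx : y ∉ (F ∙ x)) : ∃ φ, S.Sp x y φ := by
  obtain ⟨x₀, φ, h1, h2, h3⟩ := S.exists_flag
  obtain ⟨y₀, h⟩ := S.exists_sp h1 h2 h3
  obtain ⟨g, a1, a2⟩ := S.t x₀ y₀ x y h.hx h.yx hx hyx
  rw [smul_pt] at a1
  exact ⟨g • φ, (h.smul g).congr a1.symm (by rw [pl, pl, a1, a2]) rfl⟩

theorem Sp.ncard_orb' {x y : V} {φ : V'} (h : S.Sp x y φ) :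
    (orb (ps F G x ⊓ ps F G y) φ).ncard = Nat.card (S.Lam x y) - 1 := by
  rw [h.orb_eq', ← Lam_diff, ncard_diff bot_le, card_bot]

variable (S) in
theorem exists_hasG : ∃ γ, S.HasG γ := by
  obtain ⟨x₀, φ₀, h1, h2, h3⟩ := S.exists_flag
  obtain ⟨y₀, h⟩ := S.exists_sp h1 h2 h3
  obtain ⟨τ, -, -, t1, t, -⟩ := h.tau
  have hp := ncard_orb_pos (ps F G x₀ ⊓ ps F G y₀) φ₀
  rw [← t1] at t
  rw [h.ncard_orb'] at t hp
  rw [h.orb_eq, ← W1_diff, ncard_diff (pt_le_W1 _ _), card_pt h1] at t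
  refine ⟨Nat.card (S.Lam x₀ y₀), fun {x φ} a1 a2 a3 => ?_, fun {x y} a1 a2 => ?_, ?_⟩
  · obtain ⟨g, rfl, r⟩ := S.flag h1 a1 h2 a2 (iff_of_true h3 a3)
    rw [smul_pt] at r
    rw [← W1_congr rfl r, W1_smul, card_smul]
    have := card_le_of_le (pt_le_W1 (S := S) x₀ φ₀)
    rw [card_pt h1] at this
    rw [Nat.mul_sub_one] at t
    have := Nat.le_mul_of_pos_right (Nat.card F) (show 0 < Nat.card (S.Lam x₀ y₀) by omega)
    omega
  · obtain ⟨g, r, rfl⟩ := S.t x₀ y₀ x y h.hx h.yx a1 a2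
    rw [smul_pt] at r
    rw [← Lam_congr a1 a2 (smul_ne0 h.hx) (smul_not_mem_pt h.yx) (by rw [pl, pl, r]), Lam_smul,
      card_smul]
  · have hk := card_eq_pow (S.Lam x₀ y₀)
    generalize Module.finrank F (S.Lam x₀ y₀) = k at hk
    rcases k with _ | k
    · rw [pow_zero] at hk; omega
    · exact ⟨k, hk⟩

end St

end Cfsg.Agent.Sing
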