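import Cfsg.Agent.Sing.Def

/-!
# Overgroups of the Singer normaliser: definitions for the character and geometry parts
-/

set_option autoImplicit false
set_option linter.unusedSectionVars false
set_option linter.style.haveILetI false

namespace Cfsg.Agent.Sing

open MulAction Pointwise Cfsg.Agent.Proj.CK

section Abs

variable {G : Type*} [Group G] {α : Type*} [MulAction G α]

/-- number of `w` such that `(w, s w)` lies in the orbital of `(y, z)` -/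
noncomputable def Nn (s : G) (y z : α) : ℕ := {w | ∃ g : G, g • y = w ∧ g • z = s • w}.ncard

/-- an abelian TI-subgroup `S` of order `h` with normaliser `N = S⟨σ⟩` a Frobenius group -/
structure TId (S N : Subgroup G) (σ : G) (n h : ℕ) : Prop where
  prime : n.Prime
  big : 16 * n ^ 2 < h
  comm : ∀ a ∈ S, ∀ b ∈ S, a * b = b * a
  card : Nat.card S = h
  le : S ≤ N
  σN : σ ∈ N
  pown : σ ^ n ∈ S
  gen : ∀ g ∈ N, ∃ s ∈ S, ∃ i : ℕ, g = s * σ ^ i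
  norm : ∀ g ∈ N, ∀ s ∈ S, g * s * g⁻¹ ∈ S
  ti : ∀ g : G, ∀ s ∈ S, s ≠ 1 → g * s * g⁻¹ ∈ S → g ∈ N
  fpf : ∀ i : ℕ, 0 < i → i < n → ∀ s ∈ S, σ ^ i * s = s * σ ^ i → s = 1

/-- the same modulo a normal subgroup `Z` -/
structure TIZ (Z S N : Subgroup G) (σ : G) (n h : ℕ) : Prop where
  prime : n.Prime
  big : 16 * n ^ 2 < h
  nZ : Z.Normal
  leZ : Z ≤ S
  comm : ∀ a ∈ S, ∀ b ∈ S, a * b = b * a
  card : Nat.card S = h * Nat.card Z
  le : S ≤ N
  σN : σ ∈ N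
  pown : σ ^ n ∈ S
  gen : ∀ g ∈ N, ∃ s ∈ S, ∃ i : ℕ, g = s * σ ^ i
  norm : ∀ g ∈ N, ∀ s ∈ S, g * s * g⁻¹ ∈ S
  ti : ∀ g : G, ∀ s ∈ S, s ∉ Z → g * s * g⁻¹ ∈ S → g ∈ N
  fpf : ∀ i : ℕ, 0 < i → i < n → ∀ s ∈ S, σ ^ i * s * (σ ^ i)⁻¹ * s⁻¹ ∈ Z → s ∈ Z

/-- output of the character theory -/
structure CI (Z S : Subgroup G) (P : Set α) (n : ℕ) : Prop where
  c1 : ∀ s ∈ S, s ∉ Z → ∀ t ∈ S, t ∉ Z → ∀ y ∈ P, ∀ z ∈ P, Nn s y z = Nn t y z
  c2 : ∀ s ∈ S, s ∉ Z → ∀ y ∈ P, ∀ z ∈ orb (⊤ : Subgroup G) y,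
    ((Nn s y z : ℤ) - (orb (stabilizer G y) z).ncard) ^ 2 ≤
      2 * n ^ 3 * (orb (stabilizer G y) z).ncard

/-- the Frobenius alternative -/
def CII (S N : Subgroup G) (P : Set α) : Prop :=
  ∃ R : Subgroup G, (∀ g ∈ N, ∀ r ∈ R, g * r * g⁻¹ ∈ R) ∧ (∀ g : G, ∃ r ∈ R, ∃ u ∈ N, g = r * u) ∧
    ∀ r ∈ R, ∀ s ∈ S, ∀ p ∈ P, r • p = s • p → r • p = p

end Abs

section Geo

variable {F G V : Type*} [Field F] [Group G] [AddCommGroup V] [Module F V] [DistribMulAction G V]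
  [SMulCommClass G F V]

variable (F V) in
/-- the points -/
def pts : Set (Submodule F V) := {p | ∃ x : V, x ≠ 0 ∧ p = F ∙ x}

theorem pt_mem_pts {x : V} (hx : x ≠ 0) : (F ∙ x) ∈ pts F V := ⟨x, hx, rfl⟩

theorem inv_pts (A : Subgroup G) : Inv A (pts F V) := by
  rintro g - _ ⟨x, hx, rfl⟩
  exact ⟨g • x, smul_ne0 hx, smul_pt g x⟩

variable (F G) in
/-- the `G`-orbit of a point -/
abbrev Om (x : V) : Set (Submodule F V) := orb (⊤ : Subgroup G) (F ∙ x)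

variable (F) in
/-- number of `σ`-fixed points in the orbit of a point -/
noncomputable def kk (σ : G) (x : V) : ℕ := {p | p ∈ Om F G x ∧ σ • p = p}.ncard

variable (F G) in
/-- the points of the line `y z` other than `y` in the orbit of `y` -/
def XX (y z : V) : Set (Submodule F V) := {p | p ∈ Om F G y ∧ p ≤ pl F y z ∧ p ≠ F ∙ y}

variable (F G) in
/-- orbit length of `z` under the stabiliser of `y` and of the line `y z` -/
noncomputable def mu (y z : V) : ℕ := (orb (ps F G y ⊓ stabilizer G (pl F y z)) (F ∙ z)).ncard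

variable (F) in
/-- frame vectors: eigenvectors of `σ` -/
def Fr (σ : G) (a : V) : Prop := a ≠ 0 ∧ σ ∈ ps F G a

/-- the geometric situation when `n ∣ q - 1` (`ν` is the norm) -/
structure GH (σ : G) (n : ℕ) (ν : V → F) : Prop where
  prime : n.Prime
  h13 : 13 ≤ n
  dvd : n ∣ Nat.card F - 1
  cV : Nat.card V = Nat.card F ^ n
  fr : {p | p ∈ pts F V ∧ σ • p = p}.ncard = n
  ev : ∀ (a b : V) (α β : F), a ≠ 0 → b ∉ (F ∙ a) → σ • a = α • a → σ • b = β • b →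
    IsPrimitiveRoot (α / β) n
  nu_ne : ∀ x, x ≠ 0 → ν x ≠ 0
  nu_smul : ∀ (c : F) x, ν (c • x) = c ^ n * ν x
  nu_sim : ∀ x y (c : F), x ≠ 0 → y ≠ 0 → ν y = c ^ n * ν x → (F ∙ y) ∈ Om F G x
  nu_add : ∀ a b, Fr F σ a → Fr F σ b → b ∉ (F ∙ a) → ν (a + b) = ν a + ν b
  nu_surj : ∀ u : F, u ≠ 0 → ∃ a, Fr F σ a ∧ ∃ c : F, ν a = c ^ n * u
  nu_inj : ∀ a b (c : F), Fr F σ a → Fr F σ b → ν b = c ^ n * ν a → b ∈ (F ∙ a)
  k1 : ∀ y z : V, y ≠ 0 → z ∉ (F ∙ y) → (F ∙ z) ∈ Om F G y →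
    (XX F G y z).ncard ≤ kk F σ y * mu F G y z
  k1' : ∀ y z u : V, y ≠ 0 → z ∉ (F ∙ y) → (F ∙ z) ∈ Om F G y → u ∉ (F ∙ y) → (F ∙ u) ∈ Om F G y →
    (∀ g ∈ ps F G y, g • u ∉ pl F y z) →
    (XX F G y z).ncard + mu F G y z ≤ kk F σ y * mu F G y z
  k2 : ∀ y z : V, y ≠ 0 → z ∉ (F ∙ y) → ∃ (g : G) (a b : V), Fr F σ a ∧ Fr F σ b ∧ b ∉ (F ∙ a) ∧
    g • pl F y z = pl F a b
  k3 : ∀ y z : V, y ≠ 0 → z ∉ (F ∙ y) → (F ∙ z) ∈ Om F G y →
    geo (Nat.card F) (n - 1) < (orb (ps F G y) (F ∙ z)).ncard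

variable (F G V) in
/-- contragredient action -/
@[reducible] def dualAct : DistribMulAction G (Module.Dual F V) where
  smul g φ := φ ∘ₗ DistribSMul.toLinearMap F V g⁻¹
  one_smul φ := LinearMap.ext fun v => congrArg φ (by simp)
  mul_smul g h φ := LinearMap.ext fun v => by
    show φ ((g * h)⁻¹ • v) = φ (h⁻¹ • g⁻¹ • v)
    rw [mul_inv_rev, mul_smul]
  smul_zero _ := rfl
  smul_add _ _ _ := rfl

variable (F G V) in
theorem dualSC : letI := dualAct F G V; SMulCommClass G F (Module.Dual F V) :=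
  letI := dualAct F G V
  ⟨fun _ _ _ => rfl⟩

/-- the canonical pairing with the dual, for a group containing the scalars -/
def dualPr (hZ : ∀ c : F, c ≠ 0 → ∃ g : G, ∀ v : V, g • v = c • v) :
    letI := dualAct F G V; Pr F G V (Module.Dual F V) :=
  letI := dualAct F G V
  { b := Module.Dual.eval F V
    inv := fun g v φ => congrArg φ (inv_smul_smul g v)
    sepL := fun v hv => (Module.forall_dual_apply_eq_zero_iff F v).1 hv
    sepR := fun _ hφ => LinearMap.ext hφ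
    Z :=
      { carrier := {g | ∃ c : F, c ≠ 0 ∧ ∀ v : V, g • v = c • v}
        one_mem' := ⟨1, one_ne_zero, by simp⟩
        mul_mem' := by
          rintro a b ⟨k, k0, hk⟩ ⟨l, l0, hl⟩
          exact ⟨k * l, mul_ne_zero k0 l0, fun x => by rw [mul_smul, hl, hk, mul_smul]⟩
        inv_mem' := by
          rintro a ⟨k, k0, hk⟩
          exact ⟨k⁻¹, inv_ne_zero k0, fun x => by rw [inv_smul_eq_iff, hk, smul_inv_smul₀ k0]⟩ }
    zv := fun c hc => let ⟨g, hg⟩ := hZ c hc; ⟨g, ⟨c, hc, hg⟩, hg⟩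
    zv' := fun c hc => by
      obtain ⟨g, hg⟩ := hZ c hc
      refine ⟨g⁻¹, ⟨c⁻¹, inv_ne_zero hc, fun x => ?_⟩, fun φ => LinearMap.ext fun v => ?_⟩
      · rw [inv_smul_eq_iff, hg, smul_inv_smul₀ hc]
      · show φ (g⁻¹⁻¹ • v) = c • φ v
        rw [inv_inv, hg, map_smul]
    sv := fun _ ⟨c, _, hg⟩ => ⟨c, hg⟩
    sv' := fun g ⟨c, hc, hg⟩ => ⟨c⁻¹, fun φ => LinearMap.ext fun v => by
      show φ (g⁻¹ • v) = c⁻¹ • φ v
      rw [← map_smul]
      congr 1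
      rw [inv_smul_eq_iff, hg, smul_inv_smul₀ hc]⟩ }

end Geo

section Fld

variable (F K G : Type*) [Field F] [Field K] [Algebra F K] [Group G] [DistribMulAction G K]

/-- multiplications by elements of `K` -/
def sS : Subgroup G where
  carrier := {g | ∃ k : K, ∀ x : K, g • x = k * x}
  one_mem' := ⟨1, by simp⟩
  mul_mem' := by
    rintro a b ⟨k, hk⟩ ⟨l, hl⟩
    exact ⟨k * l, fun x => by rw [mul_smul, hl, hk, mul_assoc]⟩
  inv_mem' := by
    rintro a ⟨k, hk⟩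
    have k0 : k ≠ 0 := by simpa [hk] using smul_ne0 (g := a) (one_ne_zero (α := K))
    exact ⟨k⁻¹, fun x => by rw [inv_smul_eq_iff, hk, mul_inv_cancel_left₀ k0]⟩

/-- scalars -/
def sZ : Subgroup G where
  carrier := {g | ∃ c : F, ∀ x : K, g • x = c • x}
  one_mem' := ⟨1, by simp⟩
  mul_mem' := by
    rintro a b ⟨k, hk⟩ ⟨l, hl⟩
    exact ⟨k * l, fun x => by rw [mul_smul, hl, hk, mul_smul]⟩
  inv_mem' := by
    rintro a ⟨k, hk⟩
    have k0 : k ≠ 0 := by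
      rintro rfl
      simpa [hk] using smul_ne0 (g := a) (one_ne_zero (α := K))
    exact ⟨k⁻¹, fun x => by rw [inv_smul_eq_iff, hk, smul_inv_smul₀ k0]⟩

/-- `K`-semilinear elements -/
def sN : Subgroup G where
  carrier := {g | (∀ k : K, ∃ k' : K, ∀ v : K, g • (k * v) = k' * g • v) ∧
    ∀ k' : K, ∃ k : K, ∀ v : K, g • (k * v) = k' * g • v}
  one_mem' := ⟨fun k => ⟨k, by simp⟩, fun k => ⟨k, by simp⟩⟩
  mul_mem' {a b} ha hb := by
    refine ⟨fun k => ?_, fun k => ?_⟩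
    · obtain ⟨k₁, h1⟩ := hb.1 k
      obtain ⟨k₂, h2⟩ := ha.1 k₁
      exact ⟨k₂, fun v => by rw [mul_smul, mul_smul, h1, h2]⟩
    · obtain ⟨k₁, h1⟩ := ha.2 k
      obtain ⟨k₂, h2⟩ := hb.2 k₁
      exact ⟨k₂, fun v => by rw [mul_smul, mul_smul, h2, h1]⟩
  inv_mem' {a} ha := by
    refine ⟨fun k => ?_, fun k => ?_⟩
    · obtain ⟨k₁, h1⟩ := ha.2 k
      exact ⟨k₁, fun v => by rw [inv_smul_eq_iff, h1, smul_inv_smul]⟩
    · obtain ⟨k₁, h1⟩ := ha.1 k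
      exact ⟨k₁, fun v => by rw [inv_smul_eq_iff, h1, smul_inv_smul]⟩

variable {G} in
/-- `G` acts faithfully on `K`, contains the Frobenius `σ`, and exactly the multiplications
whose norm is an `n`-th power -/
structure Sg (σ : G) (n : ℕ) : Prop where
  rank : Module.finrank F K = n
  prime : n.Prime
  h13 : 13 ≤ n
  faith : ∀ g : G, (∀ x : K, g • x = x) → g = 1
  fr : ∀ x : K, σ • x = x ^ Nat.card F
  mu : ∀ k : K, k ≠ 0 →
    ((∃ g : G, ∀ x : K, g • x = k * x) ↔ ∃ c : F, Algebra.norm F k = c ^ n)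

end Fld

end Cfsg.Agent.Sing
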