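import Cfsg.Agent.Sing.KDef

/-!
# Field facts: classes, frame vectors, the norm on `σ`-lines

`q = |F|`, `|K| = q^n`, `N = Algebra.norm F`, `algebraMap (N x) = ∏_{i<n} x^(q^i)`
(`FiniteField.algebraMap_norm_eq_pow`, `Algebra.norm_eq_prod_automorphisms`,
`bijective_frobeniusAlgEquivOfAlgebraic_pow`).
-/

set_option autoImplicit false
set_option linter.unusedSectionVars false
set_option linter.style.haveILetI false

namespace Cfsg.Agent.Sing

open MulAction Pointwise Cfsg.Agent.Proj.CK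

theorem ncard_dc {α β : Type*} {s : Set α} {t : Set β} (hs : s.Finite) (ht : t.Finite)
    (r : α → β → Prop) {m k : ℕ} (h1 : ∀ a ∈ s, {b | b ∈ t ∧ r a b}.ncard = m)
    (h2 : ∀ b ∈ t, {a | a ∈ s ∧ r a b}.ncard = k) : s.ncard * m = t.ncard * k := by
  classical
  rw [Set.ncard_eq_toFinset_card _ hs, Set.ncard_eq_toFinset_card _ ht]
  refine Finset.card_mul_eq_card_mul r (fun a ha => ?_) fun b hb => ?_
  · rw [← h1 a (by simpa using ha), ← Set.ncard_coe_finset]; congr 1; ext b; simp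
  · rw [← h2 b (by simpa using hb), ← Set.ncard_coe_finset]; congr 1; ext a; simp

section Frob

variable {F K : Type*} [Field F] [Field K] [Algebra F K] [Finite F]

theorem kf_pow (c : F) : c ^ Nat.card F = c := by
  haveI := Fintype.ofFinite F
  rw [Nat.card_eq_fintype_card, FiniteField.pow_card]

theorem kf_smul (c : F) (x : K) : (c • x) ^ Nat.card F = c • x ^ Nat.card F := by
  rw [smul_pow, kf_pow]

theorem kf_iter {a : K} {α : F} (h : a ^ Nat.card F = α • a) (i : ℕ) :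
    a ^ Nat.card F ^ i = α ^ i • a := by
  induction i with
  | zero => simp
  | succ i ih => rw [pow_succ, pow_mul, ih, kf_smul, h, smul_smul, pow_succ]

theorem kf_add (x y : K) (i : ℕ) :
    (x + y) ^ Nat.card F ^ i = x ^ Nat.card F ^ i + y ^ Nat.card F ^ i := by
  haveI := Fintype.ofFinite F
  induction i with
  | zero => simp
  | succ i ih =>
    rw [pow_succ, pow_mul, ih, pow_mul, pow_mul, Nat.card_eq_fintype_card]
    exact map_add (FiniteField.frobeniusAlgHom F K) _ _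

variable [Finite K]

/-- every automorphism is a power of the Frobenius -/
theorem kf_aut (f : K ≃ₐ[F] K) : ∃ i < Module.finrank F K, ∀ x, f x = x ^ Nat.card F ^ i := by
  haveI := Fintype.ofFinite F
  obtain ⟨i, rfl⟩ := (FiniteField.bijective_frobeniusAlgEquivOfAlgebraic_pow F K).2 f
  refine ⟨i, i.2, fun x => ?_⟩
  rw [AlgEquiv.coe_pow, FiniteField.coe_frobeniusAlgEquivOfAlgebraic_iterate,
    Nat.card_eq_fintype_card]

theorem kf_fix {x : K} (h : x ^ Nat.card F = x) : x ∈ (F ∙ (1 : K)) := by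
  obtain ⟨c, rfl⟩ := (IsGalois.mem_range_algebraMap_iff_fixed (F := F) x).2 fun f => by
    obtain ⟨i, -, e⟩ := kf_aut f
    rw [e, kf_iter (α := (1 : F)) (by rw [h, one_smul]), one_pow, one_smul]
  exact mem_pt.2 ⟨c, (Algebra.algebraMap_eq_smul_one c).symm⟩

theorem kf_norm_ne {x : K} (hx : x ≠ 0) : Algebra.norm F x ≠ 0 := Algebra.norm_ne_zero_iff.2 hx

theorem kf_mem_pt {a b : K} (ha : a ≠ 0) (h : b * a⁻¹ ∈ (F ∙ (1 : K))) : b ∈ (F ∙ a) := by
  obtain ⟨c, e⟩ := mem_pt.1 h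
  exact mem_pt.2 ⟨c, by rw [← one_mul a, ← smul_mul_assoc, e, inv_mul_cancel_right₀ ha]⟩

end Frob

theorem ncard_pts {F V : Type*} [Field F] [Finite F] [AddCommGroup V] [Module F V] [Finite V] :
    (pts F V).ncard = geo (Nat.card F) (Module.finrank F V) := by
  have : pts F V = Set.range (Projectivization.submodule : Projectivization F V → _) := by
    ext p
    exact ⟨fun ⟨x, hx, e⟩ => ⟨.mk F x hx, e.symm⟩,
      fun ⟨v, e⟩ => ⟨v.rep, v.rep_nonzero, e ▸ v.submodule_eq⟩⟩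
  rw [this, Set.ncard_range_of_injective Projectivization.submodule_injective,
    Projectivization.card_of_finrank F V rfl, geo]

variable {F K G : Type*} [Field F] [Field K] [Algebra F K] [Finite F] [Finite K] [Group G]
  [Finite G] [DistribMulAction G K] [SMulCommClass G F K] {σ : G} {n : ℕ}

namespace Sg

variable (D : Sg F K σ n)
include D

theorem cK : Nat.card K = Nat.card F ^ n := by
  rw [← D.rank]; exact Module.natCard_eq_pow_finrank

theorem norm_alg (c : F) : Algebra.norm F (algebraMap F K c) = c ^ n := by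
  rw [Algebra.norm_algebraMap, D.rank]

theorem odd : Odd n := D.prime.odd_of_ne_two (by have := D.h13; omega)

theorem hZ (c : F) (hc : c ≠ 0) : ∃ g : G, ∀ v : K, g • v = c • v := by
  obtain ⟨g, hg⟩ := (D.mu (algebraMap F K c) (by simpa using hc)).2 ⟨c, D.norm_alg c⟩
  exact ⟨g, fun v => by rw [hg, Algebra.smul_def]⟩

theorem Z_triv : ∀ z ∈ sZ F K G, ∀ p ∈ pts F K, z • p = p := by
  rintro z ⟨c, hc⟩ _ ⟨x, hx, rfl⟩
  exact mem_ps_of_mem (hc x ▸ smul_mem_pt c x)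

theorem semireg : ∀ s ∈ sS K G, ∀ p ∈ pts F K, s • p = p → s ∈ sZ F K G := by
  rintro s ⟨k, hk⟩ _ ⟨x, hx, rfl⟩ e
  obtain ⟨c, -, r⟩ := mem_ps.1 e
  rw [hk, Algebra.smul_def] at r
  exact ⟨c, fun y => by rw [hk, mul_right_cancel₀ hx r, Algebra.smul_def]⟩

theorem mem_orb_S {x y : K} (hx : x ≠ 0) (hy : y ≠ 0) : (F ∙ y) ∈ orb (sS K G) (F ∙ x) ↔
    ∃ c : F, Algebra.norm F y = c ^ n * Algebra.norm F x := by
  constructor
  · rintro ⟨s, ⟨k, hk⟩, e⟩
    have k0 : k ≠ 0 := by simpa [hk] using smul_ne0 (g := s) (one_ne_zero (α := K))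
    obtain ⟨c, hc⟩ := (D.mu k k0).1 ⟨s, hk⟩
    rw [smul_pt, hk] at e
    obtain ⟨a, -, rfl⟩ := pt_eq_iff.1 e
    exact ⟨a * c, by rw [Algebra.smul_def, map_mul, map_mul, D.norm_alg, hc, mul_pow, mul_assoc]⟩
  · rintro ⟨c, hc⟩
    obtain ⟨g, hg⟩ := (D.mu (y * x⁻¹) (by simp [hx, hy])).2 ⟨c, by
      rw [map_mul, hc, mul_assoc, ← map_mul, mul_inv_cancel₀ hx, map_one, mul_one]⟩
    exact ⟨g, ⟨_, hg⟩, by rw [smul_pt, hg, inv_mul_cancel_right₀ hx]⟩

theorem norm_fr (x : K) : Algebra.norm F (σ • x) = Algebra.norm F x := by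
  rw [D.fr, map_pow, kf_pow]

theorem norm_smul (c : F) (x : K) : Algebra.norm F (c • x) = c ^ n * Algebra.norm F x := by
  rw [Algebra.smul_def, map_mul, D.norm_alg]

theorem Fr_iff {a : K} : Fr F σ a ↔ a ≠ 0 ∧ ∃ α : F, a ^ Nat.card F = α • a := by
  refine and_congr_right fun ha => ⟨fun h => ?_, fun ⟨α, h⟩ => mem_ps_of_mem ?_⟩
  · obtain ⟨α, -, e⟩ := mem_ps.1 h
    exact ⟨α, D.fr a ▸ e⟩
  · rw [D.fr, h]; exact smul_mem_pt α a

theorem Fr_mul {a b : K} (ha : Fr F σ a) (hb : Fr F σ b) : Fr F σ (a * b) := by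
  obtain ⟨a0, α, h1⟩ := D.Fr_iff.1 ha
  obtain ⟨b0, β, h2⟩ := D.Fr_iff.1 hb
  exact D.Fr_iff.2 ⟨mul_ne_zero a0 b0, α * β, by rw [mul_pow, h1, h2, smul_mul_smul_comm]⟩

theorem Fr_inv {a : K} (ha : Fr F σ a) : Fr F σ a⁻¹ := by
  obtain ⟨a0, α, h1⟩ := D.Fr_iff.1 ha
  exact D.Fr_iff.2 ⟨inv_ne_zero a0, α⁻¹, by rw [inv_pow, h1, smul_inv₀]⟩

theorem Fr_smul {a : K} (ha : Fr F σ a) {c : F} (hc : c ≠ 0) : Fr F σ (c • a) :=
  ⟨smul_ne_zero hc ha.1, ps_congr (G := G) (pt_smul hc a) ▸ ha.2⟩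

theorem Fr_one : Fr F σ (1 : K) := D.Fr_iff.2 ⟨one_ne_zero, 1, by simp⟩

theorem pow_cK (x : K) : x ^ Nat.card F ^ n = x := by rw [← D.cK, kf_pow]

theorem eig_pow {a : K} {α : F} (ha : a ≠ 0) (h : a ^ Nat.card F = α • a) : α ^ n = 1 :=
  smul_left_injective F ha (by rw [← kf_iter h, D.pow_cK, one_smul] : α ^ n • a = (1 : F) • a)

/-- `σ^n = 1` gives `α^n = β^n = 1`; `α = β` would give `(a/b)^q = a/b`, `a/b ∈ F`. -/
theorem ev (a b : K) (α β : F) (ha : a ≠ 0) (hb : b ∉ (F ∙ a)) (h1 : σ • a = α • a)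
    (h2 : σ • b = β • b) : IsPrimitiveRoot (α / β) n := by
  rw [D.fr] at h1 h2
  have b0 := ne0_of_not_mem hb
  have e1 := D.eig_pow ha h1
  have e2 := D.eig_pow b0 h2
  have β0 : β ≠ 0 := by
    rintro rfl
    simp [D.prime.ne_zero] at e2
  haveI := Fact.mk D.prime
  rw [← orderOf_eq_prime (x := α / β) (p := n) (by rw [div_pow, e1, e2, div_one]) fun r => ?_]
  · exact IsPrimitiveRoot.orderOf _
  obtain rfl := (div_eq_one_iff_eq β0).1 r
  refine hb (kf_mem_pt ha (kf_fix ?_))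
  rw [mul_pow, inv_pow, h1, h2, smul_inv₀, smul_mul_smul_comm, mul_inv_cancel₀ β0, one_smul]

theorem prod_eig {α : F} (h : α ^ n = 1) : ∏ i ∈ Finset.range n, α ^ i = 1 := by
  obtain ⟨m, hm⟩ := D.odd
  have := Finset.sum_range_id_mul_two n
  rw [Finset.prod_pow_eq_pow_sum, show ∑ i ∈ Finset.range n, i = n * m by
    rw [show n - 1 = m * 2 by omega, ← mul_assoc] at this; omega, pow_mul, h, one_pow]

theorem norm_Fr {a : K} (ha : Fr F σ a) : algebraMap F K (Algebra.norm F a) = a ^ n := by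
  obtain ⟨a0, α, h⟩ := D.Fr_iff.1 ha
  simp only [FiniteField.algebraMap_norm_eq_prod_pow, D.rank, kf_iter h, Finset.prod_smul,
    D.prod_eig (D.eig_pow a0 h), one_smul, Finset.prod_const, Finset.card_range]

/-- `N a = a^n` for frame vectors (`α^(0+1+⋯+(n-1)) = 1`, `n` odd), and
`N (a + b) = ∏ (α^i a + β^i b) = ∏ β^i ∏ ((α/β)^i a + b) = a^n + b^n`
(`IsPrimitiveRoot.pow_add_pow_eq_prod_add_mul`). -/
theorem nu_add (a b : K) (ha : Fr F σ a) (hb : Fr F σ b) (h : b ∉ (F ∙ a)) :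
    Algebra.norm F (a + b) = Algebra.norm F a + Algebra.norm F b := by
  obtain ⟨a0, α, h1⟩ := D.Fr_iff.1 ha
  obtain ⟨b0, β, h2⟩ := D.Fr_iff.1 hb
  have hω := (D.ev a b α β a0 h (D.fr a ▸ h1) (D.fr b ▸ h2)).map_of_injective
    (algebraMap F K).injective
  have e2 := D.eig_pow b0 h2
  have β0 : β ≠ 0 := by
    rintro rfl
    simp [D.prime.ne_zero] at e2
  haveI : NeZero n := ⟨D.prime.ne_zero⟩
  apply (algebraMap F K).injective
  have e : ∀ i, (a + b) ^ Nat.card F ^ i = β ^ i • (b + algebraMap F K (α / β) ^ i * a) := fun i => by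
    rw [kf_add, kf_iter h1, kf_iter h2, smul_add, ← map_pow, ← Algebra.smul_def, smul_smul, ← mul_pow,
      mul_div_cancel₀ _ β0, add_comm]
  rw [map_add (algebraMap F K), D.norm_Fr ha, D.norm_Fr hb, add_comm (a ^ n), hω.pow_add_pow_eq_prod_add_mul _ _ D.odd]
  simp only [FiniteField.algebraMap_norm_eq_prod_pow, D.rank, e, Finset.prod_smul, D.prod_eig e2,
    one_smul]
  refine Finset.prod_nbij (fun i => algebraMap F K (α / β) ^ i) (fun i _ => ?_) hω.injOn_pow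
    (fun z hz => ?_) fun _ _ => rfl
  · rw [Polynomial.mem_nthRootsFinset D.prime.pos, ← pow_mul, mul_comm, pow_mul, hω.pow_eq_one,
      one_pow]
  · obtain ⟨i, hi, r⟩ := hω.eq_pow_of_pow_eq_one ((Polynomial.mem_nthRootsFinset D.prime.pos _).1 hz)
    exact ⟨i, by simpa using hi, r⟩

/-- `e = b / (c a)` is a frame vector with `e^n = N e = 1`; if `e^q = α e`, `α ≠ 1`, then `α` is a
primitive `n`-th root of unity in `F`, so `e` is a power of `α` (`eq_pow_of_pow_eq_one`); in any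
case `e ∈ F`. -/
theorem nu_inj (a b : K) (c : F) (ha : Fr F σ a) (hb : Fr F σ b)
    (h : Algebra.norm F b = c ^ n * Algebra.norm F a) : b ∈ (F ∙ a) := by
  have c0 : c ≠ 0 := by
    rintro rfl
    exact kf_norm_ne hb.1 (by rw [h, zero_pow D.prime.ne_zero, zero_mul])
  have ha' := D.Fr_smul ha c0
  have he := D.Fr_mul hb (D.Fr_inv ha')
  have e1 : (b * (c • a)⁻¹) ^ n = 1 := by
    rw [mul_pow, inv_pow, ← D.norm_Fr hb, ← D.norm_Fr ha', D.norm_smul, h, mul_inv_cancel₀]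
    rw [← h]; simpa using hb.1
  rw [← pt_smul c0]
  refine kf_mem_pt ha'.1 (by_contra fun r => r ?_)
  obtain ⟨-, β, h2⟩ := D.Fr_iff.1 he
  haveI : NeZero n := ⟨D.prime.ne_zero⟩
  obtain ⟨i, -, e⟩ := ((D.ev 1 _ 1 β one_ne_zero r (by simp [D.fr]) (D.fr _ ▸ h2)).map_of_injective
    (algebraMap F K).injective).eq_pow_of_pow_eq_one e1
  exact mem_pt.2 ⟨_, by rw [← e, ← map_pow, Algebra.algebraMap_eq_smul_one]⟩

theorem exists_theta (hd : n ∣ Nat.card F - 1) :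
    ∃ (θ : K) (ω : F), θ ≠ 0 ∧ IsPrimitiveRoot ω n ∧ θ ^ Nat.card F = ω • θ := by
  haveI := Fact.mk D.prime
  obtain ⟨ω, hω⟩ := exists_prime_orderOf_dvd_card' (G := Fˣ) n (by rwa [Nat.card_units])
  have h1 : IsPrimitiveRoot (ω : F) n := IsPrimitiveRoot.coe_units_iff.2 (hω ▸ .orderOf ω)
  have hq := two_le_q (F := F)
  obtain ⟨γ, hγ⟩ := IsCyclic.exists_monoid_generator (α := Kˣ)
  obtain ⟨k, hk⟩ := hγ (Units.map (algebraMap F K : F →* K) ω)
  replace hk : (γ : K) ^ k = algebraMap F K ω := by simpa using congrArg Units.val hk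
  have h2 := FiniteField.algebraMap_norm_eq_pow_sum (K := F) (x := algebraMap F K ω)
  rw [D.norm_alg, h1.pow_eq_one, map_one, ← hk, ← pow_mul, D.rank] at h2
  have h3 : orderOf γ ∣ k * geo (Nat.card F) n :=
    orderOf_dvd_of_pow_eq_one (Units.ext (by simpa [geo] using h2.symm))
  rw [orderOf_eq_card_of_forall_mem_powers hγ, Nat.card_units, D.cK, ← geo_mul (by omega)] at h3
  obtain ⟨m, rfl⟩ := Nat.dvd_of_mul_dvd_mul_right (by
    rw [← Nat.succ_pred_eq_of_pos D.prime.pos, Nat.succ_eq_add_one, geo_succ]; omega) h3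
  refine ⟨γ ^ m, ω, by simp, h1, ?_⟩
  rw [Algebra.smul_def, ← hk, ← pow_add, ← pow_mul, ← Nat.succ_mul, Nat.succ_eq_add_one,
    Nat.sub_add_cancel (by omega), mul_comm]

/-- `ω ∈ F` primitive `n`-th root; `N ω = 1`, so `ω = θ^(q-1)` (the elements of norm one of the
cyclic group `Kˣ` are the `(q-1)`-th powers).  The points `F∙θ^i` (`i < n`) are distinct
(eigenvalues `ω^i`), and a frame vector with eigenvalue `ω^i` lies in `F∙θ^i` (`ev`). -/
theorem ncard_fr (hd : n ∣ Nat.card F - 1) : {p | p ∈ pts F K ∧ σ • p = p}.ncard = n := by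
  obtain ⟨θ, ω, θ0, hω, e⟩ := D.exists_theta hd
  haveI : NeZero n := ⟨D.prime.ne_zero⟩
  have e' : ∀ i, σ • θ ^ i = ω ^ i • θ ^ i := fun i => by
    rw [D.fr, ← pow_mul, mul_comm, pow_mul, e, smul_pow]
  have : {p | p ∈ pts F K ∧ σ • p = p} = (fun i => F ∙ θ ^ i) '' Set.Iio n := by
    ext p
    constructor
    · rintro ⟨⟨b, b0, rfl⟩, r⟩
      obtain ⟨β, β0, h⟩ := mem_ps.1 r
      obtain ⟨i, hi, rfl⟩ := hω.eq_pow_of_pow_eq_one (D.eig_pow b0 (D.fr b ▸ h))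
      refine ⟨i, hi, (pt_eq_of_mem b0 (by_contra fun k => ?_)).symm⟩
      have := D.ev _ _ _ _ (pow_ne_zero i θ0) k (e' i) h
      rw [div_self β0] at this
      exact D.prime.ne_one (this.unique .one)
    · rintro ⟨i, -, rfl⟩
      exact ⟨pt_mem_pts (pow_ne_zero i θ0), mem_ps_of_mem (e' i ▸ smul_mem_pt _ _)⟩
  rw [this, Set.InjOn.ncard_image, Set.ncard_Iio_nat]
  intro i hi j hj r
  obtain ⟨c, c0, r⟩ := pt_eq_iff.1 r
  have := e' j
  rw [← r, smul_comm, e' i, smul_comm c] at this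
  exact hω.pow_inj hi hj (smul_left_injective F (smul_ne_zero c0 (pow_ne_zero i θ0)) this)

/-- by `nu_inj`, `ncard_fr` the norm injects the `n` frame points into `Fˣ / (Fˣ)^n`, of order `n` -/
theorem nu_surj (hd : n ∣ Nat.card F - 1) (u : F) (hu : u ≠ 0) :
    ∃ a : K, Fr F σ a ∧ ∃ c : F, Algebra.norm F a = c ^ n * u := by
  obtain ⟨θ, ω, θ0, hω, e⟩ := D.exists_theta hd
  have hθ : Fr F σ θ := D.Fr_iff.2 ⟨θ0, ω, e⟩
  obtain ⟨γ, hγ⟩ := IsCyclic.exists_monoid_generator (α := Fˣ)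
  obtain ⟨k, hk⟩ := hγ (Units.mk0 _ (kf_norm_ne (F := F) θ0))
  obtain ⟨l, hl⟩ := hγ (Units.mk0 u hu)
  replace hk : (γ : F) ^ k = Algebra.norm F θ := by simpa using congrArg Units.val hk
  replace hl : (γ : F) ^ l = u := by simpa using congrArg Units.val hl
  have nk : Nat.Coprime k n := ((Nat.Prime.coprime_iff_not_dvd D.prime).2 fun ⟨m, hm⟩ => by
    obtain ⟨c, rfl⟩ := mem_pt.1 (D.nu_inj 1 θ (γ ^ m) D.Fr_one hθ (by
      rw [← hk, hm, map_one, mul_one, mul_comm, pow_mul]))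
    rw [kf_smul, one_pow] at e
    exact hω.ne_one D.prime.one_lt (smul_left_injective F θ0
      (e.symm.trans (one_smul _ _).symm : ω • c • (1 : K) = (1 : F) • c • (1 : K)))).symm
  obtain ⟨i, hi⟩ := Nat.exists_mul_mod_eq_of_coprime l nk D.prime.ne_zero
  obtain ⟨t, ht⟩ := (Nat.modEq_iff_dvd (n := n) (a := l) (b := k * i)).1 hi.2.symm
  have pw : ∀ i, Fr F σ (θ ^ i) := fun i => by
    induction i with
    | zero => simpa using D.Fr_one
    | succ i ih => exact pow_succ θ i ▸ D.Fr_mul ih hθ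
  refine ⟨θ ^ i, pw i, γ ^ t, ?_⟩
  rw [map_pow, ← hk, ← hl, ← pow_mul, ← zpow_natCast, ← zpow_natCast, ← zpow_natCast, ← zpow_mul,
    ← zpow_add₀ γ.ne_zero, mul_comm t, ← ht, sub_add_cancel]

theorem exists_unique_fr (hd : n ∣ Nat.card F - 1) {x : K} (hx : x ≠ 0) :
    ∃! p, p ∈ orb (sS K G) (F ∙ x) ∧ σ • p = p := by
  obtain ⟨a, ha, c, e⟩ := D.nu_surj hd _ (kf_norm_ne (F := F) hx)
  refine ⟨F ∙ a, ⟨(D.mem_orb_S hx ha.1).2 ⟨c, e⟩, ha.2⟩, ?_⟩
  rintro p ⟨h1, h2⟩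
  obtain ⟨b, b0, rfl⟩ := (inv_pts _).orb_subset (pt_mem_pts hx) h1
  obtain ⟨c', e'⟩ := (D.mem_orb_S ha.1 b0).1
    (orb_trans (orb_symm ((D.mem_orb_S hx ha.1).2 ⟨c, e⟩)) h1)
  exact pt_eq_of_mem b0 (D.nu_inj a b c' ha ⟨b0, h2⟩ e')

omit D in
theorem Z_le_S : sZ F K G ≤ sS K G := fun _ ⟨c, hc⟩ =>
  ⟨algebraMap F K c, fun x => by rw [hc, Algebra.smul_def]⟩

/-- all orbits of `sS` on points have the same length `|sS| / |sZ|` (`semireg`) -/
theorem ncard_class {x : K} (hx : x ≠ 0) :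
    (orb (sS K G) (F ∙ x)).ncard * Nat.card (sZ F K G) = Nat.card (sS K G) := by
  rw [← ncard_orb_mul (sS K G) (F ∙ x)]
  congr 3
  exact le_antisymm (le_inf Z_le_S fun z hz => D.Z_triv z hz _ (pt_mem_pts hx))
    fun s hs => D.semireg s hs.1 _ (pt_mem_pts hx) hs.2

theorem ncard_class_eq {x y : K} (hx : x ≠ 0) (hy : y ≠ 0) :
    (orb (sS K G) (F ∙ x)).ncard = (orb (sS K G) (F ∙ y)).ncard :=
  Nat.eq_of_mul_eq_mul_right Nat.card_pos ((D.ncard_class hx).trans (D.ncard_class hy).symm)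

/-- an `sS`-invariant set of points is a disjoint union of the classes of its frame points -/
theorem ncard_inv (hd : n ∣ Nat.card F - 1) {X : Set (Submodule F K)} (hX : X ⊆ pts F K)
    (hi : Inv (sS K G) X) :
    X.ncard = (orb (sS K G) (F ∙ (1 : K))).ncard * {p | p ∈ X ∧ σ • p = p}.ncard := by
  rw [mul_comm, ← mul_one X.ncard]
  refine ncard_dc (Set.toFinite _) (Set.toFinite _) (fun p a => a ∈ orb (sS K G) p)
    (fun p hp => ?_) fun p hp => ?_
  · obtain ⟨x, hx, rfl⟩ := hX hp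
    obtain ⟨a, h1, h2⟩ := D.exists_unique_fr hd hx
    exact Set.ncard_eq_one.2 ⟨a, Set.eq_singleton_iff_unique_mem.2
      ⟨⟨⟨hi.orb_subset hp h1.1, h1.2⟩, h1.1⟩, fun b hb => h2 b ⟨hb.2, hb.1.2⟩⟩⟩
  · obtain ⟨x, hx, rfl⟩ := hX hp.1
    rw [D.ncard_class_eq one_ne_zero hx]
    congr 1
    ext a
    exact ⟨fun h => orb_symm h.2, fun h => ⟨hi.orb_subset hp.1 h, orb_symm h⟩⟩

/-- the points are the disjoint union of the orbits of the `n` frame points -/
theorem mul_ncard_class (hd : n ∣ Nat.card F - 1) {x : K} (hx : x ≠ 0) :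
    n * (orb (sS K G) (F ∙ x)).ncard = geo (Nat.card F) n := by
  rw [← D.rank, ← ncard_pts, D.ncard_inv hd le_rfl (inv_pts _), D.ncard_fr hd, D.rank, mul_comm,
    D.ncard_class_eq hx one_ne_zero]

/-- if `n ∤ q - 1` every element of `F` is an `n`-th power -/
theorem orb_S_eq (hd : ¬ n ∣ Nat.card F - 1) {x : K} (hx : x ≠ 0) :
    orb (sS K G) (F ∙ x) = pts F K := by
  refine ((inv_pts _).orb_subset (pt_mem_pts hx)).antisymm ?_
  rintro _ ⟨y, hy, rfl⟩
  have := ((Nat.Prime.coprime_iff_not_dvd D.prime).2 hd).symm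
  rw [← Nat.card_units] at this
  obtain ⟨c, hc⟩ := (powCoprime this).surjective
    (Units.mk0 _ (kf_norm_ne (F := F) hy) * (Units.mk0 _ (kf_norm_ne (F := F) hx))⁻¹)
  refine (D.mem_orb_S hx hy).2 ⟨c, ?_⟩
  simpa using congrArg Units.val (eq_mul_of_mul_inv_eq hc.symm)

end Sg

end Cfsg.Agent.Sing
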