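import Cfsg.Agent.Sing.Gam

/-!
# Cameron–Kantor over `𝔽_q`: the space `W`, symmetry of the parameters
(port of the first half of `Proj/CKLarge`, up to `hyp_of`)

Same dictionary as in `Sing/Sp`; read `Proj/CKLarge` side by side.
-/

set_option autoImplicit false
set_option linter.unusedSectionVars false
set_option linter.style.haveILetI false

namespace Cfsg.Agent.Sing

open MulAction Pointwise Cfsg.Agent.Proj.CK

variable {F G V V' : Type*} [Field F] [Group G] [AddCommGroup V] [AddCommGroup V']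
  [Module F V] [Module F V'] [DistribMulAction G V] [DistribMulAction G V']
  [SMulCommClass G F V] [SMulCommClass G F V'] [Finite F] [Finite V] [Finite V']
  [Finite G]

namespace St

variable {S : St F G V V'}

theorem smul_mem_W {x v : V} {φ : V'} (g : G) (h : v ∈ S.W x φ) :
    g • v ∈ S.W (g • x) (g • φ) := by
  intro ψ hψ
  rw [flip_b, S.inv']
  exact h _ (by simpa using smul_mem_W1 (S := S.flip) g⁻¹ hψ)

theorem W_congr {x x' : V} {φ φ' : V'} (e1 : (F ∙ x') = F ∙ x) (e2 : (F ∙ φ') = F ∙ φ) :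
    S.W x' φ' = S.W x φ := by
  rw [W, W, W1_congr e2 e1]

theorem inv_W (x : V) (φ : V') : Inv (ps F G x ⊓ ps F G φ) (S.W x φ : Set V) := by
  intro g hg v hv
  have := smul_mem_W g hv
  rwa [W_congr (mem_ps'.1 hg.1) (mem_ps'.1 hg.2)] at this

theorem W_symm {x z : V} {φ : V'} (hx : x ≠ 0) (hz : z ≠ 0) (hφ : φ ≠ 0) (e : S.b x φ = 0)
    (e' : S.b z φ = 0) (h : z ∈ S.W x φ) : x ∈ S.W z φ := by
  obtain ⟨g, h1, h2, h3⟩ := S.swap hx hz hφ e e'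
  have := smul_mem_W g h
  rw [h2, W_congr rfl (mem_ps'.1 h1), ← pt_le, ← smul_pt, h3, pt_le] at this
  exact this

theorem W_le (x : V) (φ : V') : S.W x φ ≤ S.flip.perp (F ∙ φ) := S.flip.perp_anti (pt_le_W1 _ _)

theorem tr_W {x : V} {φ : V'} (hx : x ≠ 0) (hφ : φ ≠ 0) (e : S.b x φ = 0) :
    Tr (ps F G x ⊓ ps F G φ) ((S.flip.perp (F ∙ φ) : Set V) \ S.W x φ) := by
  rw [inf_comm]; exact tr_W1 (S := S.flip) hφ hx e

theorem inv_HW (x : V) (φ : V') :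
    Inv (ps F G x ⊓ ps F G φ) ((S.flip.perp (F ∙ φ) : Set V) \ S.W x φ) :=
  (S.flip.inv_perp (inv_pt inf_le_right)).diff (inv_W x φ)

theorem perp_W (x : V) (φ : V') : S.perp (S.W x φ) = S.flip.W1 φ x := S.flip.perp_perp _

variable {γ γ' : ℕ}

theorem card_W (h' : S.flip.HasG γ') {x : V} {φ : V'} (hx : x ≠ 0) (hφ : φ ≠ 0)
    (e : S.b x φ = 0) : Nat.card (S.W x φ) * γ' = Nat.card F ^ (S.s + 2) := by
  have := S.flip.card_perp_mul (S.flip.W1 φ x)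
  rw [h'.cW hφ hx e, flip_s, pow_succ] at this
  apply Nat.eq_of_mul_eq_mul_left (show 0 < Nat.card F from Nat.card_pos)
  unfold W
  linarith

theorem Sp.mem_W (hγ : S.HasG γ) (n4 : Nat.card F ^ 2 * γ ≠ Nat.card F ^ (S.s + 3)) {x y : V}
    {φ : V'} (h : S.Sp x y φ) : y ∈ S.W x φ := by
  by_contra hy
  have hy' : y ∈ (S.flip.perp (F ∙ φ) : Set V) \ S.W x φ := ⟨S.flip.mem_perp_pt.2 h.yφ, hy⟩
  have key : ∀ z ∈ S.flip.perp (F ∙ φ), z ∉ S.W x φ → z ∈ S.W1 x φ := by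
    intro z h1 h2
    obtain ⟨g, hg, rfl⟩ := tr_W h.hx h.hφ h.xφ y hy' z ⟨h1, h2⟩
    exact inv_W1 x φ g hg y h.mem
  obtain ⟨z, h1, h2⟩ : ∃ z ∈ S.flip.perp (F ∙ φ), z ∉ S.W1 x φ := by
    by_contra! hc
    have := le_antisymm (W1_le h.xφ) hc
    have h1 := hγ.cW h.hx h.hφ h.xφ
    rw [this, S.flip.card_perp_pt h.hφ, flip_s] at h1
    exact n4 (by rw [pow_succ' _ (S.s + 2), h1]; ring)
  have h3 : z ∈ S.W x φ := by by_contra hc; exact h2 (key z h1 hc)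
  have := key (z + y) (add_mem h1 hy'.1) (fun hc => hy ((Submodule.add_mem_iff_right _ h3).1 hc))
  exact h2 ((Submodule.add_mem_iff_left _ h.mem).1 this)

theorem Sp.ncard_orb (hγ : S.HasG γ) {x y : V} {φ : V'} (h : S.Sp x y φ) :
    (orb (ps F G x ⊓ ps F G φ) y).ncard = Nat.card F * (γ - 1) := by
  rw [h.orb_eq, ← W1_diff, ncard_diff (pt_le_W1 _ _), card_pt h.hx, hγ.cW h.hx h.hφ h.xφ,
    Nat.mul_sub_one]

theorem lg_ar1 {q j w i D c : ℕ} (hq : 2 ≤ q) (h1 : q * j = w * i) (h2 : (q - 1) * j ≤ D)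
    (h3 : D + c = w) (hc : 0 < c) (hj : 0 < j) : q * j = w := by
  obtain ⟨r, rfl⟩ := Nat.exists_eq_add_of_le' hq
  rw [show r + 2 - 1 = r + 1 from rfl] at h2
  rcases i with _ | _ | i
  · nlinarith
  · simpa using h1
  · nlinarith

theorem lg_ar2 {q j t c : ℕ} (hq : 2 ≤ q) (h3 : (q - 1) * j * t + c = q * j) (hc : 0 < c)
    (ht : 0 < (q - 1) * j * t) : t = 1 ∧ c = j := by
  obtain ⟨r, rfl⟩ := Nat.exists_eq_add_of_le' hq
  rw [show r + 2 - 1 = r + 1 from rfl] at h3 ht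
  rcases t with _ | _ | t
  · simp at ht
  · exact ⟨rfl, by nlinarith⟩
  · nlinarith [Nat.zero_le (r * j), Nat.zero_le (r * j * t), Nat.zero_le (j * t)]

theorem lg_ar3 {q a c k : ℕ} (hq : 2 ≤ q) (ha : 0 < q ^ 2 * a) (hc : 0 < q ^ 2 * c)
    (h : (q ^ 2 * a - 1) * (q - 1) = (q ^ 2 * c - 1) * (q ^ k - 1)) : q ^ 2 * a = q ^ 2 * c := by
  have a0 : 0 < a := Nat.pos_of_mul_pos_left ha
  rcases k with _ | _ | k
  · have : 4 ≤ q ^ 2 * a := by nlinarith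
    rw [pow_zero, Nat.sub_self, mul_zero, mul_eq_zero] at h
    omega
  · rw [zero_add, pow_one] at h
    have := Nat.eq_of_mul_eq_mul_right (by omega) h
    omega
  · exfalso
    have h1 : 1 ≤ q ^ (k + 1 + 1) := Nat.one_le_pow _ _ (by omega)
    zify [h1, show 1 ≤ q ^ 2 * a from ha, show 1 ≤ q ^ 2 * c from hc, show 1 ≤ q by omega] at h
    have : (q : ℤ) ^ 2 ∣ q :=
      ⟨a * (q - 1) - c * (q ^ (k + 1 + 1) - 1) + q ^ k, by linear_combination -h⟩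
    have := Int.le_of_dvd (by omega) this
    have h2 : (2 : ℤ) ≤ q := by exact_mod_cast hq
    nlinarith

/-- `w = |W x φ|` is a power of `q`.  `orb_dc2` for `ps y ⊓ ps φ`, `z`, `x`:
`(wγ' - w) κ = q(γ-1) |orb A z|`, and `|orb A z| = (q-1) j`, so `w ∣ q j`, `q j = w i`;
`(q-1) j ≤ w - |W x ⊓ W y| < w` forces `i = 1`.  So all orbits of `A` on `W x \ W y` have size
`(q-1) w / q`; two of them do not fit (`2(q-1) ≥ q`), and `q |W x ⊓ W y| ≤ w`. -/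
theorem Sp.half (hγ : S.HasG γ) (hγ' : S.flip.HasG γ') {x y : V} {φ : V'} (h : S.Sp x y φ)
    (hne : S.W x φ ≠ S.W y φ) :
    Nat.card (S.W x φ) = Nat.card F * Nat.card ↥(S.W x φ ⊓ S.W y φ) ∧
    ∀ z ∈ (S.W x φ : Set V) \ S.W y φ,
      orb (ps F G y ⊓ ps F G φ ⊓ ps F G x) z = (S.W x φ : Set V) \ S.W y φ := by
  set A := ps F G y ⊓ ps F G φ ⊓ ps F G x with hA
  have hq := two_le_q (F := F)
  have hZ : S.Z ≤ ps F G y ⊓ ps F G φ := le_inf (S.Z_le_stab _) (S.Z_le_stab' _)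
  have c1 := card_W hγ' h.hx h.hφ h.xφ
  have c2 := card_W hγ' h.hy h.hφ h.yφ
  obtain ⟨g, hg⟩ := hγ.pow
  obtain ⟨g', hg'⟩ := hγ'.pow
  have c3 : Nat.card (S.W y φ) = Nat.card (S.W x φ) :=
    Nat.eq_of_mul_eq_mul_right (show 0 < γ' by rw [hg']; positivity) (c2.trans c1.symm)
  have hi' := card_eq_pow (S.W x φ)
  set w := Nat.card (S.W x φ) with hw
  have hi : Inv A ((S.W x φ : Set V) \ S.W y φ) :=
    ((inv_W x φ).mono (A := A) fun k hk => ⟨hk.2, hk.1.2⟩).diff ((inv_W y φ).mono inf_le_left)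
  have hd := ncard_diff' (S.W x φ) (S.W y φ)
  have hp : 0 < Nat.card ↥(S.W x φ ⊓ S.W y φ) := Nat.card_pos
  have key : ∀ z ∈ (S.W x φ : Set V) \ S.W y φ, ∃ j, (orb A z).ncard = (Nat.card F - 1) * j ∧
      Nat.card F * j = w := by
    intro z hz
    have z0 : z ≠ 0 := ne0_of_not_mem hz.2
    have d := S.orb_dc2 hZ z0 h.hx
    have e := S.ncard_orb_pt (A := A) (le_inf hZ (S.Z_le_stab _)) z0
    rw [(tr_W h.hy h.hφ h.yφ).orb_eq (inv_HW y φ) ⟨W_le x φ hz.1, hz.2⟩, ncard_diff (W_le y φ),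
      S.flip.card_perp_pt h.hφ, flip_s, ← c1, c3, h.symm.ncard_orb hγ, ← hA, e] at d
    have h1 : w ∣ (γ - 1) * ((Nat.card F - 1) * (Nat.card F * (orb A (F ∙ z)).ncard)) := by
      rw [show ∀ a b c d : ℕ, a * (b * (c * d)) = c * a * (b * d) from fun _ _ _ _ => by ring, ← d]
      exact Dvd.dvd.mul_right (Nat.dvd_sub (Dvd.intro _ rfl) dvd_rfl) _
    rw [hi', hg] at h1
    have h2 := (Nat.Coprime.pow_left _ (by simpa using (cop_pred (q := Nat.card F) (by omega) 0).symm)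
      ).dvd_of_dvd_mul_left ((Nat.Coprime.pow_left _ (cop_pred (by omega) g).symm).dvd_of_dvd_mul_left h1)
    rw [← hi'] at h2
    obtain ⟨i, hj⟩ := h2
    exact ⟨_, e, lg_ar1 hq hj (e ▸ Set.ncard_le_ncard (hi.orb_subset hz)) hd hp (ncard_orb_pos _ _)⟩
  obtain ⟨z, hz⟩ : ((S.W x φ : Set V) \ S.W y φ).Nonempty := by
    by_contra hc
    rw [Set.not_nonempty_iff_eq_empty, Set.diff_eq_empty] at hc
    exact hne (eq_of_le_of_card_ge hc c3.le)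
  obtain ⟨j, k1, k2⟩ := key z hz
  have k3 : ∀ z' ∈ (S.W x φ : Set V) \ S.W y φ, (orb A z').ncard = (Nat.card F - 1) * j :=
    fun z' hz' => by
      obtain ⟨j', l1, l2⟩ := key z' hz'
      rw [l1, Nat.eq_of_mul_eq_mul_left (by omega) (l2.trans k2.symm)]
  obtain ⟨t, ht⟩ := dvd_ncard_of_forall_orb (A := A) (k := (Nat.card F - 1) * j) _ _
    (Set.toFinite _) rfl hi fun z' hz' => (k3 z' hz').symm.dvd
  obtain ⟨rfl, l⟩ := lg_ar2 hq (by rw [← ht, hd, k2]) hp (ht ▸ (Set.ncard_pos).2 ⟨z, hz⟩)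
  refine ⟨by rw [l, k2], fun z' hz' => Set.eq_of_subset_of_ncard_le (hi.orb_subset hz') ?_⟩
  rw [k3 z' hz', ht, mul_one]

/-- the double count gives `(γ-1)(q-1) = (γ'-1)(q^k-1)`, `q^k = |W1 x φ ⊓ W z φ|`; modulo `q²`:
`k = 1` (for `k ≥ 2`: `q² ∣ q` after expanding in `ℤ`; `k = 0` gives `γ = 1`). -/
theorem Sp.alpha (hγ : S.HasG γ) (hγ' : S.flip.HasG γ') (h4 : Nat.card F ^ 2 ∣ γ)
    (h4' : Nat.card F ^ 2 ∣ γ') {x y : V} {φ : V'} (h : S.Sp x y φ) (hne : S.W x φ ≠ S.W y φ) :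
    γ = γ' := by
  obtain ⟨a1, a2⟩ := h.symm.half hγ hγ' hne.symm
  have hq := two_le_q (F := F)
  have c1 := card_W hγ' h.hx h.hφ h.xφ
  have c2 := card_W hγ' h.hy h.hφ h.yφ
  obtain ⟨g, hg⟩ := hγ.pow
  obtain ⟨g', hg'⟩ := hγ'.pow
  have hγp : 0 < γ := by rw [hg]; positivity
  have hγp' : 0 < γ' := by rw [hg']; positivity
  have c3 : Nat.card (S.W x φ) = Nat.card (S.W y φ) :=
    Nat.eq_of_mul_eq_mul_right hγp' (c1.trans c2.symm)
  have hd := ncard_diff' (S.W y φ) (S.W x φ)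
  have hp : 0 < Nat.card ↥(S.W y φ ⊓ S.W x φ) := Nat.card_pos
  obtain ⟨z, hz⟩ : ((S.W y φ : Set V) \ S.W x φ).Nonempty := by
    by_contra hc
    rw [Set.not_nonempty_iff_eq_empty, Set.diff_eq_empty] at hc
    exact hne (eq_of_le_of_card_ge hc c3.le).symm
  have hz0 : z ≠ 0 := ne0_of_not_mem hz.2
  have hzφ : S.b z φ = 0 := S.flip.mem_perp_pt.1 (W_le y φ hz.1)
  set A := ps F G x ⊓ ps F G φ with hA
  have hZ : S.Z ≤ A := le_inf (S.Z_le_stab _) (S.Z_le_stab' _)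
  have d := S.orb_dc2 hZ h.hy hz0
  rw [(tr_W h.hx h.hφ h.xφ).orb_eq (inv_HW x φ) ⟨W_le y φ hz.1, hz.2⟩, ncard_diff (W_le x φ),
    S.flip.card_perp_pt h.hφ, flip_s, ← c1, h.ncard_orb hγ, a2 z hz] at d
  have e : orb (A ⊓ ps F G z) y =
      ((S.W1 x φ ⊓ S.W z φ : Submodule F V) : Set V) \ (⊥ : Submodule F V) := by
    ext v
    constructor
    · rintro ⟨k, hk, rfl⟩
      refine ⟨⟨inv_W1 x φ k hk.1 y h.mem, inv_W z φ k ⟨hk.2, hk.1.2⟩ y ?_⟩, smul_ne0 h.hy⟩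
      exact W_symm h.hy hz0 h.hφ h.yφ hzφ hz.1
    · rintro ⟨⟨v1, v2⟩, v3⟩
      rcases mem_W1.1 v1 with v1 | v1
      · exact absurd (W_symm hz0 h.hx h.hφ hzφ h.xφ
          (pt_le.1 (pt_eq_of_mem v3 v1 ▸ pt_le.2 v2))) hz.2
      obtain ⟨k, hk, rfl⟩ := h.uniq v1
      have b1 : k⁻¹ • z ∈ (S.W y φ : Set V) \ S.W x φ := by
        constructor
        · have := smul_mem_W k⁻¹ (W_symm hz0 v1.hy h.hφ hzφ v1.yφ v2)
          rwa [inv_smul_smul, W_congr rfl (mem_ps'.1 ((ps F G φ).inv_mem hk.2))] at this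
        · intro hc
          exact hz.2 (by simpa using inv_W x φ k hk _ hc)
      rw [← a2 z hz] at b1
      obtain ⟨a, ha, ea⟩ := b1
      refine S.mem_orb_of_pt (le_inf hZ (S.Z_le_stab _)) (g := k * a)
        ⟨A.mul_mem hk ha.1, mem_ps_of_eq ?_⟩ (by rw [mul_smul, mem_stabilizer_iff.1 ha.2, smul_pt])
      rw [mul_smul, ea, smul_inv_smul]
  rw [e, ncard_diff bot_le, card_bot, card_eq_pow (S.W1 x φ ⊓ S.W z φ), c3,
    Nat.eq_sub_of_add_eq hd, a1] at d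
  set i := Nat.card ↥(S.W y φ ⊓ S.W x φ)
  obtain ⟨a, rfl⟩ := h4
  obtain ⟨c, rfl⟩ := h4'
  refine lg_ar3 (k := Module.finrank F ↥(S.W1 x φ ⊓ S.W z φ)) hq hγp hγp'
    (Nat.eq_of_mul_eq_mul_left (show 0 < Nat.card F * i by positivity) ?_)
  rw [← Nat.mul_sub_one, ← Nat.sub_one_mul] at d
  linear_combination d

theorem Sp.W_ne (hγ : S.HasG γ) (hγ' : S.flip.HasG γ') (hlt : γ' < Nat.card F * γ) {x y : V}
    {φ : V'} (h : S.Sp x y φ) : S.W x φ ≠ S.W y φ := by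
  intro e
  have e' : S.flip.W1 φ x = S.flip.W1 φ y := by rw [← perp_W, e, perp_W]
  obtain ⟨ψ, hψ⟩ := S.flip.exists_sp h.hφ h.hx h.xφ
  have : S.W1 x φ ≤ S.flip.Lam φ ψ := by
    intro v hv
    rcases mem_W1.1 hv with hv | hv
    · exact pt_le.2 (mem_Lam.2 (Or.inr hψ)) hv
    · obtain ⟨k, hk, rfl⟩ := h.uniq hv
      have h1 := W1_smul (S := S.flip) φ y k
      rw [← e', ← W1_smul, W1_congr (mem_ps'.1 hk.2) (mem_ps'.1 hk.1),
        W1_congr (mem_ps'.1 hk.2) rfl] at h1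
      have := hψ.mem
      rw [← h1] at this
      exact mem_Lam.2 (Or.inr ((mem_W1.1 this).resolve_left hψ.yx))
  have := card_le_of_le this
  rw [hγ.cW h.hx h.hφ h.xφ, hγ'.cL hψ.hx hψ.yx] at this
  omega

theorem hyp_of (hγ : S.HasG γ) (hγ' : S.flip.HasG γ') (h4 : Nat.card F ^ 2 ∣ γ)
    (h4' : Nat.card F ^ 2 ∣ γ') (n4 : Nat.card F ^ 2 * γ ≠ Nat.card F ^ (S.s + 3)) : S.Hyp γ := by
  obtain ⟨x, φ, h1, h2, h3⟩ := S.exists_flag
  obtain ⟨y, h⟩ := S.exists_sp h1 h2 h3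
  obtain ⟨ψ, h'⟩ := S.flip.exists_sp h2 h1 h3
  obtain ⟨g, hg⟩ := hγ.pow
  have hq := two_le_q (F := F)
  have hγp : 0 < γ := by rw [hg]; positivity
  have : γ = γ' := by
    by_cases hlt : γ' < Nat.card F * γ
    · exact h.alpha hγ hγ' h4 h4' (h.W_ne hγ hγ' hlt)
    · exact (h'.alpha hγ' hγ h4' h4 (h'.W_ne hγ' hγ (by nlinarith))).symm
  subst this
  exact ⟨hγ, hγ', n4, h4⟩

end St

end Cfsg.Agent.Sing
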