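import Cfsg.Agent.Sing.Large

/-!
# Cameron–Kantor over `𝔽_q`: reduction to the parameter `q²`
(port of the second half of `Proj/CKLarge`: `cap, lj, eq_four, rb, eq_four'`)

Same dictionary as in `Sing/Sp`; read `Proj/CKLarge` side by side (`CK.dc_eq` is reusable as is,
with `k = γ - q`).  `ψ ≠ φ ↦ ψ ∉ F∙φ`; cases `u = v` become `u ∈ F∙v` (`W1_congr`, `W_congr`,
`Sp.congr`, `pt_eq_of_mem`).
-/

set_option autoImplicit false
set_option linter.unusedSectionVars false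
set_option linter.style.haveILetI false

namespace Cfsg.Agent.Sing

open MulAction Pointwise Cfsg.Agent.Proj.CK

variable {F G V V' : Type*} [Field F] [Group G] [AddCommGroup V] [AddCommGroup V']
  [Module F V] [Module F V'] [DistribMulAction G V] [DistribMulAction G V']
  [SMulCommClass G F V] [SMulCommClass G F V'] [Finite F] [Finite V] [Finite V']
  [Finite G]

namespace St

variable {S : St F G V V'} {γ : ℕ}

theorem Hyp.sq_le (H : S.Hyp γ) : Nat.card F ^ 2 ≤ γ := by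
  obtain ⟨g, hg⟩ := H.hγ.pow
  have := two_le_q (F := F)
  exact Nat.le_of_dvd (by rw [hg]; positivity) H.h4

theorem Hyp.q_lt (H : S.Hyp γ) : Nat.card F < γ := by
  have := two_le_q (F := F)
  have := H.sq_le
  nlinarith

theorem Hyp.ne (H : S.Hyp γ) {x y : V} {φ : V'} (h : S.Sp x y φ) : S.W x φ ≠ S.W y φ := by
  have := two_le_q (F := F)
  have := H.q_lt
  exact h.W_ne H.hγ H.hγ' (by nlinarith)

theorem Hyp.cap (H : S.Hyp γ) {x y : V} {φ : V'} (h : S.Sp x y φ) :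
    Nat.card ↥(S.flip.W1 φ x ⊓ S.flip.W1 φ y) = γ := by
  have h1 := (h.half H.hγ H.hγ' (H.ne h)).1
  have h2 := S.flip.card_perp_mul (S.flip.W1 φ x ⊔ S.flip.W1 φ y)
  rw [Pr.perp_sup] at h2
  have h3 := card_sup_mul_card_inf (S.flip.W1 φ x) (S.flip.W1 φ y)
  rw [H.hγ'.cW h.hφ h.hx h.xφ, H.hγ'.cW h.hφ h.hy h.yφ] at h3
  have h4 := card_W H.hγ' h.hx h.hφ h.xφ
  change _ * Nat.card ↥(S.W x φ ⊓ S.W y φ) = Nat.card F ^ (S.s + 3) at h2
  have hp : 0 < Nat.card ↥(S.W x φ ⊓ S.W y φ) := Nat.card_pos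
  have h5 : Nat.card ↥(S.flip.W1 φ x ⊔ S.flip.W1 φ y) = Nat.card F ^ 2 * γ := by
    apply Nat.eq_of_mul_eq_mul_right hp
    rw [h2, pow_succ, ← h4, h1]; ring
  have := H.q_lt
  have := two_le_q (F := F)
  apply Nat.eq_of_mul_eq_mul_left (show 0 < Nat.card F ^ 2 * γ from Nat.mul_pos (by positivity) (by omega))
  rw [← h5, h3, h5]; ring

theorem Hyp.lj (H : S.Hyp γ) {x y : V} {φ ψ : V'} (h : S.Sp x y φ) (h' : S.Sp x y ψ)
    (hne : ψ ∉ (F ∙ φ)) : S.flip.Sp φ ψ x := by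
  have key := dc_eq {y | S.Sp x y φ} {ψ | S.flip.Sp φ ψ x} (fun y ψ => S.Sp x y ψ) (γ - Nat.card F)
    (by rw [← W1_diff, ← W1_diff, ncard_diff (pt_le_W1 _ _), ncard_diff (pt_le_W1 _ _),
      card_pt h.hx, card_pt h.hφ, H.hγ.cW h.hx h.hφ h.xφ, H.hγ'.cW h.hφ h.hx h.xφ])
    (fun χ hχ => by
      have := H.flip.cap hχ
      rw [flip_flip] at this
      rw [← this, ← card_pt (F := F) h.hx, ← ncard_diff (le_inf (pt_le_W1 _ _) (pt_le_W1 _ _))]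
      congr 1
      ext v
      have e1 := Set.ext_iff.1 (W1_diff (S := S) x φ) v
      have e2 := Set.ext_iff.1 (W1_diff (S := S) x χ) v
      simp only [Set.mem_diff, SetLike.mem_coe, Set.mem_setOf_eq, Submodule.mem_inf] at e1 e2 ⊢
      rw [← e1, ← e2]; tauto)
  have sub : ∀ y, S.Sp x y φ → {χ | χ ∈ {ψ | S.flip.Sp φ ψ x} ∧ S.Sp x y χ} ⊆
      (S.Lam x y : Set V') \ (F ∙ φ) := by
    rintro y hy χ ⟨a1, a2⟩
    exact ⟨mem_Lam.2 (Or.inr a2), a1.yx⟩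
  have cd : ∀ y, S.Sp x y φ → ((S.Lam x y : Set V') \ (F ∙ φ)).ncard = γ - Nat.card F := by
    intro y hy
    rw [ncard_diff (pt_le.2 (mem_Lam.2 (Or.inr hy))), card_pt h.hφ, H.hγ.cL hy.hx hy.yx]
  have := key (fun y hy => (Set.ncard_le_ncard (sub y hy)).trans (cd y hy).le) y h
  have e := Set.eq_of_subset_of_ncard_le (sub y h) (by rw [cd y h, this])
  have : ψ ∈ (S.Lam x y : Set V') \ (F ∙ φ) := ⟨mem_Lam.2 (Or.inr h'), hne⟩
  rw [← e] at this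
  exact this.1

theorem Hyp.eq_four (H : S.Hyp γ) {x y : V} {φ : V'} (h : S.Sp x y φ)
    (hne : S.W1 x φ ≠ S.W1 y φ) : γ = Nat.card F ^ 2 := by
  by_contra h4
  have h5 := H.sq_le
  have h6 := H.q_lt
  have hq := two_le_q (F := F)
  have c := H.cap h
  have cx := H.hγ.cW h.hx h.hφ h.xφ
  have cy := H.hγ.cW h.hy h.hφ h.yφ
  have sp : ∀ {ψ v}, ψ ∉ (F ∙ φ) → ψ ∈ S.flip.W1 φ v → S.flip.Sp φ ψ v :=
    fun h1 e => (mem_W1.1 e).resolve_left h1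
  have key : ∀ ψ ∈ S.flip.W1 φ x ⊓ S.flip.W1 φ y, ψ ∉ (F ∙ φ) →
      S.flip.Lam φ ψ = S.W1 x φ ⊓ S.W1 y φ := by
    intro ψ h1 h2
    have a1 := sp h2 h1.1
    have a2 := sp h2 h1.2
    have : ∀ {v}, S.flip.Sp φ ψ v → S.flip.Lam φ ψ ≤ S.W1 v φ := by
      intro v hv u hu
      rcases mem_Lam.1 hu with rfl | hu
      · exact zero_mem _
      · by_cases e : u ∈ (F ∙ v)
        · exact pt_le_W1 _ _ e
        · exact (H.flip.lj hv hu e).mem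
    refine eq_of_le_of_card_ge (le_inf (this a1) (this a2)) ?_
    have := q_mul_card_le_of_lt (inf_le_left : S.W1 x φ ⊓ S.W1 y φ ≤ _) fun e =>
      hne (eq_of_le_of_card_ge (inf_eq_left.1 e) (by omega))
    rw [H.hγ'.cL a1.hx a1.yx]
    exact Nat.le_of_mul_le_mul_left (cx ▸ this) (by omega)
  obtain ⟨ψ₁, a1, a2⟩ := exists_not_mem_of_card_lt (T := S.flip.W1 φ x ⊓ S.flip.W1 φ y)
    (X := F ∙ φ) (by rw [card_pt h.hφ]; omega)
  have a3 := sp a2 a1.1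
  obtain ⟨ψ₂, b1, b2⟩ := exists_not_mem_of_card_lt (T := S.flip.W1 φ x ⊓ S.flip.W1 φ y)
    (X := pl F φ ψ₁) (by rw [card_pl h.hφ a3.yx]; omega)
  have b3 : ψ₂ ∉ (F ∙ φ) := fun hc => b2 (pt_le_pl _ _ hc)
  obtain ⟨z, z1, z2⟩ := S.flip.exists_sep b2
  have z3 := S.flip.mem_perp_pl.1 z1
  have z4 : z ∉ S.W x φ := fun hc => by
    have := hc ψ₂ b1.1
    rw [z2] at this; exact one_ne_zero this
  obtain ⟨z₀, c1, c2⟩ : ∃ z₀ ∈ S.W y φ, z₀ ∉ S.W x φ := by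
    by_contra! hc
    have e1 := card_W H.hγ' h.hx h.hφ h.xφ
    have e2 := card_W H.hγ' h.hy h.hφ h.yφ
    exact H.ne h (eq_of_le_of_card_ge hc
      (Nat.eq_of_mul_eq_mul_right (by omega) (e1.trans e2.symm)).le).symm
  obtain ⟨g, hg, rfl⟩ := tr_W h.hx h.hφ h.xφ z₀ ⟨W_le y φ c1, c2⟩ z
    ⟨S.flip.mem_perp_pt.2 z3.1, z4⟩
  have d1 := h.smul_F hg
  have d2 := smul_mem_W g c1
  rw [W_congr rfl (mem_ps'.1 hg.2)] at d2
  have e1 : S.W x φ ⊔ (F ∙ (g • z₀)) = S.W x φ ⊔ S.W (g • y) φ := by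
    refine eq_of_le_of_card_ge (sup_le_sup_left (pt_le.2 d2) _) ?_
    have f1 := q_mul_card_le_of_lt (le_sup_left : S.W x φ ≤ S.W x φ ⊔ (F ∙ (g • z₀)))
      fun e => z4 (e ▸ Submodule.mem_sup_right (self_mem_pt _))
    have f2 := card_sup_mul_card_inf (S.W x φ) (S.W (g • y) φ)
    have f3 := (d1.half H.hγ H.hγ' (H.ne d1)).1
    have e1 := card_W H.hγ' h.hx h.hφ h.xφ
    have e2 := card_W H.hγ' d1.hy h.hφ d1.yφ
    have f4 := Nat.eq_of_mul_eq_mul_right (by omega) (e2.trans e1.symm)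
    have hp : 0 < Nat.card ↥(S.W x φ ⊓ S.W (g • y) φ) := Nat.card_pos
    have : Nat.card ↥(S.W x φ ⊔ S.W (g • y) φ) = Nat.card F * Nat.card (S.W x φ) := by
      apply Nat.eq_of_mul_eq_mul_right hp
      rw [f2, f4]; nth_rewrite 2 [f3]; ring
    omega
  have e2 : ψ₁ ∈ S.perp (S.W x φ ⊔ (F ∙ (g • z₀))) := by
    rw [Pr.perp_sup, perp_W]
    exact ⟨a1.1, S.mem_perp_pt.2 z3.2⟩
  rw [e1, Pr.perp_sup, perp_W, perp_W] at e2
  have e3 : g • y ∈ S.flip.Lam φ ψ₁ := mem_Lam.2 (Or.inr (sp a2 e2.2))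
  rw [key ψ₁ a1 a2, ← key ψ₂ b1 b3] at e3
  have := d2 ψ₂ ((mem_Lam.1 e3).resolve_left d1.hy).mem
  rw [z2] at this; exact one_ne_zero this

theorem rb {M : Subgroup G} {x : V} {φ : V'} (hx : x ≠ 0) (hφ : φ ≠ 0)
    (hF : ps F G x ⊓ ps F G φ ≤ M) (hM : M ≤ ps F G φ) {B R : Submodule F V}
    (hBR : B ≤ R) (hRH : R ≤ S.flip.perp (F ∙ φ)) (hxB : x ∈ B) (hB : Inv M (B : Set V))
    (hR : Inv M (R : Set V)) (ho : ∀ y ∈ B, y ≠ 0 → y ∈ orb M x)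
    (hc : Nat.card R = Nat.card F * Nat.card B) (h4 : Nat.card F ^ 2 ≤ Nat.card B) : False := by
  have hq := two_le_q (F := F)
  have h5 : Nat.card F < Nat.card B := by nlinarith
  obtain ⟨z, z1, z2⟩ := exists_not_mem_of_card_lt (T := R) (X := B) (by nlinarith)
  have z0 : z ≠ 0 := ne0_of_not_mem z2
  have hH : ∀ v ∈ R, S.b v φ = 0 := fun v hv => S.flip.mem_perp_pt.1 (hRH hv)
  obtain ⟨h, h1, h2⟩ := S.flag hx z0 hφ hφ (iff_of_true (hH x (hBR hxB)) (hH z z1))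
  replace h2 : h ∈ ps F G φ := h2
  have a1 : B ≤ h • R := by
    intro y hy
    by_cases y0 : y = 0
    · rw [y0]; exact zero_mem _
    obtain ⟨g, g1, g2, g3⟩ := S.swap y0 z0 hφ (hH y (hBR hy)) (hH z z1)
    obtain ⟨k, hk, rfl⟩ := ho y hy y0
    have : h⁻¹ * g * k ∈ M := hF ⟨mem_ps_of_eq <| by
      rw [mul_smul, mul_smul, g2, ← h1, inv_smul_smul],
        (ps F G φ).mul_mem (mul_mem (inv_mem h2) g1) (hM hk)⟩
    have := hR _ this _ (hR _ (M.inv_mem hk) z z1)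
    rw [mul_smul, smul_inv_smul, mul_smul] at this
    rw [← pt_le, ← g3, smul_pt, pt_le]
    exact mem_smul_iff.2 this
  have a2 : h • B ≤ h • R := fun v hv => mem_smul_iff.2 (hBR (mem_smul_iff.1 hv))
  have a3 := card_sup_mul_card_inf B (h • B)
  have a4 := card_le_of_le (sup_le a1 a2)
  rw [card_smul, hc] at a4
  rw [card_smul] at a3
  obtain ⟨y, ⟨y1, y2⟩, y3⟩ := exists_not_mem_of_card_lt (T := B ⊓ h • B) (X := ⊥) (by
    rw [card_bot]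
    by_contra hc
    have : Nat.card ↥(B ⊔ h • B) * Nat.card ↥(B ⊓ h • B) ≤ Nat.card F * Nat.card B * 1 :=
      Nat.mul_le_mul a4 (by omega)
    nlinarith)
  obtain ⟨k, hk, rfl⟩ := ho y y1 y3
  obtain ⟨k', hk', e⟩ := ho _ (mem_smul_iff.1 y2) (smul_ne0 y3)
  have : k⁻¹ * h * k' ∈ M := hF ⟨mem_ps_of_eq <| by
    rw [mul_smul, mul_smul, e, smul_inv_smul, inv_smul_smul],
    (ps F G φ).mul_mem (mul_mem (inv_mem (hM hk)) h2) (hM hk')⟩
  have hh : h ∈ M := by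
    have := M.mul_mem (M.mul_mem hk this) (M.inv_mem hk')
    simpa [mul_assoc] using this
  exact z2 (h1 ▸ hB h hh x hxB)

theorem Hyp.eq_four' (H : S.Hyp γ) : γ = Nat.card F ^ 2 := by
  by_contra h4
  have c1 : ∀ {x y φ}, S.Sp x y φ → S.W1 x φ = S.W1 y φ := fun h => by
    by_contra hc; exact h4 (H.eq_four h hc)
  have c2 : ∀ {φ ψ x}, S.flip.Sp φ ψ x → S.flip.W1 φ x = S.flip.W1 ψ x := fun h => by
    by_contra hc; exact h4 (H.flip.eq_four h hc)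
  have h5 := H.sq_le
  have h6 := H.q_lt
  have hq := two_le_q (F := F)
  have cap' : ∀ {φ ψ x}, S.flip.Sp φ ψ x → Nat.card ↥(S.W1 x φ ⊓ S.W1 x ψ) = γ :=
    fun h => H.flip.cap h
  have E : ∀ {φ ψ ψ' x}, S.flip.Sp φ ψ x → S.flip.Sp φ ψ' x →
      S.W1 x ψ' ≤ S.W1 x φ ⊔ S.W1 x ψ := by
    intro φ ψ ψ' x h h'
    have sp : ∀ {χ χ'}, S.flip.Sp φ χ x → S.flip.Sp φ χ' x → χ' ∉ (F ∙ χ) →
        S.flip.Sp χ χ' x := by
      intro χ χ' a1 a2 a3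
      have := a2.mem
      rw [c2 a1] at this
      exact (mem_W1.1 this).resolve_left a3
    have cB : ∀ {χ}, S.flip.Sp φ χ x → Nat.card (S.W1 x χ) = Nat.card F * γ :=
      fun a => H.hγ.cW a.hφ a.hy a.yφ
    have cg : ∀ {χ χ'}, S.flip.Sp φ χ x → χ ∈ (F ∙ χ') → S.W1 x χ = S.W1 x χ' :=
      fun a r => W1_congr rfl (pt_eq_of_mem a.hy r)
    by_cases e : ψ ∈ (F ∙ ψ')
    · rw [cg h e]; exact le_sup_right
    by_cases e' : S.W1 x ψ' ⊓ S.W1 x φ = S.W1 x ψ' ⊓ S.W1 x ψ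
    swap
    · exact span2 (cB h') (cap' h'.symm) (cap' (sp h' h e)) e'
    obtain ⟨y, ⟨y1, y2⟩, y3⟩ := exists_not_mem_of_card_lt (T := S.W1 x ψ' ⊓ S.W1 x φ) (X := F ∙ x)
      (by rw [cap' h'.symm, card_pt h.hφ]; omega)
    have y4 : y ∈ S.W1 x ψ := (show y ∈ S.W1 x ψ' ⊓ S.W1 x ψ from e' ▸ ⟨y1, y2⟩).2
    have spy : ∀ {χ}, y ∈ S.W1 x χ → S.Sp x y χ := fun a => (mem_W1.1 a).resolve_left y3
    obtain ⟨χ, a1, a2⟩ := exists_not_mem_of_card_lt (T := S.flip.W1 φ x) (X := S.Lam x y)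
      (by rw [H.hγ.cL (spy y1).hx (spy y1).yx, H.hγ'.cW h.hx h.hφ h.xφ]; nlinarith)
    have a3 : S.flip.Sp φ χ x :=
      (mem_W1.1 a1).resolve_left fun a => a2 (pt_le.2 (mem_Lam.2 (Or.inr (spy y2))) a)
    have a4 : y ∉ S.W1 x χ := fun hc => a2 (mem_Lam.2 (Or.inr (spy hc)))
    have a5 : ψ ∉ (F ∙ χ) := fun r => a4 (cg h r ▸ y4)
    have a6 : χ ∉ (F ∙ ψ') := fun r => a4 (cg a3 r ▸ y1)
    have b1 : S.W1 x χ ≤ S.W1 x φ ⊔ S.W1 x ψ := by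
      refine span2 (cB a3) (cap' a3.symm) (cap' (sp a3 h a5)) fun hc => a4 ?_
      have : S.W1 x χ ⊓ S.W1 x φ = S.W1 x φ ⊓ S.W1 x ψ :=
        eq_of_le_of_card_ge (le_inf inf_le_right (hc ▸ inf_le_right))
          (by rw [cap' h, cap' a3.symm])
      exact (show y ∈ S.W1 x χ ⊓ S.W1 x φ from this ▸ ⟨y2, y4⟩).1
    refine (span2 (cB h') (cap' h'.symm) (cap' (sp h' a3 a6)) fun hc => a4 ?_).trans
      (sup_le le_sup_left b1)
    exact (show y ∈ S.W1 x ψ' ⊓ S.W1 x χ from hc ▸ ⟨y1, y2⟩).2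
  obtain ⟨x, φ, h1, h2, h3⟩ := S.exists_flag
  obtain ⟨ψ, h⟩ := S.flip.exists_sp h2 h1 h3
  have cB := H.hγ.cW h1 h2 h3
  refine rb (S := S) (M := ps F G φ ⊓ stabilizer G (S.W1 x φ)) (B := S.W1 x φ)
    (R := S.W1 x φ ⊔ S.W1 x ψ) h1 h2 (le_inf inf_le_right (inv_iff_le_stab.1 (inv_W1 x φ)))
    inf_le_left le_sup_left (sup_le (W1_le h3) ?_) (self_mem_W1 x φ)
    (inv_iff_le_stab.2 inf_le_right) ?_ ?_ ?_ (by nlinarith)
  · intro v hv
    rcases mem_W1.1 hv with hv | hv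
    · exact pt_le.2 (S.flip.mem_perp_pt.2 h3) hv
    · exact S.flip.mem_perp_pt.2 (hv.mem_W H.hγ H.n4 φ h.symm.mem)
  · intro k hk v hv
    obtain ⟨a, ha, c, hc, rfl⟩ := Submodule.mem_sup.1 hv
    rw [smul_add]
    refine add_mem (Submodule.mem_sup_left (stab_mem hk.2 ha)) ?_
    have a1 : S.flip.Sp φ (k • ψ) (k • x) :=
      (h.smul k).congr (mem_ps'.1 hk.1).symm (by rw [pl, pl, mem_ps'.1 hk.1]) rfl
    have a2 := smul_mem_W1 k hc
    rcases mem_W1.1 (stab_mem hk.2 (self_mem_W1 x φ)) with e | e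
    · have r := pt_eq_of_mem (smul_ne0 h1) e
      rw [W1_congr r rfl] at a2
      exact E h (a1.congr rfl rfl r.symm) a2
    · obtain ⟨χ, b1, b2⟩ := exists_not_mem_of_card_lt (T := S.Lam x (k • x)) (X := F ∙ φ)
        (by rw [H.hγ.cL e.hx e.yx, card_pt h2]; omega)
      replace b1 := (mem_Lam.1 b1).resolve_left (ne0_of_not_mem b2)
      have := E (H.lj e.symm b1.symm b2) a1 a2
      rw [← c1 e, ← c1 b1] at this
      exact (sup_le le_sup_left (E h (H.lj e b1 b2))) this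
  · intro y hy y0
    rcases mem_W1.1 hy with hy | hy
    · exact S.mem_orb_of_pt (le_inf (S.Z_le_stab' _) (S.Z_le_stab _)) (one_mem _)
        (by rw [one_smul, pt_eq_of_mem y0 hy])
    · obtain ⟨g, g1, g2, -⟩ := S.swap h1 y0 h2 h3 hy.yφ
      exact ⟨g, ⟨g1, mem_stabilizer_iff.2 <| by
        rw [← W1_smul, g2, W1_congr rfl (mem_ps'.1 g1), c1 hy]⟩, g2⟩
  · have := card_sup_mul_card_inf (S.W1 x φ) (S.W1 x ψ)
    rw [cap' h, cB, H.hγ.cW h1 h.hy h.yφ] at this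
    apply Nat.eq_of_mul_eq_mul_right (show 0 < γ by omega)
    rw [this, cB]; ring

end St

end Cfsg.Agent.Sing
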