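import Cfsg.Agent.Sing.Def

/-!
# Perin's argument over `𝔽_q`, two independent lemmas
-/

set_option autoImplicit false
set_option linter.unusedSectionVars false
set_option linter.style.haveILetI false

namespace Cfsg.Agent.Sing

open MulAction Pointwise Cfsg.Agent.Proj.CK

variable {F G V : Type*} [Field F] [Group G] [AddCommGroup V] [Module F V] [DistribMulAction G V]
  [SMulCommClass G F V] [Finite F] [Finite V]

omit [Finite F] [Finite V] in
theorem pt_add_inj {x y : V} (hx : x ≠ 0) (hyx : y ∉ (F ∙ x)) {s s' : F}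
    (h : (F ∙ (y + s • x)) = F ∙ (y + s' • x)) : s = s' := by
  obtain ⟨a, -, e⟩ := pt_eq_iff.1 h
  by_cases ha : a = 1
  · rw [ha, one_smul] at e
    exact smul_left_injective F hx (add_left_cancel e)
  · refine (hyx (mem_pt.2 ⟨(a - 1)⁻¹ * (s' - a * s), ?_⟩)).elim
    rw [mul_smul, inv_smul_eq_iff₀ (sub_ne_zero.2 ha)]
    linear_combination (norm := module) -e

omit [Finite F] [Finite V] in
theorem add_not_mem_pt {x y : V} (hyx : y ∉ (F ∙ x)) (s : F) : y + s • x ∉ (F ∙ x) := fun h =>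
  hyx ((Submodule.add_mem_iff_left _ (smul_mem_pt s x)).1 h)

/-- Suppose `N0` acts as an abelian group on `ℓ = pl x y`.
(a) If every `c ∈ N0` fixes all points of `ℓ`: take `u ∈ N` fixing `F∙x` and moving `F∙y`
(to `F∙(x+y)`), `w ∈ N` with `w (F∙x) = F∙y`; `u w u⁻¹ w⁻¹ ∈ N0` fixes the point
`w u (F∙x) = F∙y`, i.e. `u w (F∙x) = F∙y`, contradiction.
(b) Else `c ∈ N0` moves a point `b`.  It fixes no point `a`: otherwise take `u` with `u a = b`,
`u b = c b`; `c' = u c u⁻¹` fixes `b`, moves `c b`, but `c' c b = c c' b = c b`.  So `v, c v` is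
a basis of `ℓ` for all `0 ≠ v ∈ ℓ`, `c² = t c - d` on `ℓ` (write `c² x = t c x - d x`, apply `c`).
For `u ∈ N` fixing `F∙x`, `c' = u c u⁻¹` satisfies the same equation and commutes with `c`, so
`(c' - c)(c' + c - t) = 0` on `ℓ`: either `c' x = t x - c x`, or `v = (c' + c - t) x ≠ 0` has
`c' v = c v`, `c' c v = c c v`, so `c' = c` on `ℓ`.  As `u (F∙ c x) = F∙ c' x`, the point `F∙ c x`
has at most two images under `N ⊓ ps x`, but the three points `F∙(c x + s x)` (`s ∈ F`, `q ≥ 3`)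
are images. -/
theorem line_nonab (hq : 3 ≤ Nat.card F) {x y : V} (hx : x ≠ 0) (hyx : y ∉ (F ∙ x))
    {N N0 : Subgroup G} (hN : N ≤ stabilizer G (pl F x y)) (h0 : N0 ≤ N)
    (hn : ∀ u ∈ N, ∀ c ∈ N0, u * c * u⁻¹ ∈ N0) (hc : ∀ u ∈ N, ∀ w ∈ N, u * w * u⁻¹ * w⁻¹ ∈ N0)
    (h2 : ∀ a ∈ pl F x y, ∀ b ∈ pl F x y, ∀ a' ∈ pl F x y, ∀ b' ∈ pl F x y, a ≠ 0 → b ∉ (F ∙ a) →
      a' ≠ 0 → b' ∉ (F ∙ a') → ∃ u ∈ N, u • (F ∙ a) = (F ∙ a') ∧ u • (F ∙ b) = (F ∙ b')) :
    ∃ a ∈ N0, ∃ b ∈ N0, ∃ l ∈ pl F x y, (a * b) • l ≠ (b * a) • l := by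
  by_contra! hab
  have sm : ∀ (g : G) (a : F) (v : V), g • a • v = a • g • v := smul_comm
  have mx := left_mem_pl (F := F) x y
  have my := right_mem_pl (F := F) x y
  by_cases hfix : ∀ c ∈ N0, ∀ v ∈ pl F x y, c • v ∈ (F ∙ v)
  · obtain ⟨u, hu, u1, u2⟩ := h2 x mx y my x mx _ (add_mem my (Submodule.smul_mem _ 1 mx)) hx hyx hx
      (add_not_mem_pt hyx 1)
    obtain ⟨w, hw, w1, -⟩ := h2 x mx y my y my x mx hx hyx (ne0_of_not_mem hyx)
      (not_mem_pt_symm hx hyx)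
    have e := mem_stabilizer_iff.1 (mem_ps_of_mem (hfix _ (hc u hu w hw) y my))
    rw [mul_smul, mul_smul, mul_smul, inv_smul_eq_iff.2 w1.symm, inv_smul_eq_iff.2 u1.symm, w1,
      u2] at e
    exact one_ne_zero (pt_add_inj hx hyx (s' := 0) (by rwa [zero_smul, add_zero]))
  push Not at hfix
  obtain ⟨c, hc0, b, hb, cb⟩ := hfix
  have cl : ∀ v ∈ pl F x y, c • v ∈ pl F x y := fun v => stab_mem (hN (h0 hc0))
  have b0 : b ≠ 0 := by rintro rfl; simp at cb
  have nf : ∀ a ∈ pl F x y, a ≠ 0 → c • a ∉ (F ∙ a) := fun a ha a0 ca => by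
    have ba : b ∉ (F ∙ a) := fun k => cb (by
      rw [pt_eq_of_mem b0 k]
      exact stab_mem (mem_ps_of_mem ca) k)
    obtain ⟨u, hu, u1, u2⟩ := h2 a ha b hb b hb _ (cl b hb) a0 ba b0 cb
    have e1 : (u * c * u⁻¹) • (F ∙ b) = F ∙ b := by
      rw [mul_smul, mul_smul, inv_smul_eq_iff.2 u1.symm, mem_stabilizer_iff.1 (mem_ps_of_mem ca), u1]
    have e2 : (u * c * u⁻¹) • (F ∙ (c • b)) = F ∙ (c • b) := by
      rw [smul_pt, ← mul_smul, hab _ (hn u hu c hc0) c hc0 b hb, mul_smul, ← smul_pt, ← smul_pt, e1,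
        smul_pt]
    rw [mul_smul, mul_smul, inv_smul_eq_iff.2 u2.symm, ← u2, smul_left_cancel_iff, smul_pt] at e2
    exact cb (e2 ▸ self_mem_pt _)
  have bas : ∀ v ∈ pl F x y, v ≠ 0 → ∀ w ∈ pl F x y, ∃ p q : F, p • v + q • c • v = w :=
    fun v hv v0 w hw => mem_pl.1 (pl_eq_of_mem hv (cl v hv) v0 (nf v hv v0) ▸ hw)
  obtain ⟨α, β, e⟩ := bas x mx hx _ (cl _ (cl x mx))
  have eq : ∀ v ∈ pl F x y, c • c • v = α • v + β • c • v := fun v hv => by
    obtain ⟨p, q, rfl⟩ := bas x mx hx v hv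
    have e' := congrArg (c • ·) e
    simp only [smul_add, sm] at e' ⊢
    rw [← e', ← e]
    generalize c • x = z
    module
  obtain ⟨s, s0, s1⟩ : ∃ s : F, s ≠ 0 ∧ s ≠ -β := by
    classical
    have := Fintype.ofFinite F
    obtain ⟨s, -, hs⟩ := Finset.exists_mem_notMem_of_card_lt_card (s := {0, -β}) (t := Finset.univ)
      (Finset.card_le_two.trans_lt (by rwa [Finset.card_univ, ← Nat.card_eq_fintype_card]))
    exact ⟨s, by simpa using hs⟩
  have cx := nf x mx hx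
  obtain ⟨u, hu, u1, u2⟩ := h2 x mx _ (cl x mx) x mx _
    (add_mem (cl x mx) (Submodule.smul_mem _ s mx)) hx cx hx (add_not_mem_pt cx s)
  have hc' := hn u hu c hc0
  have eq' : ∀ v ∈ pl F x y, (u * c * u⁻¹) • (u * c * u⁻¹) • v = α • v + β • (u * c * u⁻¹) • v :=
    fun v hv => by
      simp only [mul_smul, inv_smul_smul]
      rw [eq _ (stab_mem (hN (inv_mem hu)) hv), smul_add, sm u, sm u, smul_inv_smul]
  have u3 : (F ∙ ((u * c * u⁻¹) • x)) = F ∙ (c • x + s • x) := by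
    rw [← smul_pt, mul_smul, mul_smul, inv_smul_eq_iff.2 u1.symm, smul_pt c, u2]
  have com : ∀ v ∈ pl F x y, (u * c * u⁻¹) • c • v = c • (u * c * u⁻¹) • v := fun v hv => by
    rw [← mul_smul, hab _ hc' c hc0 v hv, mul_smul]
  have m' := stab_mem (hN (h0 hc')) mx
  generalize u * c * u⁻¹ = c' at eq' u3 com m'
  have hv : c' • x + c • x - β • x ∈ pl F x y :=
    sub_mem (add_mem m' (cl x mx)) (Submodule.smul_mem _ _ mx)
  have ev : c' • (c' • x + c • x - β • x) = c • (c' • x + c • x - β • x) := by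
    simp only [smul_sub, smul_add, sm]
    rw [eq' x mx, eq x mx, com x mx]
    abel
  by_cases v0 : c' • x + c • x - β • x = 0
  · refine s1 (pt_add_inj hx cx (u3.symm.trans ?_))
    rw [← pt_smul (neg_ne_zero.2 (one_ne_zero (α := F)))]
    congr 2
    generalize c' • x = z, c • x = w at v0 ⊢
    linear_combination (norm := module) -v0
  · obtain ⟨p, q, e1⟩ := bas _ hv v0 x mx
    have e2 : c' • x = c • x := by
      rw [← e1, smul_add, smul_add, sm c', sm c', sm c, sm c,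
        com _ hv, ev]
    exact s0 (pt_add_inj hx cx (by rw [← u3, e2, zero_smul, add_zero]))

omit [Finite F] in
/-- `K = Subring.closure {ρ}` is commutative.  Kernels of elements of `K` are `ρ`-invariant, so
non-zero elements are injective.  For `0 ≠ y`, `K y` is a non-zero `ρ`-invariant additive
subgroup, so `K y = Y` and `κ ↦ κ y` is a bijection `K ≃ Y`.  If `φ` commutes with `ρ` (hence with
`K`) and `φ y = κ y`, then `φ (κ' y) = κ' κ y = κ (κ' y)`, so `φ = κ`. -/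
theorem singer_ring [Nontrivial V] (ρ : Module.End F V)
    (hirr : ∀ T : AddSubgroup V, (∀ v ∈ T, ρ v ∈ T) → T = ⊥ ∨ T = ⊤) :
    (∀ κ ∈ Subring.closure {ρ}, ∀ κ' ∈ Subring.closure {ρ}, κ * κ' = κ' * κ) ∧
    (∀ κ ∈ Subring.closure {ρ}, κ ≠ 0 → Function.Injective κ) ∧
    Nat.card (Subring.closure {ρ}) = Nat.card V ∧
    ∀ φ : Module.End F V, φ * ρ = ρ * φ → φ ∈ Subring.closure {ρ} := by
  have c1 : ∀ φ : Module.End F V, φ * ρ = ρ * φ → ∀ κ ∈ Subring.closure {ρ}, φ * κ = κ * φ :=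
    fun φ h κ hκ => (Subring.closure_le (t := Subring.centralizer {φ})).2
      (fun _ hx _ hy => by rw [hx, hy, h]) hκ φ rfl
  have c2 : ∀ κ ∈ Subring.closure {ρ}, ∀ κ' ∈ Subring.closure {ρ}, κ * κ' = κ' * κ :=
    fun κ hκ => c1 κ (c1 ρ rfl κ hκ).symm
  have hρ : ρ ∈ Subring.closure {ρ} := Subring.subset_closure rfl
  have inj : ∀ κ ∈ Subring.closure {ρ}, κ ≠ 0 → Function.Injective κ := fun κ hκ h0 => by
    rcases hirr (LinearMap.ker κ).toAddSubgroup (fun v hv => by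
      change κ (ρ v) = 0
      rw [← Module.End.mul_apply, c2 κ hκ ρ hρ, Module.End.mul_apply, show κ v = 0 from hv,
        map_zero]) with h | h
    · exact LinearMap.ker_eq_bot.1 (Submodule.toAddSubgroup_injective h)
    · exact (h0 (LinearMap.ker_eq_top.1 (Submodule.toAddSubgroup_injective h))).elim
  obtain ⟨y, hy⟩ := exists_ne (0 : V)
  let f : Subring.closure {ρ} →+ V :=
    { toFun := fun κ => κ.1 y, map_zero' := rfl, map_add' := fun _ _ => rfl }
  have sur : Function.Surjective f := by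
    rcases hirr f.range (by
      rintro _ ⟨κ, rfl⟩
      exact ⟨⟨ρ * κ, mul_mem hρ κ.2⟩, rfl⟩) with h | h
    · exact (hy (AddSubgroup.mem_bot.1 (h ▸ ⟨1, rfl⟩))).elim
    · exact AddMonoidHom.range_eq_top.1 h
  refine ⟨c2, inj, Nat.card_eq_of_bijective f ⟨(injective_iff_map_eq_zero f).2 fun κ h => ?_, sur⟩,
    fun φ h => ?_⟩
  · by_contra h0
    exact hy (inj κ κ.2 (fun e => h0 (Subtype.ext e)) (h.trans (map_zero _).symm))
  · obtain ⟨κ, e⟩ := sur (φ y)
    have : φ = κ := LinearMap.ext fun v => by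
      obtain ⟨κ', rfl⟩ := sur v
      change (φ * κ') y = (κ.1 * κ') y
      rw [c1 φ h κ' κ'.2, c2 κ κ.2 κ' κ'.2, Module.End.mul_apply, Module.End.mul_apply, ← e]
      rfl
    exact this ▸ κ.2

end Cfsg.Agent.Sing
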