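import Cfsg.Agent.Sing.Tri
import Cfsg.Agent.Sing.PerA
import Cfsg.Agent.Misc.Zsigmondy
import Cfsg.Agent.Proj.CKPerin

/-!
# Perin's argument over `𝔽_q`: the element `ρ` and the Frattini argument
-/

set_option autoImplicit false
set_option linter.unusedSectionVars false
set_option linter.style.haveILetI false

namespace Cfsg.Agent.Sing

open MulAction Pointwise Cfsg.Agent.Proj.CK

variable {F G V V' : Type*} [Field F] [Group G] [AddCommGroup V] [AddCommGroup V']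
  [Module F V] [Module F V'] [DistribMulAction G V] [DistribMulAction G V']
  [SMulCommClass G F V] [SMulCommClass G F V'] [Finite F] [Finite V] [Finite V']
  [Finite G]

namespace PB

theorem ppd_le {p n r a c : ℕ} (h : Misc.Zsig.IsPPD p n r) (hp : 1 < p) (hn : 0 < n)
    (hd : r ∣ p ^ a - p ^ c) (hca : c < a) : c + n ≤ a := by
  obtain ⟨d, rfl⟩ := Nat.exists_eq_add_of_lt hca
  rw [add_assoc, pow_add, ← Nat.mul_sub_one] at hd
  rcases (Nat.Prime.dvd_mul h.1).1 hd with h1 | h1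
  · have h2 : r ∣ p ^ n := (h.1.dvd_of_dvd_pow h1).trans (dvd_pow_self p hn.ne')
    have h3 := (Nat.dvd_sub_iff_right (Nat.one_le_pow n p (by omega)) h2).1 h.2.1
    exact absurd (Nat.le_of_dvd one_pos h3) (by have := h.1.two_le; omega)
  · by_contra hc
    exact h.2.2 (d + 1) (by omega) (by omega) h1

theorem pow_smul_eq {g : G} {x : V} {a : F} (h : g • x = a • x) (k : ℕ) : g ^ k • x = a ^ k • x := by
  induction k with
  | zero => simp
  | succ k ih => rw [pow_succ, mul_smul, h, smul_comm, ih, smul_smul, pow_succ']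

theorem fix_of_pow {g : G} {x : V} {r : ℕ} (hr : r.Coprime (Nat.card F - 1)) (hg : g ^ r = 1)
    (h : g ∈ ps F G x) : g • x = x := by
  obtain ⟨a, a0, e⟩ := mem_ps.1 h
  by_cases hx : x = 0
  · simp [hx]
  have h1 : a ^ r = 1 := smul_left_injective F hx (by
    simp only []
    rw [← pow_smul_eq e, hg, one_smul, one_smul])
  have := Fintype.ofFinite F
  have h2 : a ^ (Nat.card F - 1) = 1 := by
    rw [Nat.card_eq_fintype_card]; exact FiniteField.pow_card_sub_one_eq_one a a0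
  have h3 : a = 1 := orderOf_eq_one_iff.1 (Nat.eq_one_of_dvd_coprimes hr
    (orderOf_dvd_of_pow_eq_one h1) (orderOf_dvd_of_pow_eq_one h2))
  rw [e, h3, one_smul]

theorem pow_smul_add {g : G} {w v : V} (h : g • w = w + v) (hv : g • v = v) (k : ℕ) :
    g ^ k • w = w + (k : F) • v := by
  induction k with
  | zero => simp
  | succ k ih =>
    rw [pow_succ', mul_smul, ih, smul_add, h, smul_comm, hv, Nat.cast_succ, add_smul, one_smul]
    abel

theorem pow_mem_of {g : G} {Y : Submodule F V} (h : ∀ v ∈ Y, g • v ∈ Y) (k : ℕ) :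
    ∀ v ∈ Y, g ^ k • v ∈ Y := by
  induction k with
  | zero => simp
  | succ k ih => intro v hv; rw [pow_succ', mul_smul]; exact h _ (ih v hv)

theorem norm_zero {g : G} {r : ℕ} {Y : Submodule F V} (hg : g ^ r = 1) (h : ∀ v ∈ Y, g • v ∈ Y)
    (h0 : ∀ v ∈ Y, g • v = v → v = 0) {v : V} (hv : v ∈ Y) :
    ∑ j ∈ Finset.range r, g ^ j • v = 0 := by
  refine h0 _ (Y.sum_mem fun j _ => pow_mem_of h j v hv) ?_
  have e1 := Finset.sum_range_succ' (fun j => g ^ j • v) r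
  rw [Finset.sum_range_succ, hg, pow_zero, add_left_inj] at e1
  rw [Finset.smul_sum, e1]
  exact Finset.sum_congr rfl fun j _ => by rw [pow_succ', mul_smul]

/-- A fixed-point-free elementary abelian group is cyclic. -/
theorem mem_zpowers_of {ρ σ : G} {r : ℕ} (hr : r.Prime) (r0 : (r : F) ≠ 0) {Y : Submodule F V}
    (hY : Y ≠ ⊥) {A : Subgroup G} (hρ : ρ ∈ A) (hσ : σ ∈ A) (ρr : ρ ^ r = 1) (ρ1 : ρ ≠ 1)
    (σr : σ ^ r = 1) (hc : Commute σ ρ) (ρY : ∀ v ∈ Y, ρ • v ∈ Y) (σY : ∀ v ∈ Y, σ • v ∈ Y)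
    (h0 : ∀ τ ∈ A, τ ^ r = 1 → τ ≠ 1 → ∀ v ∈ Y, τ • v = v → v = 0) : σ ∈ Subgroup.zpowers ρ := by
  by_contra hn
  obtain ⟨v, hv, v0⟩ := (Submodule.ne_bot_iff Y).1 hY
  have := Fact.mk hr
  have a1 : ∀ i ∈ Finset.range r, ∑ j ∈ Finset.range r, σ ^ j • (ρ ^ j) ^ i • v = 0 := fun i _ => by
    have k : (σ * ρ ^ i) ^ r = 1 := by
      rw [(hc.pow_right i).mul_pow, σr, ← pow_mul, mul_comm i, pow_mul, ρr, one_pow, one_mul]
    rw [← norm_zero k (fun v hv => by rw [mul_smul]; exact σY _ (pow_mem_of ρY i v hv))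
      (h0 _ (mul_mem hσ (pow_mem hρ i)) k fun e => hn (by
        rw [eq_inv_of_mul_eq_one_left e]
        exact inv_mem (Subgroup.npow_mem_zpowers ρ i))) hv]
    exact Finset.sum_congr rfl fun j _ => by
      rw [(hc.pow_right i).mul_pow, mul_smul, ← pow_mul, ← pow_mul, mul_comm]
  have a2 := Finset.sum_eq_zero a1
  rw [Finset.sum_comm] at a2
  obtain ⟨m, rfl⟩ := Nat.exists_eq_add_of_lt hr.pos
  rw [zero_add] at *
  rw [Finset.sum_range_succ', Finset.sum_eq_zero fun j hj => ?_] at a2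
  · simp only [pow_zero, one_pow, one_smul, Finset.sum_const, Finset.card_range, zero_add] at a2
    rw [← Nat.cast_smul_eq_nsmul F] at a2
    exact v0 ((smul_eq_zero.1 a2).resolve_left r0)
  · have k : (ρ ^ (j + 1)) ^ (m + 1) = 1 := by rw [← pow_mul, mul_comm, pow_mul, ρr, one_pow]
    rw [← Finset.smul_sum, norm_zero k (pow_mem_of ρY _) (h0 _ (pow_mem hρ _) k fun e => ?_) hv,
      smul_zero]
    have := Nat.le_of_dvd (by omega) (orderOf_eq_prime ρr ρ1 ▸ orderOf_dvd_of_pow_eq_one e)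
    have := Finset.mem_range.1 hj
    omega

theorem exists_cen {A : Type*} [Group A] [Finite A] {r : ℕ} [Fact r.Prime] (h : r ∣ Nat.card A) :
    ∃ ρ : A, ρ ^ r = 1 ∧ ρ ≠ 1 ∧ ∀ σ : A, σ ^ r = 1 → ∃ a : A, Commute (a * σ * a⁻¹) ρ := by
  obtain ⟨R⟩ : Nonempty (Sylow r A) := inferInstance
  have : Nontrivial R := Finite.one_lt_card_iff_nontrivial.1
    (lt_of_lt_of_le (Fact.out : r.Prime).one_lt (Nat.le_of_dvd Nat.card_pos (R.dvd_card_of_dvd_card h)))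
  have := R.isPGroup'.center_nontrivial
  obtain ⟨n, hn, e⟩ := (R.isPGroup'.to_subgroup (Subgroup.center R)).nontrivial_iff_card.1 this
  obtain ⟨ρ, hρ⟩ := exists_prime_orderOf_dvd_card' (G := Subgroup.center R) r
    (e ▸ dvd_pow_self r hn.ne')
  refine ⟨ρ.1.1, ?_, fun k => ?_, fun σ hσ => ?_⟩
  · rw [← Subgroup.coe_pow, ← Subgroup.coe_pow, orderOf_dvd_iff_pow_eq_one.1 hρ.dvd]; rfl
  · rw [show ρ = 1 from Subtype.ext (Subtype.ext k), orderOf_one] at hρ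
    exact (Fact.out : r.Prime).one_lt.ne hρ
  · obtain ⟨Q, hQ⟩ := (IsPGroup.of_card (p := r) (G := Subgroup.zpowers σ) (n := _)
      ((Nat.card_zpowers σ).trans ((Nat.dvd_prime_pow (Fact.out : r.Prime) (m := 1)).1
        (orderOf_dvd_of_pow_eq_one (by rw [pow_one, hσ]))).choose_spec.2)).exists_le_sylow
    obtain ⟨a, ha⟩ := exists_smul_eq A Q R
    have : MulAut.conj a • σ ∈ ((a • Q : Sylow r A) : Subgroup A) :=
      Subgroup.smul_mem_pointwise_smul _ _ _ (hQ (Subgroup.mem_zpowers σ))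
    rw [ha] at this
    exact ⟨a, congrArg Subtype.val (Subgroup.mem_center_iff.1 ρ.2 ⟨_, this⟩)⟩

omit [Finite G] in
theorem conj_conj {ρ u w : G} (hu : u * ρ * u⁻¹ ∈ Subgroup.zpowers ρ)
    (hw : w * ρ * w⁻¹ ∈ Subgroup.zpowers ρ) : u * w * ρ * (u * w)⁻¹ = w * u * ρ * (w * u)⁻¹ := by
  obtain ⟨a, ha⟩ := hu
  obtain ⟨b, hb⟩ := hw
  simp only at ha hb
  rw [show u * w * ρ * (u * w)⁻¹ = u * (w * ρ * w⁻¹) * u⁻¹ by group,
    show w * u * ρ * (w * u)⁻¹ = w * (u * ρ * u⁻¹) * w⁻¹ by group, ← ha, ← hb, ← conj_zpow,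
    ← conj_zpow, ← ha, ← hb, ← zpow_mul, ← zpow_mul, mul_comm]

end PB

open PB

/-- `q = p^e`, `m = s + 1` odd `≥ 5`; `r` a primitive prime divisor of `p^(e m) - 1`
(`Misc.Zsig.zsigmondy`; `e m ≠ 6, 2`).  `r ∤ q - 1`, so `r ∣ geo q m ∣ |ps x ⊓ ps y|`
(`geo_mul`, `dvd_card`).  `A = stabilizer x ⊓ stabilizer y` (vectors; trivial on `ℓ`) has index
dividing `(q-1)²` there (two steps `ncard_orb_mul`, orbits `F∙x \ 0` and a subgroup orbit; or: an
element of order `r` with `g x = a x` has `a^r = 1 = a^(q-1)`, so `a = 1`: simply take an element of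
order `r` in `ps x ⊓ ps y` by Cauchy, it lies in `A`).  Let `R` be Sylow `r` in `A`, `ρ ∈ Z(R)` of
order `r`.  Orbit counting (cf. `CK.prime_dvd_card_sub`, `ppd_aux` in `Proj/CKPerin`): for a
`ρ`-invariant additive subgroup `T`, `r ∣ |T| - |C_T(ρ)|`; with `T = V` this gives
`C_V(ρ) = ℓ` (`hf`); `Y = range (ρ - 1)` has `|Y| = q^m`, `ℓ ⊓ Y = ⊥` (if `(ρ-1)² v = 0` then
`0 = (ρ^r - 1) v = r (ρ-1) v`, `r ≠ p`), and `⊥ ≠ T ≤ Y` invariant has `r ∣ |T| - 1`, so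
`|T| = p^j`, `j ≥ e m`, `T = Y`.  `R` acts on `Y` faithfully commuting with `ρ`, so embeds into
the finite domain `K` of `singer_ring`; thus `R = ⟨σ⟩` is cyclic (`isCyclic_of_injective_ringHom`
/ `isCyclic_of_subgroup_isDomain`).  `N = stab ℓ ⊓ normalizer R`, `N0 = N ⊓ centralizer {σ}`;
`u σ u⁻¹ = σ^a` gives normality and commutators in `N0`.  `A` is normalised by `stab ℓ`; for
points as in `h2` take `g` from `S.t` (it stabilises `ℓ`, `pl_eq_of_mem`), and correct by an element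
of `A` to normalise `R` (Frattini, as `s` in `CK.St.exists_transvection`). -/
theorem St.exists_rho (S : St F G V V') (hq : 3 ≤ Nat.card F) (hs : Even S.s) (hs4 : 4 ≤ S.s)
    (hf : ∀ g : G, (∀ v : V, g • v = v) → g = 1) {x y : V} (hx : x ≠ 0) (hyx : y ∉ (F ∙ x)) :
    ∃ (ρ : G) (Y : Submodule F V) (N N0 : Subgroup G), (∀ v ∈ pl F x y, ρ • v = v) ∧
      IsCompl (pl F x y) Y ∧ (∀ v ∈ Y, ρ • v ∈ Y) ∧
      (∀ T : AddSubgroup V, T ≤ Y.toAddSubgroup → (∀ v ∈ T, ρ • v ∈ T) →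
        T = ⊥ ∨ T = Y.toAddSubgroup) ∧
      N ≤ stabilizer G (pl F x y) ∧ N0 ≤ N ∧ (∀ u ∈ N, ∀ c ∈ N0, u * c * u⁻¹ ∈ N0) ∧
      (∀ u ∈ N, ∀ w ∈ N, u * w * u⁻¹ * w⁻¹ ∈ N0) ∧
      (∀ a ∈ pl F x y, ∀ b ∈ pl F x y, ∀ a' ∈ pl F x y, ∀ b' ∈ pl F x y, a ≠ 0 → b ∉ (F ∙ a) →
        a' ≠ 0 → b' ∉ (F ∙ a') → ∃ u ∈ N, u • (F ∙ a) = (F ∙ a') ∧ u • (F ∙ b) = (F ∙ b')) ∧
      (∀ c ∈ N0, c * ρ = ρ * c) ∧ ∀ c ∈ N0, ∀ v ∈ Y, c • v ∈ Y := by
  have := Fintype.ofFinite F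
  obtain ⟨⟨e, e0⟩, hp, he⟩ := FiniteField.card F (ringChar F)
  rw [← Nat.card_eq_fintype_card, PNat.mk_coe] at he
  set p := ringChar F
  have m5 : 5 ≤ e * (S.s + 1) := le_trans (by omega) (Nat.le_mul_of_pos_left _ e0)
  obtain ⟨r, hr⟩ := Misc.Zsig.zsigmondy (a := p) (n := e * (S.s + 1)) hp.one_lt (by omega)
    (by
      rintro ⟨-, h⟩
      have := Nat.le_of_dvd (by omega) (Dvd.intro_left _ h)
      obtain ⟨k, hk⟩ := hs
      rw [show S.s + 1 = 5 by omega] at h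
      omega) (by rintro ⟨h, -⟩; omega)
  have := Fact.mk hr.1
  have rq : ¬ r ∣ Nat.card F - 1 := he ▸ hr.2.2 e e0 ((Nat.lt_mul_iff_one_lt_right e0).2 (by omega))
  have r0 : (r : F) ≠ 0 := fun h => by
    have h1 := (Nat.prime_dvd_prime_iff_eq hp hr.1).1 ((ringChar.spec F r).1 h)
    have h2 := (Nat.dvd_sub_iff_right (Nat.one_le_pow _ p hp.pos)
      (h1 ▸ dvd_pow_self p (by omega))).1 hr.2.1
    exact hr.1.one_lt.ne' (Nat.dvd_one.1 h2)
  set A := stabilizer G x ⊓ stabilizer G y with hA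
  set L := pl F x y with hL
  have cL : Nat.card L = p ^ (e * 2) := by rw [card_pl hx hyx, he, pow_mul]
  have cV : Nat.card V = p ^ (e * (S.s + 3)) := by rw [S.cV, he, pow_mul]
  have fixL : ∀ ρ ∈ A, ∀ v ∈ L, ρ • v = v := by
    intro ρ hρ v hv
    obtain ⟨a, b, rfl⟩ := mem_pl.1 hv
    rw [smul_add, smul_comm, smul_comm ρ, show ρ • x = x from hρ.1, show ρ • y = y from hρ.2]
  have F1 : ∀ ρ ∈ A, ρ ^ r = 1 → ρ ≠ 1 → ∀ v, ρ • v = v → v ∈ L := by
    intro ρ hρ h1 h2 v hv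
    have hle : L.toAddSubgroup ≤ rel ρ ⊥ := fun v hv => sub_eq_zero.2 (fixL ρ hρ v hv)
    have := prime_dvd_card_sub hr.1 h1 (T := (⊤ : AddSubgroup V)) fun _ _ => trivial
    obtain ⟨c, c1, c2⟩ := (Nat.dvd_prime_pow hp).1
      (cV ▸ AddSubgroup.card_addSubgroup_dvd_card (rel ρ (⊥ : AddSubgroup V)))
    rw [top_inf_eq, AddSubgroup.card_top, cV, c2] at this
    have hlt : c < e * (S.s + 3) := by
      refine lt_of_le_of_ne c1 fun e => h2 (hf ρ fun v => ?_)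
      have : rel ρ (⊥ : AddSubgroup V) = ⊤ := AddSubgroup.eq_top_of_card_eq _ (by rw [c2, e, cV])
      exact sub_eq_zero.1 (show v ∈ rel ρ ⊥ from this ▸ trivial)
    have := ppd_le hr hp.one_lt (by omega) this hlt
    have h3 := AddSubgroup.eq_of_le_of_card_ge hle (by
      rw [c2]; exact le_of_le_of_eq (Nat.pow_le_pow_right hp.pos (by nlinarith)) cL.symm)
    exact (show v ∈ L.toAddSubgroup from h3 ▸ sub_eq_zero.2 hv)
  obtain ⟨⟨ρ, hρ⟩, ρr, ρ1, hc⟩ := exists_cen (A := A) (r := r) (by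
    have h1 : r ∣ geo (Nat.card F) (S.s + 1) := ((Nat.Prime.dvd_mul hr.1).1 (by
      rw [geo_mul (by omega), he, ← pow_mul]; exact hr.2.1)).resolve_left rq
    obtain ⟨⟨g, hg⟩, og⟩ := exists_prime_orderOf_dvd_card' r
      (h1.trans (S.dvd_card hq hs (by omega) hx hyx))
    rw [Subgroup.orderOf_mk] at og
    have g1 : g ^ r = 1 := og ▸ pow_orderOf_eq_one g
    have c := (Nat.Prime.coprime_iff_not_dvd hr.1).2 rq
    exact og ▸ Subgroup.orderOf_dvd_natCard A ⟨fix_of_pow c g1 hg.1, fix_of_pow c g1 hg.2⟩)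
  replace ρr : ρ ^ r = 1 := congrArg Subtype.val ρr
  replace ρ1 : ρ ≠ 1 := fun k => ρ1 (Subtype.ext k)
  let D : V →ₗ[F] V := DistribSMul.toLinearMap F V ρ - LinearMap.id
  have hD : ∀ v, D v = ρ • v - v := fun _ => rfl
  have kD : LinearMap.ker D = L := Submodule.ext fun v =>
    ⟨fun h => F1 ρ hρ ρr ρ1 v (sub_eq_zero.1 h), fun h => sub_eq_zero.2 (fixL ρ hρ v h)⟩
  set Y := LinearMap.range D
  have cY : ∀ c : G, c * ρ = ρ * c → ∀ v ∈ Y, c • v ∈ Y := by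
    rintro c h _ ⟨w, rfl⟩
    exact ⟨c • w, by rw [hD, hD, smul_sub, ← mul_smul, ← h, mul_smul]⟩
  have dj : ∀ v ∈ L, v ∈ Y → v = 0 := by
    rintro _ h ⟨w, rfl⟩
    have := pow_smul_add (F := F) (g := ρ) (w := w) (v := D w) (by rw [hD]; abel) (fixL ρ hρ _ h) r
    rw [ρr, one_smul, left_eq_add] at this
    exact (smul_eq_zero.1 this).resolve_left r0
  have cp : IsCompl L Y := by
    have := Module.Finite.of_finite (R := F) (M := V)
    have d := Submodule.disjoint_def.2 dj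
    refine ⟨d, codisjoint_iff.2 (Submodule.eq_top_of_disjoint _ _ ?_ d)⟩
    rw [← D.finrank_range_add_finrank_ker, kD, add_comm]
  have nY : Nat.card Y = p ^ (e * (S.s + 1)) := by
    have := card_sup_mul_card_inf L Y
    rw [cp.sup_eq_top, cp.inf_eq_bot, card_top, card_bot, cV, cL, mul_one,
      show e * (S.s + 3) = e * 2 + e * (S.s + 1) by ring, pow_add] at this
    exact (Nat.eq_of_mul_eq_mul_left (pow_pos hp.pos _) this).symm
  have Y0 : Y ≠ ⊥ := fun h => by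
    rw [h, card_bot] at nY
    exact (Nat.one_lt_pow (by omega) hp.one_lt).ne nY
  have nz : ∀ {u : G}, u ∈ Subgroup.normalizer (Subgroup.zpowers ρ : Set G) →
      u * ρ * u⁻¹ ∈ Subgroup.zpowers ρ := fun hu => (hu ρ).1 (Subgroup.mem_zpowers ρ)
  refine ⟨ρ, Y, stabilizer G L ⊓ Subgroup.normalizer (Subgroup.zpowers ρ : Set G),
    (stabilizer G L ⊓ Subgroup.normalizer (Subgroup.zpowers ρ : Set G)) ⊓ Subgroup.centralizer {ρ},
    fixL ρ hρ, cp, cY ρ rfl, fun T hT hi => ?_, inf_le_left, inf_le_left, fun u hu c h => ?_,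
    fun u hu w hw => ?_, fun a ha b hb a' ha' b' hb' a0 ba a0' ba' => ?_,
    fun c h => Subgroup.mem_centralizer_singleton_iff.1 h.2,
    fun c h => cY c (Subgroup.mem_centralizer_singleton_iff.1 h.2)⟩
  · have h1 := prime_dvd_card_sub hr.1 ρr hi
    obtain ⟨c, c1, c2⟩ := (Nat.dvd_prime_pow hp).1 (nY ▸ AddSubgroup.card_dvd_of_le hT)
    rw [show T ⊓ rel ρ ⊥ = ⊥ from eq_bot_iff.2 fun v hv =>
      dj v (F1 ρ hρ ρr ρ1 v (sub_eq_zero.1 hv.2)) (hT hv.1), AddSubgroup.card_bot, c2] at h1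
    rcases Nat.eq_zero_or_pos c with rfl | c0
    · exact .inl (AddSubgroup.eq_bot_of_card_eq _ c2)
    · refine .inr (AddSubgroup.eq_of_le_of_card_ge hT (le_of_eq ?_))
      rw [c2, le_antisymm c1 (not_lt.1 fun k => hr.2.2 c c0 k h1)]
      exact nY
  · refine Subgroup.mem_inf.2 ⟨mul_mem (mul_mem hu (Subgroup.mem_inf.1 h).1) (inv_mem hu),
      Subgroup.mem_centralizer_singleton_iff.2 ?_⟩
    obtain ⟨k, hk⟩ := nz (Subgroup.inv_mem _ (Subgroup.mem_inf.1 hu).2)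
    have := (Commute.zpow_right (Subgroup.mem_centralizer_singleton_iff.1 h.2) k).eq
    simp only [inv_inv] at hk
    rw [hk] at this
    calc u * c * u⁻¹ * ρ = u * (c * (u⁻¹ * ρ * u)) * u⁻¹ := by group
      _ = _ := by rw [this]; group
  · refine Subgroup.mem_inf.2 ⟨mul_mem (mul_mem (mul_mem hu hw) (inv_mem hu)) (inv_mem hw),
      Subgroup.mem_centralizer_singleton_iff.2 ?_⟩
    have := conj_conj (nz (Subgroup.inv_mem _ (Subgroup.mem_inf.1 hu).2))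
      (nz (Subgroup.inv_mem _ (Subgroup.mem_inf.1 hw).2))
    calc u * w * u⁻¹ * w⁻¹ * ρ = u * w * (u⁻¹ * w⁻¹ * ρ * (u⁻¹ * w⁻¹)⁻¹) * u⁻¹ * w⁻¹ := by group
      _ = _ := by rw [this]; group
  · obtain ⟨g, g1, g2⟩ := S.t a b a' b' a0 ba a0' ba'
    have hg : g ∈ stabilizer G L := by
      have e1 : pl F a b = L := pl_eq_of_mem ha hb a0 ba
      rw [← e1]
      refine smul_pl_eq ?_ ?_ <;> rw [e1]
      · exact pt_le.2 ha' (by rw [← g1, smul_pt]; exact self_mem_pt _)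
      · rwa [g2]
    have gA : ∀ v ∈ L, (g * ρ * g⁻¹) • v = v := fun v hv => by
      rw [mul_smul, mul_smul, fixL ρ hρ _ (stab_mem (inv_mem hg) hv), smul_inv_smul]
    obtain ⟨⟨n, hn⟩, hn'⟩ := hc ⟨g * ρ * g⁻¹, gA x (left_mem_pl x y), gA y (right_mem_pl x y)⟩
      (Subtype.ext (by simp [conj_pow, ρr]))
    replace hn' : Commute (n * g * ρ * (n * g)⁻¹) ρ := by
      have : Commute (n * (g * ρ * g⁻¹) * n⁻¹) ρ := congrArg Subtype.val hn'
      simpa [mul_assoc] using this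
    have hz : n * g * ρ * (n * g)⁻¹ ∈ Subgroup.zpowers ρ :=
      mem_zpowers_of hr.1 r0 Y0 hρ (by
        simpa [mul_assoc] using mul_mem (mul_mem hn (show g * ρ * g⁻¹ ∈ A from
          ⟨gA x (left_mem_pl x y), gA y (right_mem_pl x y)⟩)) (inv_mem hn)) ρr ρ1
        (by rw [conj_pow, ρr]; simp) hn' (cY ρ rfl) (cY _ hn')
        fun τ hτ t1 t2 v hv h => dj v (F1 τ hτ t1 t2 v h) hv
    refine ⟨n * g, ⟨mul_mem (inv_iff_le_stab.1 (fun c hc v hv => ?_) hn) hg,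
      Subgroup.mem_normalizer_fintype ?_⟩, ?_, ?_⟩
    · rwa [fixL c hc v hv]
    · rintro _ ⟨k, rfl⟩
      simp only [← conj_zpow]
      exact zpow_mem hz k
    · rw [mul_smul, g1, smul_pt, fixL n hn a' ha']
    · rw [mul_smul, smul_pt, g2, smul_pt, fixL n hn b' hb']

end Cfsg.Agent.Sing
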