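import Cfsg.Agent.Sing.PerB

/-!
# Perin's argument over `𝔽_q`: a transvection
-/

set_option autoImplicit false
set_option linter.unusedSectionVars false
set_option linter.style.haveILetI false

namespace Cfsg.Agent.Sing

open MulAction Pointwise Cfsg.Agent.Proj.CK

variable {F G V V' : Type*} [Field F] [Group G] [AddCommGroup V] [AddCommGroup V']
  [Module F V] [Module F V'] [DistribMulAction G V] [DistribMulAction G V']
  [SMulCommClass G F V] [SMulCommClass G F V'] [Finite F] [Finite V] [Finite V']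
  [Finite G]

/-- an element fixing all points of a line is a scalar on it -/
theorem scal_of_Dl {x y : V} (hx : x ≠ 0) (hyx : y ∉ (F ∙ x)) {g : G} (hg : g ∈ Dl G (pl F x y)) :
    ∃ c : F, ∀ v ∈ pl F x y, g • v = c • v := by
  obtain ⟨a, -, ha⟩ := mem_ps.1 (mem_Dl.1 hg _ (left_mem_pl x y))
  obtain ⟨b, -, hb⟩ := mem_ps.1 (mem_Dl.1 hg _ (right_mem_pl x y))
  obtain ⟨c, -, hc⟩ := mem_ps.1 (mem_Dl.1 hg _ (add_mem (left_mem_pl x y) (right_mem_pl x y)))
  rw [smul_add, ha, hb] at hc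
  have h1 : b = c := by
    by_contra e
    refine hyx (mem_pt.2 ⟨(b - c)⁻¹ * (c - a), ?_⟩)
    rw [mul_smul, inv_smul_eq_iff₀ (sub_ne_zero.2 e)]
    linear_combination (norm := module) -hc
  have h2 : a = c := smul_left_injective F hx (by
    rw [h1, smul_add] at hc
    exact add_right_cancel hc)
  refine ⟨c, fun v hv => ?_⟩
  obtain ⟨p, q, rfl⟩ := mem_pl.1 hv
  rw [smul_add, smul_comm g, smul_comm g, ha, hb, h1, h2]
  module

/-- Take `x, y`, `ℓ`, and the data of `exists_rho`; `K` from `singer_ring` for `ρ|Y`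
(`|K| = |Y|`); every `c ∈ N0` restricts to an element of `K`.  `line_nonab` gives `a, b ∈ N0`,
`k = (b a)⁻¹ (a b)` trivial on `Y`, stabilising `ℓ`, with `k l ≠ l` for some `l ∈ ℓ`.
Take `0 ≠ y₁ ∈ Y`, `g ∈ Dl ℓ` with `g y₁ = y₁ + l` (`cone2`); `g` is a scalar on `ℓ`, so
`k' = g k g⁻¹` agrees with `k` on `ℓ`, `k, k'` are trivial on `V/ℓ`, `k' (y₁+l) = y₁ + l ≠ k (y₁+l)`.
So `E = {f : Y →ₗ[F] V | range ≤ ℓ, ∃ g, g = 1 on ℓ, g v = v + f v on Y}` is a non-zero additive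
group, closed under `f ↦ f ∘ ρ|Y` (conjugate by `ρ⁻¹`), so under `f ↦ f ∘ κ`, `κ ∈ K`
(`Subring.closure_induction`), and under `f ↦ u ∘ f ∘ (u⁻¹|Y)` for `u ∈ N0`.
If some `0 ≠ f ∈ E` has range in a point `F∙a`, it gives the transvection (`λ` = coordinate of
`t v - v`).  Otherwise all `0 ≠ f ∈ E` map onto `ℓ`, and with `μ : V → F` linear, `μ x = 0`,
`μ y = 1`, `f ↦ μ ∘ f` injects `E` into `Dual Y`, so `|E| ≤ |Y| = |K|` and `E = f K` (`κ ↦ f ∘ κ`
is injective).  Then `u ∘ f = f ∘ κ_u` for `u ∈ N0`, and `a b f = f κ_a κ_b = f κ_b κ_a = b a f`,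
so `a b = b a` on `range f = ℓ`, contradiction. -/
theorem St.exists_tv (S : St F G V V') (hq : 3 ≤ Nat.card F) (hs : Even S.s) (hs4 : 4 ≤ S.s)
    (hf : ∀ g : G, (∀ v : V, g • v = v) → g = 1) :
    ∃ (t : G) (a : V) (φ : V →ₗ[F] F), a ≠ 0 ∧ φ ≠ 0 ∧ φ a = 0 ∧ ∀ v, t • v = v + φ v • a := by
  have q2 := two_le_q (F := F)
  obtain ⟨x, -, hx, -⟩ := S.exists_flag
  obtain ⟨y, -, hyx⟩ := exists_not_mem_of_card_lt (T := ⊤) (X := F ∙ x) (by
    rw [card_pt hx, card_top]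
    have := S.sq_le
    nlinarith)
  obtain ⟨ρ, Y, N, N0, r1, r2, r3, r4, n1, n2, n3, n4, n5, n6, n7⟩ :=
    S.exists_rho hq hs hs4 hf hx hyx
  have dec : ∀ v : V, ∃ l ∈ pl F x y, ∃ w ∈ Y, l + w = v := fun v =>
    Submodule.mem_sup.1 (r2.sup_eq_top.ge Submodule.mem_top)
  obtain ⟨y₁, y1, y2⟩ : ∃ w ∈ Y, w ∉ pl F x y := by
    obtain ⟨z, -, hz⟩ := exists_not_mem_of_card_lt (T := ⊤) (X := pl F x y) (by
      rw [card_pl hx hyx, card_top, S.cV]
      exact Nat.pow_lt_pow_right q2 (by omega))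
    obtain ⟨l, a, w, b, rfl⟩ := dec z
    exact ⟨w, b, fun e => hz (add_mem a e)⟩
  haveI : Nontrivial Y := ⟨⟨⟨y₁, y1⟩, 0, fun e => ne0_of_not_mem y2 (congrArg Subtype.val e)⟩⟩
  let L : G → V →ₗ[F] V := DistribSMul.toLinearMap F V
  let R : ∀ g : G, (∀ v ∈ Y, g • v ∈ Y) → Module.End F Y := fun g h => (L g).restrict h
  obtain ⟨k1, k2, k3, k4⟩ := singer_ring (R ρ r3) fun T hT => by
    refine (r4 (T.map Y.subtype.toAddMonoidHom) (by rintro _ ⟨v, -, rfl⟩; exact v.2) (by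
      rintro _ ⟨v, hv, rfl⟩; exact ⟨_, hT v hv, rfl⟩)).imp (fun e => ?_) fun e => ?_
    · exact (AddSubgroup.map_eq_bot_iff_of_injective _ Subtype.val_injective).1 e
    · refine eq_top_iff.2 fun v _ => ?_
      obtain ⟨w, hw, e⟩ := e.ge v.2
      exact (Subtype.ext e : w = v) ▸ hw
  have k5 : ∀ c (hc : c ∈ N0), R c (n7 c hc) ∈ Subring.closure {R ρ r3} := fun c hc =>
    k4 _ (LinearMap.ext fun v => Subtype.ext (show c • ρ • (v : V) = ρ • c • (v : V) by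
      rw [← mul_smul, n6 c hc, mul_smul]))
  obtain ⟨a, ha, b, hb, l, hl, ab⟩ := line_nonab hq hx hyx n1 n2 n3 n4 n5
  let E : AddSubgroup (Y →ₗ[F] V) :=
    { carrier := {f | (∀ v, f v ∈ pl F x y) ∧
        ∃ g : G, (∀ v ∈ pl F x y, g • v = v) ∧ ∀ v : Y, g • (v : V) = v + f v}
      zero_mem' := ⟨fun _ => zero_mem _, 1, fun _ _ => one_smul _ _, fun v => by simp⟩
      add_mem' := by
        rintro f f' ⟨f1, g, f2, f3⟩ ⟨f1', g', f2', f3'⟩
        exact ⟨fun v => add_mem (f1 v) (f1' v), g * g', fun v hv => by rw [mul_smul, f2' v hv, f2 v hv],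
          fun v => by rw [mul_smul, f3', smul_add, f3, f2 _ (f1' v), add_assoc]; rfl⟩
      neg_mem' := by
        rintro f ⟨f1, g, f2, f3⟩
        exact ⟨fun v => neg_mem (f1 v), g⁻¹, fun v hv => inv_smul_eq_iff.2 (f2 v hv).symm,
          fun v => by
            rw [inv_smul_eq_iff, smul_add, f3, LinearMap.neg_apply, f2 _ (neg_mem (f1 v))]; simp⟩ }
  have cj : ∀ u ∈ stabilizer G (pl F x y), ∀ hu, ∀ f ∈ E, L u⁻¹ ∘ₗ f ∘ₗ R u hu ∈ E := by
    rintro u h1 hu f ⟨f1, g, f2, f3⟩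
    refine ⟨fun v => stab_mem (inv_mem h1) (f1 _), u⁻¹ * g * u, fun v hv => by
      rw [mul_smul, mul_smul, f2 _ (stab_mem h1 hv), inv_smul_smul], fun v => ?_⟩
    rw [mul_smul, mul_smul, show u • (v : V) = R u hu v from rfl, f3, smul_add]
    exact congrArg (· + _) (inv_smul_smul u (v : V))
  have eK : ∀ κ ∈ Subring.closure {R ρ r3}, ∀ f ∈ E, f ∘ₗ κ ∈ E := fun κ hκ => by
    induction hκ using Subring.closure_induction with
    | mem κ e =>
      intro f hf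
      have := cj ρ (smul_pl_eq ((r1 _ (left_mem_pl x y)).symm ▸ left_mem_pl x y)
        ((r1 _ (right_mem_pl x y)).symm ▸ right_mem_pl x y)) r3 f hf
      rwa [e, ← show L ρ⁻¹ ∘ₗ f ∘ₗ R ρ r3 = f ∘ₗ R ρ r3 from
        LinearMap.ext fun v => inv_smul_eq_iff.2 (r1 _ (hf.1 _)).symm]
    | zero => exact fun f _ => by rw [LinearMap.comp_zero]; exact zero_mem E
    | one => exact fun f hf => hf
    | add _ _ _ _ a b => exact fun f hf => by rw [LinearMap.comp_add]; exact add_mem (a f hf) (b f hf)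
    | neg _ _ a => exact fun f hf => by rw [LinearMap.comp_neg]; exact neg_mem (a f hf)
    | mul _ _ _ _ a b => exact fun f hf => b _ (a f hf)
  obtain ⟨f, hf, f0⟩ : ∃ f ∈ E, f ≠ 0 := by
    obtain ⟨g, g1, g2⟩ := S.cone2 hx hyx y2 hl
    obtain ⟨c, g3⟩ := scal_of_Dl hx hyx g1
    have g4 := Dl_le_stab _ g1
    have h1 := n1 (n2 (mul_mem (inv_mem (mul_mem hb ha)) (mul_mem ha hb)))
    have h2 : ∀ v ∈ Y, ((b * a)⁻¹ * (a * b)) • v = v := fun v hv => by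
      rw [mul_smul, inv_smul_eq_iff, mul_smul, mul_smul]
      exact congrArg Subtype.val (DFunLike.congr_fun (k1 _ (k5 a ha) _ (k5 b hb)) ⟨v, hv⟩)
    have h3 : ((b * a)⁻¹ * (a * b)) • l ≠ l := fun e => ab (by rwa [mul_smul, inv_smul_eq_iff] at e)
    generalize (b * a)⁻¹ * (a * b) = k at h1 h2 h3
    have h4 : ∀ v, k • v - v ∈ pl F x y := fun v => by
      obtain ⟨l, a, w, b, rfl⟩ := dec v
      rw [smul_add, h2 w b, add_sub_add_right_eq_sub]
      exact sub_mem (stab_mem h1 a) a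
    have h5 : ∀ v ∈ pl F x y, (g * k * g⁻¹ * k⁻¹) • v = v := fun v hv => by
      have a1 := stab_mem (inv_mem g4) (stab_mem (inv_mem h1) hv)
      rw [mul_smul, mul_smul, mul_smul, g3 _ (stab_mem h1 a1), ← smul_comm k, ← g3 _ a1,
        smul_inv_smul, smul_inv_smul]
    refine ⟨(L (g * k * g⁻¹ * k⁻¹) - LinearMap.id) ∘ₗ Y.subtype, ⟨fun v => ?_, _, h5,
      fun v => (add_sub_cancel _ _).symm⟩, fun e => h3 ?_⟩
    · change (g * k * g⁻¹ * k⁻¹) • (v : V) - v ∈ _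
      have := stab_mem g4 (h4 (g⁻¹ • (v : V)))
      rwa [mul_smul, inv_smul_eq_iff.2 (h2 _ v.2).symm, mul_smul, mul_smul, ← smul_inv_smul g (v : V),
        inv_smul_smul, ← smul_sub]
    · have a1 : (g * k * g⁻¹ * k⁻¹) • y₁ - y₁ = 0 := DFunLike.congr_fun e ⟨y₁, y1⟩
      have a2 := congrArg₂ (· + ·) (sub_eq_zero.1 a1) (h5 _ (stab_mem h1 hl))
      rw [← smul_add, ← h2 y₁ y1, ← smul_add, ← g2, mul_smul, mul_smul, mul_smul, inv_smul_smul,
        inv_smul_smul, h2 y₁ y1, g2, smul_add, h2 y₁ y1] at a2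
      exact (add_left_cancel a2).symm
  by_cases hp : ∃ f ∈ E, f ≠ 0 ∧ ∃ a : V, ∀ v, f v ∈ (F ∙ a)
  · obtain ⟨f, ⟨f1, t, f2, f3⟩, f0, a, f4⟩ := hp
    obtain ⟨w, hw⟩ := DFunLike.ne_iff.1 f0
    obtain ⟨μ, m1, -⟩ := Submodule.exists_le_ker_of_notMem (p := (⊥ : Submodule F V)) (v := f w) hw
    have h1 : ∀ v, ∃ c : F, t • v = v + c • f w := fun v => by
      obtain ⟨l, a, u, b, rfl⟩ := dec v
      obtain ⟨c, hc⟩ := mem_pt.1 (pt_eq_of_mem hw (f4 w) ▸ f4 ⟨u, b⟩)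
      exact ⟨c, by rw [smul_add, f2 l a, f3 ⟨u, b⟩, hc, add_assoc]⟩
    have h2 : ∀ v, t • v = v + ((μ (f w))⁻¹ • μ ∘ₗ (L t - LinearMap.id)) v • f w := fun v => by
      obtain ⟨c, hc⟩ := h1 v
      change _ = v + ((μ (f w))⁻¹ * μ (t • v - v)) • f w
      rw [hc, add_sub_cancel_left, map_smul, smul_eq_mul, mul_comm c, inv_mul_cancel_left₀ m1]
    refine ⟨t, f w, _, hw, fun e => hw ?_, ?_, h2⟩
    · have := h2 w
      rwa [e, f3, LinearMap.zero_apply, zero_smul, add_right_inj] at this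
    · change (μ (f w))⁻¹ * μ (t • f w - f w) = 0
      rw [f2 _ (f1 w), sub_self, map_zero, mul_zero]
  push Not at hp
  obtain ⟨μ, m1, m2⟩ := Submodule.exists_le_ker_of_notMem hyx
  have i1 : Function.Injective fun f : E => μ ∘ₗ f.1 := fun f f' e => Subtype.ext (sub_eq_zero.1 (by
    by_contra h0
    obtain ⟨v, hv⟩ := hp _ (sub_mem f.2 f'.2) h0 x
    obtain ⟨p, q, e1⟩ := mem_pl.1 ((sub_mem f.2 f'.2).1 v)
    have e2 : μ ((f.1 - f'.1) v) = 0 := by
      rw [LinearMap.sub_apply, map_sub, sub_eq_zero]; exact DFunLike.congr_fun e v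
    rw [← e1, map_add, map_smul, map_smul, m2 (self_mem_pt x), smul_zero, zero_add, smul_eq_mul,
      mul_eq_zero, or_iff_left m1] at e2
    exact hv (e1 ▸ mem_pt.2 ⟨p, by rw [e2, zero_smul, add_zero]⟩)))
  haveI : Finite (Y →ₗ[F] V) := .of_injective _ DFunLike.coe_injective
  haveI : Finite (Y →ₗ[F] F) := .of_injective _ DFunLike.coe_injective
  have i2 : Function.Bijective fun κ : Subring.closure {R ρ r3} => (⟨_, eK κ κ.2 f hf⟩ : E) :=
    Function.Injective.bijective_of_nat_card_le (fun κ κ' e => Subtype.ext (sub_eq_zero.1 (by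
      by_contra h0
      refine f0 (LinearMap.ext fun v => ?_)
      obtain ⟨w, rfl⟩ := Finite.injective_iff_surjective.1 (k2 _ (sub_mem κ.2 κ'.2) h0) v
      rw [LinearMap.sub_apply, map_sub, LinearMap.zero_apply, sub_eq_zero]
      exact DFunLike.congr_fun (congrArg Subtype.val e) w))) (by
      rw [k3, Module.natCard_eq_pow_finrank (K := F) (V := Y), ← Subspace.dual_finrank_eq,
        ← Module.natCard_eq_pow_finrank]
      exact Nat.card_le_card_of_injective _ i1)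
  have i3 : ∀ c ∈ N0, ∃ κ ∈ Subring.closure {R ρ r3}, ∀ v, c • f v = f (κ v) := fun c hc => by
    obtain ⟨κ, e⟩ := i2.2 ⟨_, cj _ (n1 (n2 (inv_mem hc))) (n7 _ (inv_mem hc)) f hf⟩
    refine ⟨_, mul_mem κ.2 (k5 c hc), fun v => ?_⟩
    have := DFunLike.congr_fun (congrArg Subtype.val e) (R c (n7 c hc) v)
    refine .trans ?_ this.symm
    change _ = c⁻¹⁻¹ • f _
    rw [inv_inv]
    exact congrArg (fun w => c • f w) (Subtype.ext (inv_smul_smul c (v : V)).symm)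
  obtain ⟨w, hw⟩ := DFunLike.ne_iff.1 f0
  obtain ⟨w', hw'⟩ := hp f hf f0 (f w)
  obtain ⟨p, q, rfl⟩ := mem_pl.1 (pl_eq_of_mem (hf.1 w) (hf.1 w') hw hw' ▸ hl)
  obtain ⟨κ, c1, c2⟩ := i3 a ha
  obtain ⟨κ', c3, c4⟩ := i3 b hb
  refine (ab ?_).elim
  rw [← map_smul, ← map_smul, ← map_add, mul_smul, mul_smul, c2, c4, c2, c4]
  exact congrArg f (DFunLike.congr_fun (k1 _ c1 _ c3) _)

end Cfsg.Agent.Sing
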