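import Cfsg.Agent.Sing.Def

/-!
# Null polarities come from alternating forms; gluing them to a trilinear form
-/

set_option autoImplicit false

namespace Cfsg.Agent.Sing

variable {F V : Type*} [Field F] [AddCommGroup V] [Module F V]

theorem ker_le_of_compl {α f g : V →ₗ[F] F} (hα : α ≠ 0)
    (h : ∀ z, α z ≠ 0 → (f z = 0 ↔ g z = 0)) {z : V} (hz : f z = 0) : g z = 0 := by
  by_cases a0 : α z = 0
  swap
  · exact (h z a0).1 hz
  by_cases e : ∃ w, α w ≠ 0 ∧ f w = 0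
  · obtain ⟨w, w0, w1⟩ := e
    have := (h (z + w) (by rwa [map_add, a0, zero_add])).1 (by rw [map_add, hz, w1, add_zero])
    rwa [map_add, (h w w0).1 w1, add_zero] at this
  push Not at e
  obtain ⟨b, hb⟩ : ∃ b, α b ≠ 0 := DFunLike.ne_iff.1 hα
  have gb : g b ≠ 0 := fun k => e b hb ((h b hb).2 k)
  by_contra gz
  have k : α (z - (g z / g b) • b) ≠ 0 := by
    rw [map_sub, a0, map_smul, zero_sub]
    exact neg_ne_zero.2 (mul_ne_zero (div_ne_zero gz gb) hb)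
  refine e _ k ((h _ k).2 ?_)
  rw [map_sub, map_smul, smul_eq_mul, div_mul_cancel₀ _ gb, sub_self]

theorem alt_of_compl {W : Type*} [AddCommGroup W] [Module F W] {α : V →ₗ[F] F} (hα : α ≠ 0)
    {B : V →ₗ[F] V →ₗ[F] W} (h : ∀ b c, B b c = - B c b) (h0 : ∀ b, α b ≠ 0 → B b b = 0)
    (y : V) : B y y = 0 := by
  by_cases a0 : α y = 0
  swap
  · exact h0 y a0
  obtain ⟨b, hb⟩ : ∃ b, α b ≠ 0 := DFunLike.ne_iff.1 hα
  have := h0 (y + b) (by rwa [map_add, a0, zero_add])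
  simpa [h0 b hb, h b y] using this

theorem anti_of_alt {B : V →ₗ[F] V →ₗ[F] F} (h : ∀ y, B y y = 0) (y z : V) : B y z = - B z y := by
  have := h (y + z)
  simp only [map_add, LinearMap.add_apply, h y, h z] at this
  linear_combination this

theorem eq_of_ker_le {f g : V →ₗ[F] F} (h : ∀ z, f z = 0 → g z = 0) {v : V} (h0 : f v ≠ 0)
    (e : f v = g v) : f = g := LinearMap.ext fun z => by
  have := h (z - (f z / f v) • v) (by
    rw [map_sub, map_smul, smul_eq_mul, div_mul_cancel₀ _ h0, sub_self])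
  rw [map_sub, map_smul, smul_eq_mul, ← e, div_mul_cancel₀ _ h0, sub_eq_zero] at this
  exact this.symm

theorem tri_step {R : V → V → V → Prop} (s12 : ∀ x y z, R x y z → R y x z)
    (s23 : ∀ x y z, R x y z → R x z y) (d : ∀ x z, R x x z)
    (lin : ∀ x y, ∃ φ : V →ₗ[F] F, ∀ z, R x y z ↔ φ z = 0) {y₀ z₀ x x' : V} {β : V →ₗ[F] F}
    (hβ : ∀ x, R y₀ z₀ x ↔ β x = 0) {B B' : V →ₗ[F] V →ₗ[F] F}
    (hB : ∀ y z, R x y z ↔ B y z = 0) (hB' : ∀ y z, R x' y z ↔ B' y z = 0)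
    (n : B z₀ y₀ = - β x) (n' : B' z₀ y₀ = - β x') (hx : β x ≠ 0) (hx' : β x' ≠ 0) :
    B x' y₀ = - B' x y₀ := by
  have z0 : β z₀ = 0 := (hβ _).1 (s12 _ _ _ (s23 _ _ _ (d z₀ y₀)))
  have b0 : B x y₀ = 0 := (hB _ _).1 (d _ _)
  have b1 : B' x' y₀ = 0 := (hB' _ _).1 (d _ _)
  obtain ⟨c, hc⟩ : ∃ c, c = x' - (β x' / β x) • x + (B x' y₀ / β x) • z₀ := ⟨_, rfl⟩
  obtain ⟨φ, hφ⟩ := lin c y₀
  have p1 : φ x = 0 := (hφ _).1 (s23 _ _ _ (s12 _ _ _ ((hB c y₀).2 (by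
    simp only [hc, map_add, map_sub, map_smul, LinearMap.add_apply, LinearMap.sub_apply,
      LinearMap.smul_apply, smul_eq_mul, b0, n]
    field_simp
    ring))))
  have p2 : φ z₀ = 0 := (hφ _).1 (s12 _ _ _ (s23 _ _ _ ((hβ c).2 (by
    simp only [hc, map_add, map_sub, map_smul, smul_eq_mul, z0]
    field_simp
    ring))))
  have p3 : φ c = 0 := (hφ _).1 (s23 _ _ _ (d c y₀))
  have p4 : φ x' = 0 := by
    rw [hc] at p3
    simpa [p1, p2] using p3
  have p5 := (hB' c y₀).1 (s12 _ _ _ (s23 _ _ _ ((hφ _).2 p4)))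
  simp only [hc, map_add, map_sub, map_smul, LinearMap.add_apply, LinearMap.sub_apply,
    LinearMap.smul_apply, smul_eq_mul, b1, n'] at p5
  field_simp at p5
  refine mul_left_cancel₀ hx' ?_
  linear_combination -p5

/-- Tool (use it twice more below).  `α ≠ 0`, `H = ker α`; the complement of `H` spans `V`
(`v = (v + a) - a`), take a basis `e` inside it (`Module.Basis.ofSpan`, `ofSpan_subset`) and
`B = e.constr F (β ∘ e)`.  For `b ∉ H`: `B b (e j) = ∑ bᵢ β (e i) (e j) = - β (e j) b = β b (e j)`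
(more simply: `B b (e j) = - β (e j) b` as linear maps in `b`, checked on the basis). -/
theorem exists_ext {W : Type*} [AddCommGroup W] [Module F W] {α : V →ₗ[F] F} (hα : α ≠ 0)
    (β : V → V →ₗ[F] W) (h : ∀ b c, α b ≠ 0 → α c ≠ 0 → β b c = - β c b) :
    ∃ B : V →ₗ[F] V →ₗ[F] W, (∀ b, α b ≠ 0 → B b = β b) ∧ ∀ b c, B b c = - B c b := by
  have sp : ⊤ ≤ Submodule.span F {b | α b ≠ 0} := fun v _ => by
    obtain ⟨a, ha⟩ : ∃ b, α b ≠ 0 := DFunLike.ne_iff.1 hα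
    by_cases hv : α v = 0
    · rw [← add_sub_cancel_right v a]
      exact sub_mem (Submodule.subset_span (by simpa [hv] using ha)) (Submodule.subset_span ha)
    · exact Submodule.subset_span hv
  let e := Module.Basis.ofSpan sp
  have he : ∀ i, α (e i) ≠ 0 := fun i => Module.Basis.ofSpan_subset sp ⟨i, rfl⟩
  let B : V →ₗ[F] V →ₗ[F] W := e.constr F fun i => β (e i)
  have h1 : ∀ j b, B b (e j) = - β (e j) b := fun j =>
    LinearMap.congr_fun (e.ext (f₁ := B.flip (e j)) (f₂ := -β (e j)) fun i => by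
      simp only [B, LinearMap.flip_apply, Module.Basis.constr_basis, LinearMap.neg_apply]
      exact h _ _ (he i) (he j))
  have h2 : ∀ b, α b ≠ 0 → B b = β b := fun b hb => e.ext fun j => by
    rw [h1, h b _ hb (he j)]
  have h3 : B = - B.flip := e.ext fun i => e.ext fun j => by
    rw [LinearMap.neg_apply, LinearMap.neg_apply, LinearMap.flip_apply, h1, h2 _ (he j)]
  exact ⟨B, h2, fun b c => LinearMap.congr_fun (LinearMap.congr_fun h3 b) c⟩

/-- If all `φ_y = 0` take `B = 0`.  Else fix `a` with `α = φ_a ≠ 0`, `α a = 0`.  For `α b ≠ 0`,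
`φ_b a ≠ 0` (symmetry); let `β b = -(α b / φ_b a) • φ_b`, so `β b a = - α b`, `β b b = 0`.
Claim `β b c = - β c b`: put `t = α b / α c`, `z = u a + t c - b` with `u = t β b c / α b`.  Then
`α z = 0`, so `ρ z a`; with `ρ z z`: `φ_z b = t φ_z c`.  `β b z = -u α b + t β b c = 0`, so
`ρ z b`, hence `ρ z c`, `0 = β c z = -u α c - β c b`, and `u α c = β b c`.
`exists_ext` gives `B`; `B y y = 0` for `α y = 0` via `y = (y + b) - b`, `α b ≠ 0`.
`ρ y z ↔ B y z = 0` is clear if `α y ≠ 0` or `α z ≠ 0`; if `α y = 0`, the functionals `φ_y`, `B y`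
have the same zeros outside `ker α`, hence the same kernel: if one has a zero `z₀ ∉ ker α` then
both kernels are spanned by their parts outside `ker α` (`v ↦ v + z₀`); if none, both kernels lie in
`ker α`, and `ker φ ≤ ker α ≠ ⊤` forces equality (`v - (φ v / φ b) b ∈ ker φ`). -/
theorem exists_alt (ρ : V → V → Prop) (hs : ∀ y z, ρ y z → ρ z y) (hr : ∀ y, ρ y y)
    (hl : ∀ y, ∃ φ : V →ₗ[F] F, ∀ z, ρ y z ↔ φ z = 0) :
    ∃ B : V →ₗ[F] V →ₗ[F] F, (∀ y, B y y = 0) ∧ ∀ y z, ρ y z ↔ B y z = 0 := by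
  choose φ hφ using hl
  by_cases h0 : ∀ y, φ y = 0
  · exact ⟨0, fun _ => rfl, fun y z => by simp [hφ, h0]⟩
  push Not at h0
  obtain ⟨a, ha⟩ := h0
  have sy : ∀ y z, φ y z = 0 → φ z y = 0 := fun y z h => (hφ _ _).1 (hs _ _ ((hφ _ _).2 h))
  have rf : ∀ y, φ y y = 0 := fun y => (hφ _ _).1 (hr y)
  let β : V → V →ₗ[F] F := fun b => -(φ a b / φ b a) • φ b
  have b1 : ∀ b, φ a b ≠ 0 → β b a = - φ a b := fun b hb => by
    have : φ b a ≠ 0 := fun k => hb (sy _ _ k)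
    simp only [β, LinearMap.smul_apply, smul_eq_mul]
    field_simp
  have b2 : ∀ b, φ a b ≠ 0 → ∀ c, β b c = 0 ↔ φ b c = 0 := fun b hb c => by
    have : φ b a ≠ 0 := fun k => hb (sy _ _ k)
    simp [β, hb, this]
  obtain ⟨B, e1, e2⟩ := exists_ext ha β fun b c hb hc => by
    obtain ⟨z, hz⟩ : ∃ z, z = (β b c / φ a c) • a + (φ a b / φ a c) • c - b := ⟨_, rfl⟩
    have z1 : φ z a = 0 := sy _ _ (by
      simp only [hz, map_add, map_sub, map_smul, smul_eq_mul, rf]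
      field_simp
      ring)
    have z2 : φ z b = 0 := sy _ _ ((b2 b hb z).1 (by
      simp only [hz, map_add, map_sub, map_smul, smul_eq_mul, b1 b hb, (b2 b hb b).2 (rf b)]
      field_simp
      ring))
    have z3 : φ z c = 0 := by
      have := rf z
      nth_rw 2 [hz] at this
      simpa [z1, z2, hb, hc] using this
    have z4 := (b2 c hc z).2 (sy _ _ z3)
    simp only [hz, map_add, map_sub, map_smul, smul_eq_mul, b1 c hc, (b2 c hc c).2 (rf c)] at z4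
    field_simp at z4
    refine mul_left_cancel₀ hc ?_
    linear_combination -z4
  have k : ∀ y z, φ a z ≠ 0 → (φ y z = 0 ↔ B y z = 0) := fun y z hz => by
    rw [e2, neg_eq_zero, e1 z hz, b2 z hz]
    exact ⟨sy _ _, sy _ _⟩
  exact ⟨B, alt_of_compl ha e2 fun b hb => (k b b hb).1 (rf b), fun y z => (hφ y z).trans
    ⟨ker_le_of_compl ha (k y), ker_le_of_compl ha fun z hz => (k y z hz).symm⟩⟩

/-- Fix independent `y₀, z₀` and `β₀ ≠ 0` with `R y₀ z₀ x ↔ β₀ x = 0`.  For `β₀ x ≠ 0` take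
`B x` from `exists_alt` (`ρ = R x`) scaled so that `B x y₀ z₀ = β₀ x`.  Goal
(*) `B x x' = - B x' x` for `β₀ x, β₀ x' ≠ 0`.  If `x' ∈ F∙x` both vanish (`dep`).  Otherwise both
are non-zero functionals with the same kernel: `B x x' = -κ(x,x') • B x' x`.
(1) `B x x' y₀ = - B x' x y₀` and the same with `z₀`: let `a = β₀ x'/β₀ x`, `w = x' - a x`,
`c = w + s y₀ + t z₀` with `s, t` chosen so that `B x c y₀ = B x c z₀ = 0`.  The subspace
`{z | R c y₀ z}` contains `x, z₀` (`β₀ c = 0`), `c, y₀`, so `x'`; thus `B x' c y₀ = 0`, likewise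
`B x' c z₀ = 0`.  Now `B x x' y₀ = t β₀ x`, `B x' x y₀ = -a⁻¹ t β₀ x' `, etc.
So `κ = 1` for good pairs (`B x x' y₀ ≠ 0` or `B x x' z₀ ≠ 0`).
(2) for independent `x₁, x₂` pick `v` with `β₀ v ≠ 0`, `¬ R x₁ x₂ v` (replace `v` by `v + x₁` if
needed); if the pair is bad, `x₃ = v + t y₀` keeps both properties, and
`B xᵢ x₃ z₀ = B xᵢ v z₀ + t β₀ xᵢ` vanishes for one `t` each; `q ≥ 3` gives `t` with `(x₁,x₃)`,
`(x₂,x₃)` good, so `B x₁ x₂ x₃ = -B x₁ x₃ x₂ = B x₃ x₁ x₂ = -B x₃ x₂ x₁ = B x₂ x₃ x₁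
= -B x₂ x₁ x₃ ≠ 0`, `κ(x₁,x₂) = 1`.
`exists_ext` (`W = V →ₗ F`) gives `f` with `f x = B x` off `ker β₀`; `f x x = 0`, `f x y y = 0`
extend to all `x` by `x = (x + b) - b`.  Non-singularity: if `f x y = 0`, `x, y` independent, then
for `β₀ z ≠ 0`, `B z x y = f z x y = f x y z = 0`, so `R x y z` off `ker β₀`, so for all `z`. -/
theorem exists_tri (hq : 3 ≤ Nat.card F) (h2 : 2 ≤ Module.finrank F V) (R : V → V → V → Prop)
    (s12 : ∀ x y z, R x y z → R y x z) (s23 : ∀ x y z, R x y z → R x z y)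
    (dep : ∀ x y z, x = 0 ∨ y ∈ (F ∙ x) → R x y z)
    (hyp : ∀ x y, x ≠ 0 → y ∉ (F ∙ x) → ∃ φ : V →ₗ[F] F, φ ≠ 0 ∧ ∀ z, R x y z ↔ φ z = 0) :
    ∃ f : V →ₗ[F] V →ₗ[F] V →ₗ[F] F, (∀ x z, f x x z = 0) ∧ (∀ x y, f x y y = 0) ∧
      ∀ x y, (∀ z, f x y z = 0) → x = 0 ∨ y ∈ (F ∙ x) := by
  have : Nontrivial V := Module.nontrivial_of_finrank_pos (R := F) (by omega)
  obtain ⟨y₀, hy⟩ := exists_ne (0 : V)
  obtain ⟨z₀, hz⟩ : ∃ z₀, z₀ ∉ (F ∙ y₀) := by
    by_contra! k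
    have := finrank_span_singleton (K := F) hy
    rw [Submodule.eq_top_iff'.2 k, finrank_top] at this
    omega
  obtain ⟨β, β0, hβ⟩ := hyp y₀ z₀ hy hz
  have d : ∀ x z, R x x z := fun x z => dep x x z (Or.inr (self_mem_pt x))
  have lin : ∀ x y, ∃ φ : V →ₗ[F] F, ∀ z, R x y z ↔ φ z = 0 := fun x y => by
    by_cases k : x = 0 ∨ y ∈ (F ∙ x)
    · exact ⟨0, fun z => by simp [dep x y z k]⟩
    · push Not at k
      obtain ⟨φ, -, h⟩ := hyp x y k.1 k.2
      exact ⟨φ, h⟩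
  have exB : ∀ x, ∃ B : V →ₗ[F] V →ₗ[F] F, β x ≠ 0 →
      (∀ y z, R x y z ↔ B y z = 0) ∧ B y₀ z₀ = β x := fun x => by
    obtain ⟨A, -, hA⟩ := exists_alt (F := F) (R x) (s23 x)
      (fun y => s12 _ _ _ (s23 _ _ _ (d y x))) (lin x)
    refine ⟨(β x / A y₀ z₀) • A, fun hx => ?_⟩
    have : A y₀ z₀ ≠ 0 := fun k => hx ((hβ x).1 (s23 _ _ _ (s12 _ _ _ ((hA _ _).2 k))))
    exact ⟨fun y z => by simp [hA, hx, this], by simp [this]⟩
  choose B hB using exB
  have al : ∀ x, β x ≠ 0 → ∀ y, B x y y = 0 := fun x hx y =>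
    ((hB x hx).1 y y).1 (s12 _ _ _ (s23 _ _ _ (d y x)))
  have an := fun x hx => anti_of_alt (al x hx)
  have good : ∀ x x', β x ≠ 0 → β x' ≠ 0 → ∀ v, B x x' v ≠ 0 → B x x' v = - B x' x v →
      B x x' = - B x' x := fun x x' hx hx' v v0 e =>
    eq_of_ker_le (fun z h => neg_eq_zero.2 (((hB x' hx').1 _ _).1
      (s12 _ _ _ (((hB x hx).1 _ _).2 h)))) v0 e
  have gz : ∀ x x', β x ≠ 0 → β x' ≠ 0 → B x x' z₀ ≠ 0 → B x x' = - B x' x :=
    fun x x' hx hx' h => good x x' hx hx' z₀ h (tri_step (β := -β) s12 s23 d lin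
      (fun v => by
        rw [LinearMap.neg_apply, neg_eq_zero, ← hβ]
        exact ⟨s12 _ _ _, s12 _ _ _⟩) (hB x hx).1 (hB x' hx').1 (by simp [(hB x hx).2])
      (by simp [(hB x' hx').2]) (by simpa using hx) (by simpa using hx'))
  obtain ⟨f, e1, e2⟩ := exists_ext β0 B fun x x' hx hx' => by
    by_cases k : x = 0 ∨ x' ∈ (F ∙ x)
    · ext z
      rw [LinearMap.neg_apply, ((hB x hx).1 _ _).1 (dep _ _ z k),
        ((hB x' hx').1 _ _).1 (s12 _ _ _ (dep _ _ z k)), neg_zero]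
    by_cases k0 : B x x' y₀ = 0
    swap
    · exact good x x' hx hx' y₀ k0 (tri_step s12 s23 d lin hβ (hB x hx).1 (hB x' hx').1
        (by rw [an x hx, (hB x hx).2]) (by rw [an x' hx', (hB x' hx').2]) hx hx')
    push Not at k
    obtain ⟨φ, φ0, hφ⟩ := hyp x x' k.1 k.2
    obtain ⟨v, v1, v2⟩ : ∃ v, B x x' v ≠ 0 ∧ β v ≠ 0 := by
      by_contra! k
      refine φ0 (LinearMap.ext fun v => ker_le_of_compl (f := 0) β0 (fun z hz => ?_) rfl)
      simp only [LinearMap.zero_apply, true_iff]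
      by_contra k'
      exact hz (k z fun h => k' ((hφ z).1 (((hB x hx).1 _ _).2 h)))
    obtain ⟨t, t1, t2⟩ : ∃ t : F, t ≠ -B x v z₀ / β x ∧ t ≠ -B x' v z₀ / β x' := by
      classical
      have : Finite F := Nat.finite_of_card_ne_zero (by omega)
      have := Fintype.ofFinite F
      obtain ⟨s, -, hs⟩ := Finset.exists_mem_notMem_of_card_lt_card
        (s := {-B x v z₀ / β x, -B x' v z₀ / β x'}) (t := Finset.univ)
        (Finset.card_le_two.trans_lt (by rwa [Finset.card_univ, ← Nat.card_eq_fintype_card]))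
      exact ⟨s, by simpa only [Finset.mem_insert, Finset.mem_singleton, not_or] using hs⟩
    have w0 : β (v + t • y₀) ≠ 0 := by
      rwa [map_add, map_smul, (hβ y₀).1 (s23 _ _ _ (d y₀ z₀)), smul_zero, add_zero]
    have g : ∀ x, β x ≠ 0 → t ≠ -B x v z₀ / β x → B x (v + t • y₀) = - B (v + t • y₀) x :=
      fun x hx ht => gz x _ hx w0 fun h => ht (by
        rw [map_add, map_smul, LinearMap.add_apply, LinearMap.smul_apply, (hB x hx).2,
          smul_eq_mul] at h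
        rw [eq_div_iff hx]
        linear_combination h)
    refine good x x' hx hx' (v + t • y₀) (by rwa [map_add, map_smul, k0, smul_zero, add_zero]) ?_
    rw [an x hx, an x' hx', g x hx t1, g x' hx' t2, LinearMap.neg_apply, LinearMap.neg_apply,
      an _ w0 x x']
  have f1 : ∀ x, f x x = 0 := alt_of_compl β0 e2 fun b hb => by
    ext z
    rw [e1 b hb]
    exact ((hB b hb).1 _ _).1 (d b z)
  have f2 : ∀ x y, f x y y = 0 := fun x y =>
    ker_le_of_compl (f := 0) (g := (f.flip y).flip y) β0 (fun z hz => by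
      simp [e1 z hz, al z hz]) rfl
  refine ⟨f, fun x z => by simp [f1], f2, fun x y h => ?_⟩
  by_contra! k
  obtain ⟨φ, φ0, hφ⟩ := hyp x y k.1 k.2
  refine φ0 (LinearMap.ext fun v => ker_le_of_compl (f := 0) β0 (fun z hz => ?_) rfl)
  simp only [LinearMap.zero_apply, true_iff]
  refine (hφ z).1 (s23 _ _ _ (s12 _ _ _ (((hB z hz).1 x y).2 ?_)))
  rw [← e1 z hz, e2, LinearMap.neg_apply, anti_of_alt (f2 x), h, neg_zero, neg_zero]

end Cfsg.Agent.Sing
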