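import Cfsg.Agent.Sing.Pair

/-!
# Cameron–Kantor over `𝔽_q`: counting, cones, special lines (port of `Proj/CKSp`)

Dictionary from `Proj/CKSp` (read it side by side, the proofs go through): `2 ↦ q = Nat.card F`,
`ln x ↦ F ∙ x`, `stabilizer G x ↦ ps F G x` (point stabiliser), `b y ψ = 1 ↦ b y ψ ≠ 0`,
`odd ↦ Coprime · q`, `Tr.of_odd ↦ Pr.of_cop`, `ncard_orb_mul ↦ Pr.ncard_orb_mul'` (extra factor
`q - 1`), `orb_dc ↦ Pr.orb_dc1/2`, `2^k - 1 ↦ geo q k` (`geo_mul`, `cop_geo`).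
All groups are intersections of stabilisers of subspaces, so contain `S.Z` (`Z_le_stab`,
`Z_le_stab'`), and `Pr.mem_orb_of_pt` turns equality of points into vector orbits.
-/

set_option autoImplicit false
set_option linter.unusedSectionVars false
set_option linter.style.haveILetI false

namespace Cfsg.Agent.Sing

open MulAction Pointwise Cfsg.Agent.Proj.CK

variable {F G V V' : Type*} [Field F] [Group G] [AddCommGroup V] [AddCommGroup V']
  [Module F V] [Module F V'] [DistribMulAction G V] [DistribMulAction G V']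
  [SMulCommClass G F V] [SMulCommClass G F V'] [Finite F] [Finite V] [Finite V']

theorem sub_q_aux {q : ℕ} (hq : 1 ≤ q) (k : ℕ) : q ^ (k + 1) - q = (q - 1) * (q * geo q k) := by
  rw [mul_left_comm, geo_mul hq, pow_succ', Nat.mul_sub_one]

/-- the character of a point stabiliser -/
theorem exists_chi {x : V} (hx : x ≠ 0) :
    ∃ χ : ps F G x →* Fˣ, ∀ g : ps F G x, (g : G) • x = (χ g : F) • x := by
  choose a ha using fun g : ps F G x => mem_ps.1 g.2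
  refine ⟨MonoidHom.mk' (fun g => Units.mk0 (a g) (ha g).1) fun g h => Units.ext ?_,
    fun g => (ha g).2⟩
  apply smul_left_injective F hx
  simp only [Units.val_mk0, Units.val_mul]
  rw [← (ha _).2, Subgroup.coe_mul, mul_smul, (ha h).2, smul_comm, (ha g).2, smul_smul, mul_comm]

namespace St

variable (S : St F G V V')

include S in
theorem sq_le : Nat.card F ^ 2 ≤ Nat.card V := by
  rw [S.cV]; exact Nat.pow_le_pow_right Nat.card_pos (by omega)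

theorem card_perp_mul (T : Submodule F V) :
    Nat.card T * Nat.card (S.perp T) = Nat.card F ^ (S.s + 3) := by
  rw [S.card_mul_card_perp, S.cV']

theorem card_perp_pt {x : V} (hx : x ≠ 0) :
    Nat.card (S.perp (F ∙ x)) = Nat.card F ^ (S.s + 2) := by
  have := S.card_perp_mul (F ∙ x)
  rw [card_pt hx, pow_succ'] at this
  exact Nat.eq_of_mul_eq_mul_left Nat.card_pos this

theorem card_perp_pl {x y : V} (hx : x ≠ 0) (hyx : y ∉ (F ∙ x)) :
    Nat.card (S.perp (pl F x y)) = Nat.card F ^ (S.s + 1) := by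
  have := S.card_perp_mul (pl F x y)
  rw [card_pl hx hyx, show S.s + 3 = 2 + (S.s + 1) by ring, pow_add _ 2] at this
  exact Nat.eq_of_mul_eq_mul_left (pow_pos Nat.card_pos 2) this

theorem flag {x x' : V} (hx : x ≠ 0) (hx' : x' ≠ 0) {φ φ' : V'} (hφ : φ ≠ 0) (hφ' : φ' ≠ 0)
    (e : S.b x φ = 0 ↔ S.b x' φ' = 0) : ∃ g : G, g • x = x' ∧ g • (F ∙ φ) = F ∙ φ' :=
  S.tr_flag S.t S.sq_le hx hx' hφ hφ' e

theorem mem_off {x : V} {ψ : V'} :
    ψ ∈ ((⊤ : Submodule F V') : Set V') \ S.perp (F ∙ x) ↔ S.b x ψ ≠ 0 := by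
  simp only [Set.mem_diff, SetLike.mem_coe, Submodule.mem_top, true_and, S.mem_perp_pt]

theorem ncard_off {x : V} (hx : x ≠ 0) :
    (((⊤ : Submodule F V') : Set V') \ S.perp (F ∙ x)).ncard =
      (Nat.card F - 1) * Nat.card F ^ (S.s + 2) := by
  rw [ncard_diff le_top, S.card_perp_pt hx, card_top, S.cV', pow_succ' _ (S.s + 2), Nat.sub_mul,
    one_mul]

theorem tr_off {x : V} (hx : x ≠ 0) :
    Tr (ps F G x) (((⊤ : Submodule F V') : Set V') \ S.perp (F ∙ x)) := by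
  intro ψ hψ ψ' hψ'
  rw [mem_off] at hψ hψ'
  obtain ⟨g, h1, h2⟩ := S.flag hx hx (φ := ψ) (φ' := ψ') (by rintro rfl; simp at hψ)
    (by rintro rfl; simp at hψ') (iff_of_false hψ hψ')
  exact S.flip.mem_orb_of_pt (S.Z_le_stab _) (mem_ps_of_eq h1) h2

theorem inv_off {x : V} {A : Subgroup G} (h : A ≤ ps F G x) :
    Inv A (((⊤ : Submodule F V') : Set V') \ S.perp (F ∙ x)) := by
  exact (inv_top A).diff (S.inv_perp (inv_pt h))

theorem mem_a3 {x y : V} {ψ : V'} : ψ ∈ (S.perp (F ∙ x) : Set V') \ S.perp (pl F x y) ↔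
    S.b x ψ = 0 ∧ S.b y ψ ≠ 0 := by
  simp only [Set.mem_diff, SetLike.mem_coe, S.mem_perp_pt, S.mem_perp_pl]
  tauto

theorem ncard_a3 {x y : V} (hx : x ≠ 0) (hyx : y ∉ (F ∙ x)) :
    ((S.perp (F ∙ x) : Set V') \ S.perp (pl F x y)).ncard =
      (Nat.card F - 1) * Nat.card F ^ (S.s + 1) := by
  rw [ncard_diff (S.perp_anti (pt_le_pl x y)), S.card_perp_pt hx, S.card_perp_pl hx hyx,
    pow_succ' _ (S.s + 1), Nat.sub_mul, one_mul]

theorem inv_a3 {x y : V} : Inv (ps F G x ⊓ stabilizer G (pl F x y))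
    ((S.perp (F ∙ x) : Set V') \ S.perp (pl F x y)) := by
  exact (S.inv_perp (inv_pt inf_le_left)).diff (S.inv_perp (inv_iff_le_stab.2 inf_le_right))

theorem exists_flag : ∃ (x : V) (φ : V'), x ≠ 0 ∧ φ ≠ 0 ∧ S.b x φ = 0 := by
  have hq := two_le_q (F := F)
  obtain ⟨x, -, hx⟩ := exists_not_mem_of_card_lt (T := (⊤ : Submodule F V)) (X := ⊥) (by
    rw [card_bot, card_top, S.cV]; exact Nat.one_lt_pow (by omega) hq)
  have hx0 : x ≠ 0 := ne0_of_not_mem hx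
  obtain ⟨φ, h1, h2⟩ := exists_not_mem_of_card_lt (T := S.perp (F ∙ x)) (X := ⊥) (by
    rw [card_bot, S.card_perp_pt hx0]; exact Nat.one_lt_pow (by omega) hq)
  exact ⟨x, φ, hx0, ne0_of_not_mem h2, S.mem_perp_pt.1 h1⟩

variable [Finite G]

theorem card_G {x : V} (hx : x ≠ 0) :
    Nat.card G = geo (Nat.card F) (S.s + 3) * Nat.card (ps F G x) := by
  have hq := two_le_q (F := F)
  have h := S.ncard_orb_mul' (A := (⊤ : Subgroup G)) le_top hx
  have : orb (⊤ : Subgroup G) x = ((⊤ : Submodule F V) : Set V) \ (⊥ : Submodule F V) := by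
    ext v
    constructor
    · rintro ⟨g, -, rfl⟩; exact ⟨trivial, smul_ne0 hx⟩
    · intro hv
      obtain ⟨g, hg⟩ := S.tr S.t S.sq_le hx (ne0_of_not_mem hv.2)
      exact ⟨g, trivial, hg⟩
  rw [this, ncard_diff le_top, top_inf_eq, card_top, card_bot, S.cV, Subgroup.card_top,
    ← geo_mul (by omega), mul_assoc] at h
  exact (Nat.eq_of_mul_eq_mul_left (by omega) h).symm

theorem card_pair {x y : V} (hx : x ≠ 0) (hyx : y ∉ (F ∙ x)) :
    Nat.card (ps F G x) =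
      Nat.card F * geo (Nat.card F) (S.s + 2) * Nat.card ↥(ps F G x ⊓ ps F G y) := by
  have hq := two_le_q (F := F)
  have h := S.ncard_orb_mul' (A := ps F G x) (S.Z_le_stab _) (ne0_of_not_mem hyx)
  have : orb (ps F G x) y = ((⊤ : Submodule F V) : Set V) \ (F ∙ x) := by
    ext v
    constructor
    · rintro ⟨g, hg, rfl⟩
      exact ⟨trivial, smul_not_mem hg hyx⟩
    · intro hv
      exact S.t x y x v hx hyx hx hv.2
  rw [this, ncard_diff le_top, card_pt hx, card_top, S.cV, sub_q_aux (by omega)] at h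
  apply Nat.eq_of_mul_eq_mul_left (show 0 < Nat.card F - 1 by omega)
  rw [← h]; ring

theorem card_flag {x : V} {φ : V'} (hx : x ≠ 0) (hφ : φ ≠ 0) (e : S.b x φ = 0) :
    Nat.card (ps F G x) = geo (Nat.card F) (S.s + 2) * Nat.card ↥(ps F G x ⊓ ps F G φ) := by
  have hq := two_le_q (F := F)
  have h := S.flip.ncard_orb_mul' (A := ps F G x) (S.Z_le_stab _) hφ
  have : orb (ps F G x) φ = (S.perp (F ∙ x) : Set V') \ (⊥ : Submodule F V') := by
    ext v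
    constructor
    · rintro ⟨g, hg, rfl⟩
      exact ⟨S.inv_perp (inv_pt le_rfl) g hg _ (S.mem_perp_pt.2 e), smul_ne0 hφ⟩
    · intro hv
      obtain ⟨g, h1, h2⟩ := S.flag hx hx hφ (ne0_of_not_mem hv.2)
        (iff_of_true e (S.mem_perp_pt.1 hv.1))
      exact S.flip.mem_orb_of_pt (S.Z_le_stab _) (mem_ps_of_eq h1) h2
  rw [this, ncard_diff bot_le, S.card_perp_pt hx, card_bot, ← geo_mul (by omega), mul_assoc] at h
  exact (Nat.eq_of_mul_eq_mul_left (by omega) h).symm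

theorem tr_off_flag {x : V} {φ : V'} (hx : x ≠ 0) (hφ : φ ≠ 0) (e : S.b x φ = 0) :
    Tr (ps F G x ⊓ ps F G φ) (((⊤ : Submodule F V') : Set V') \ S.perp (F ∙ x)) := by
  exact S.flip.of_cop (S.tr_off hx) (S.inv_off le_rfl) (le_inf (S.Z_le_stab _) (S.Z_le_stab' _))
    inf_le_left (S.card_flag hx hφ e) (cop_geo _ _) (by rw [mem_off]; simp) (S.ncard_off hx)

/-- `Pr.orb_dvd` with `card_pair` (for `y, x`) and `tr_off y`: `q^(s+2) ∣ q * geo * j`. -/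
theorem a3 {x y : V} (hx : x ≠ 0) (hyx : y ∉ (F ∙ x)) :
    Tr (ps F G x ⊓ ps F G y) ((S.perp (F ∙ x) : Set V') \ S.perp (pl F x y)) := by
  have hy := ne0_of_not_mem hyx
  refine Tr.of_ncard_le (Set.toFinite _)
    (S.inv_a3.mono (le_inf inf_le_left (ps_inf_le_pl x y))) fun ψ hψ => ?_
  have hψ2 := (S.mem_a3.1 hψ).2
  obtain ⟨j, j0, j1, j2⟩ := S.flip.orb_dvd (A := ps F G y) (B := ps F G y ⊓ ps F G x)
    (le_inf (S.Z_le_stab _) (S.Z_le_stab _)) inf_le_left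
    (S.card_pair hy (not_mem_pt_symm hx hyx)) (z := ψ) (by rintro rfl; simp at hψ2)
    (by rw [(S.tr_off hy).orb_eq (S.inv_off le_rfl) (S.mem_off.2 hψ2), S.ncard_off hy])
  rw [inf_comm] at j1
  rw [S.ncard_a3 hx hyx, j1]
  rw [mul_assoc, pow_succ' _ (S.s + 1), Nat.mul_dvd_mul_iff_left Nat.card_pos] at j2
  exact Nat.mul_le_mul_left _ (Nat.le_of_dvd j0
    ((Nat.Coprime.pow_left _ (cop_geo _ _).symm).dvd_of_dvd_mul_left j2))

/-- Choose `u' ∈ L \ F∙u`, so `L = pl u u'` (`pl_eq_of_mem`).  `A = ps u ⊓ ps u'` is transitive by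
`a3`.  `Dl L = A ⊓ ps (u + u')` (if `g u = a u`, `g u' = b u'`, `g (u+u') = c (u+u')` then
`a = b = c`).  Its index `k` in `A` is the size of the orbit of the point `F∙(u+u')`, which is
`{F∙(u + c u') | c ∈ C}`, `C = {c : Fˣ | ∃ g, g u = u ∧ g u' = c u'}` a subgroup of `Fˣ`
(use `S.zv` to normalise `a = 1`), so `k ∣ q - 1` is prime to `q`; `Pr.of_cop`. -/
theorem a3' {x y u : V} (hx : x ≠ 0) (hyx : y ∉ (F ∙ x)) (hu : u ∈ pl F x y) (hu0 : u ≠ 0) :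
    Tr (Dl G (pl F x y)) ((S.perp (F ∙ u) : Set V') \ S.perp (pl F x y)) := by
  have hq := two_le_q (F := F)
  obtain ⟨u', h1, h2⟩ := exists_not_mem_of_card_lt (T := pl F x y) (X := F ∙ u) (by
    rw [card_pt hu0, card_pl hx hyx]; nlinarith)
  rw [← pl_eq_of_mem hu h1 hu0 h2]
  obtain ⟨χ, hχ⟩ := exists_chi (F := F) (G := G) hu0
  obtain ⟨χ', hχ'⟩ := exists_chi (F := F) (G := G) (ne0_of_not_mem h2)
  set A := ps F G u ⊓ ps F G u' with hA
  set θ : A →* Fˣ := χ.comp (Subgroup.inclusion inf_le_left) /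
    χ'.comp (Subgroup.inclusion inf_le_right) with hθ
  have hk : ∀ g : A, g ∈ θ.ker ↔ χ ⟨g, g.2.1⟩ = χ' ⟨g, g.2.2⟩ := fun g => by
    rw [MonoidHom.mem_ker, hθ, MonoidHom.div_apply, div_eq_one]; rfl
  have hZ : S.Z ≤ A := le_inf (S.Z_le_stab _) (S.Z_le_stab _)
  refine Tr.mono (A := θ.ker.map A.subtype) (S.flip.of_cop (k := θ.ker.index) (S.a3 hu0 h2)
    (S.inv_a3.mono (le_inf inf_le_left (ps_inf_le_pl u u'))) ?_ (Subgroup.map_subtype_le _) ?_ ?_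
    (by rw [mem_a3]; simp) (S.ncard_a3 hu0 h2)) ?_
  · intro g hg
    refine ⟨⟨g, hZ hg⟩, (hk _).2 ?_, rfl⟩
    obtain ⟨c, hc⟩ := S.sv g hg
    have e1 := hχ ⟨g, (hZ hg).1⟩
    have e2 := hχ' ⟨g, (hZ hg).2⟩
    rw [hc] at e1 e2
    exact Units.ext ((smul_left_injective F hu0 e1).symm.trans
      (smul_left_injective F (ne0_of_not_mem h2) e2))
  · rw [Subgroup.card_map_of_injective A.subtype_injective, Subgroup.index_mul_card]
  · have : θ.ker.index ∣ Nat.card F ^ (0 + 1) - 1 := by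
      rw [Subgroup.index_ker, zero_add, pow_one, ← Nat.card_units]
      exact Subgroup.card_subgroup_dvd_card _
    exact Nat.Coprime.coprime_dvd_left this (cop_pred (by omega) 0)
  · rintro _ ⟨g, hg, rfl⟩
    refine mem_Dl.2 fun v hv => mem_ps_of_mem ?_
    obtain ⟨a, c, rfl⟩ := mem_pl.1 hv
    have e1 : (g : G) • u = _ := hχ ⟨g, g.2.1⟩
    have e2 : (g : G) • u' = _ := hχ' ⟨g, g.2.2⟩
    refine mem_pt.2 ⟨χ ⟨g, g.2.1⟩, ?_⟩
    rw [Subgroup.subtype_apply, smul_add (g : G), smul_comm (g : G) a, smul_comm (g : G) c, e1, e2,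
      ← (hk g).1 hg, smul_add, smul_comm a, smul_comm c]

theorem cone1 {x : V} {φ : V'} (hx : x ≠ 0) (hφ : φ ≠ 0) (e : S.b x φ = 0) {z l : V}
    (hz : z ∉ (F ∙ x)) (hl : l ∈ (F ∙ x)) : ∃ g ∈ ps F G x ⊓ ps F G φ, g • z = z + l := by
  obtain ⟨ε, a1, a2⟩ := S.exists_sep hz
  refine S.fourier _ z (z + l) fun ψ => ?_
  by_cases h : S.b x ψ = 0
  · left
    intro ψ' hψ'
    have := (S.inv_perp (A := ps F G x ⊓ ps F G φ)
      (inv_pt inf_le_left)).orb_subset (S.mem_perp_pt.2 h) hψ'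
    simp [this l hl]
  · right
    have e' := (S.tr_off_flag hx hφ e).orb_eq (S.inv_off inf_le_left) (S.mem_off.2 h)
    refine ⟨_, subset_rfl, by simp, ⟨ε, by simp [a2], ?_⟩, ⟨ε, by simp [a1 l hl, a2], ?_⟩⟩ <;>
    · rw [e']; intro ψ' hψ' c; rw [S.mem_off] at hψ' ⊢; simpa [S.mem_perp_pt.1 a1] using hψ'

theorem orb_line {x y v : V} {φ : V'} (hx : x ≠ 0) (hφ : φ ≠ 0) (e : S.b x φ = 0)
    (hyx : y ∉ (F ∙ x)) (hv : v ∈ pl F x y) (hvx : v ∉ (F ∙ x)) :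
    v ∈ orb (ps F G x ⊓ stabilizer G (pl F x y) ⊓ ps F G φ) y := by
  obtain ⟨s, t, rfl⟩ := mem_pl.1 hv
  have ht : t ≠ 0 := by
    rintro rfl
    exact hvx (by simpa using smul_mem_pt s x)
  obtain ⟨g, hg, h⟩ := S.cone1 hx hφ e hyx (smul_mem_pt (s / t) x)
  have : s • x + t • y = t • g • y := by
    rw [h, smul_add, smul_smul, mul_div_cancel₀ _ ht, add_comm]
  rw [this]
  refine S.smul_mem_orb (le_inf (le_inf (S.Z_le_stab _) (S.Z_le_stab _)) (S.Z_le_stab' _))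
    ⟨g, ⟨⟨hg.1, smul_pl_eq (pt_le_pl _ _ (stab_mem hg.1 (self_mem_pt x))) ?_⟩, hg.2⟩, rfl⟩ ht
  rw [h]
  exact add_mem (right_mem_pl _ _) (Submodule.smul_mem _ _ (left_mem_pl _ _))

/-- If the points coincide use a scalar.  Else `g₁ ∈ ps (x+y) ⊓ ps φ` with `g₁ x = x - (x+y) = -y`
(`cone1`); `g₁ y = a x + b y` with `a ≠ 0`; `g₂ ∈ ps y ⊓ ps φ` with `g₂ (g₁ y) = a x` (`cone1`);
then rescale `g₂ g₁` by `S.zv`. -/
theorem swap {x y : V} {φ : V'} (hx : x ≠ 0) (hy : y ≠ 0) (hφ : φ ≠ 0) (e : S.b x φ = 0)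
    (e' : S.b y φ = 0) : ∃ g ∈ ps F G φ, g • x = y ∧ g • (F ∙ y) = F ∙ x := by
  by_cases hyx : y ∈ (F ∙ x)
  · obtain ⟨a, ha, rfl⟩ := pt_eq_iff.1 (pt_eq_of_mem hy hyx).symm
    obtain ⟨g, hg, h⟩ := S.zv a ha
    exact ⟨g, S.Z_le_stab' _ hg, h x, (S.Z_le_stab _ hg).trans (pt_smul ha x)⟩
  have hxy := not_mem_pt_symm hx hyx
  have h0 : x + y ∉ (F ∙ x) := fun h => hyx ((Submodule.add_mem_iff_right _ (self_mem_pt x)).1 h)
  obtain ⟨g₁, hg₁, h1⟩ := S.cone1 (x := x + y) (ne0_of_not_mem h0) hφ (by simp [e, e'])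
    (not_mem_pt_symm hx h0) (Submodule.neg_mem _ (self_mem_pt _))
  obtain ⟨a, ha, h2⟩ := mem_ps.1 hg₁.1
  have h3 : g₁ • y = a • x + (a + 1) • y := by
    rw [smul_add, h1] at h2
    rw [eq_sub_of_add_eq' h2]; module
  obtain ⟨g₂, hg₂, h4⟩ := S.cone1 (x := y) hy hφ e' (z := g₁ • y) (l := -((a + 1) • y)) (by
    rw [h3, Submodule.add_mem_iff_left _ (smul_mem_pt _ _), Submodule.smul_mem_iff _ ha]
    exact hxy) (Submodule.neg_mem _ (smul_mem_pt _ _))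
  obtain ⟨c, hc, h5⟩ := mem_ps.1 hg₂.1
  obtain ⟨z, hz, h6⟩ := S.zv (-c)⁻¹ (inv_ne_zero (neg_ne_zero.2 hc))
  refine ⟨z * g₂ * g₁, Subgroup.mul_mem _ (Subgroup.mul_mem _ (S.Z_le_stab' _ hz) hg₂.2) hg₁.2,
    ?_, ?_⟩
  · rw [mul_smul, mul_smul, h1, show x + -(x + y) = -y by abel, smul_neg, h5, h6, ← neg_smul,
      smul_smul, inv_mul_cancel₀ (neg_ne_zero.2 hc), one_smul]
  · rw [mul_smul, mul_smul, smul_pt g₁, smul_pt g₂, h4, h3, add_neg_cancel_right, pt_smul ha]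
    exact S.Z_le_stab _ hz

/-- the stabiliser of a line `ℓ ⊆ φ` and of `φ` is doubly transitive on `ℓ` (`swap`, `cone1`) -/
theorem line2 {x y : V} {φ : V'} (hφ : φ ≠ 0) (e : S.b x φ = 0) (e' : S.b y φ = 0)
    {a b a' b' : V} (ha : a ∈ pl F x y) (hb : b ∈ pl F x y) (ha' : a' ∈ pl F x y)
    (hb' : b' ∈ pl F x y) (a0 : a ≠ 0) (hba : b ∉ (F ∙ a)) (a0' : a' ≠ 0) (hba' : b' ∉ (F ∙ a')) :
    ∃ g ∈ ps F G φ ⊓ stabilizer G (pl F x y), g • (F ∙ a) = (F ∙ a') ∧ g • b = b' := by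
  have hL : ∀ v ∈ pl F x y, S.b v φ = 0 := S.mem_perp_pl.2 ⟨e, e'⟩
  obtain ⟨g₁, hg₁, h1⟩ : ∃ g ∈ ps F G φ ⊓ stabilizer G (pl F x y), g • (F ∙ a) = F ∙ a' := by
    by_cases h : a' ∈ (F ∙ a)
    · exact ⟨1, one_mem _, by rw [one_smul, pt_eq_of_mem a0' h]⟩
    · obtain ⟨g, hg, h1, h2⟩ := S.swap a0 a0' hφ (hL a ha) (hL a' ha')
      refine ⟨g, ⟨hg, ?_⟩, by rw [smul_pt, h1]⟩
      rw [← pl_eq_of_mem ha ha' a0 h]
      refine smul_pl_eq (h1 ▸ right_mem_pl _ _) (pt_le_pl _ _ ?_)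
      rw [← h2, smul_pt]; exact self_mem_pt _
  have h2 : g₁ • b ∉ (F ∙ a') := by rw [← h1, smul_pt]; exact smul_not_mem_pt hba
  have h3 := pl_eq_of_mem ha' (stab_mem hg₁.2 hb) a0' h2
  rw [← h3] at hb'
  obtain ⟨g₂, hg₂, h4⟩ := S.orb_line a0' hφ (hL a' ha') h2 hb' hba'
  rw [h3] at hg₂
  refine ⟨g₂ * g₁, mul_mem ⟨hg₂.2, hg₂.1.2⟩ hg₁, ?_, by rw [mul_smul, h4]⟩
  rw [mul_smul, h1]; exact hg₂.1.1

include S in
/-- `fourier`; for `ψ ∉ L^⊥` pick `0 ≠ u ∈ L` with `b u ψ = 0`; by `a3'` the orbit of `ψ` is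
`u^⊥ \ L^⊥`, a union of cosets of `L^⊥`. -/
theorem cone2 {x u : V} (hx : x ≠ 0) (hux : u ∉ (F ∙ x)) {z l : V} (hz : z ∉ pl F x u)
    (hl : l ∈ pl F x u) : ∃ g ∈ Dl G (pl F x u), g • z = z + l := by
  obtain ⟨ε, a1, a2⟩ := S.exists_sep hz
  have hi : Inv (Dl G (pl F x u)) (pl F x u : Set V) := inv_iff_le_stab.2 (Dl_le_stab _)
  refine S.fourier _ z (z + l) fun ψ => ?_
  by_cases h : ψ ∈ S.perp (pl F x u)
  · left
    intro ψ' hψ'
    have := (S.inv_perp hi).orb_subset h hψ'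
    simp [this l hl]
  · right
    obtain ⟨v, v1, v0, v2⟩ : ∃ v ∈ pl F x u, v ≠ 0 ∧ S.b v ψ = 0 := by
      by_cases h1 : S.b x ψ = 0
      · exact ⟨x, left_mem_pl _ _, hx, h1⟩
      · refine ⟨(-(S.b u ψ / S.b x ψ)) • x + u, add_mem (Submodule.smul_mem _ _ (left_mem_pl _ _))
          (right_mem_pl _ _), ne0_of_not_mem (S := F ∙ x) ?_, ?_⟩
        · rwa [Submodule.add_mem_iff_right _ (smul_mem_pt _ _)]
        · simp [h1]
    have e' := (S.a3' hx hux v1 v0).orb_eq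
      ((S.inv_perp (inv_pt fun g hg => mem_Dl.1 hg v v1)).diff (S.inv_perp hi))
      (z := ψ) ⟨S.mem_perp_pt.2 v2, h⟩
    have key : ∀ ψ' ∈ orb (Dl G (pl F x u)) ψ, ∀ c : F, ψ' + c • ε ∈ orb (Dl G (pl F x u)) ψ := by
      rw [e']
      rintro ψ' ⟨b1, b2⟩ c
      exact ⟨add_mem b1 (Submodule.smul_mem _ _ (S.perp_anti (pt_le.2 v1) a1)), fun hc =>
        b2 ((Submodule.add_mem_iff_left _ (Submodule.smul_mem _ _ a1)).1 hc)⟩
    exact ⟨_, subset_rfl, by simp, ⟨ε, by simp [a2], key⟩, ⟨ε, by simp [a1 l hl, a2], key⟩⟩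

variable {S} in
theorem Sp.symm {x y : V} {φ : V'} (h : S.Sp x y φ) : S.Sp y x φ := by
  obtain ⟨g, h1, h2, h3⟩ := S.swap h.hx h.hy h.hφ h.xφ h.yφ
  rw [smul_pt] at h3
  exact (h.smul g).congr (by rw [h2]) (by rw [pl, pl, h2, h3]) (mem_ps'.1 h1).symm

variable {S} in
theorem Sp.of_mem_pl {x y a c : V} {φ : V'} (h : S.Sp x y φ) (ha : a ∈ pl F x y)
    (hc : c ∈ pl F x y) (a0 : a ≠ 0) (hca : c ∉ (F ∙ a)) : S.Sp a c φ := by
  obtain ⟨g, h1, h2, h3⟩ := S.line2 h.hφ h.xφ h.yφ (left_mem_pl x y) (right_mem_pl x y) ha hc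
    h.hx h.yx a0 hca
  rw [smul_pt] at h2
  exact (h.smul g).congr h2.symm (by rw [pl, pl, h2, h3]) (mem_ps'.1 h1.1).symm

/-- `τ` = number of lines in the orbit of `ℓ = pl x y` under `ps x ⊓ ps φ`.  By `cone1`, both
`Bo = ps x ⊓ stab ℓ ⊓ ps φ` and `ps x ⊓ stab ℓ` have the orbit `ℓ \ F∙x` (size `q(q-1)`) on `y`;
combine with `card_G, card_pair, card_flag, ncard_orb_mul, ncard_orb_mul'`. -/
theorem tau {x y : V} {φ : V'} (hx : x ≠ 0) (hφ : φ ≠ 0) (e : S.b x φ = 0) (hyx : y ∉ (F ∙ x)) :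
    ∃ τ : ℕ, 0 < τ ∧ (orb (ps F G x ⊓ ps F G y) φ).ncard = (Nat.card F - 1) * τ ∧
      (orb (ps F G x ⊓ ps F G φ) y).ncard = Nat.card F * ((Nat.card F - 1) * τ) ∧
      Nat.card ↥(ps F G x ⊓ ps F G φ) =
        τ * Nat.card ↥(ps F G x ⊓ stabilizer G (pl F x y) ⊓ ps F G φ) ∧
      Nat.card ↥(ps F G x ⊓ stabilizer G (pl F x y)) =
        τ * Nat.card ↥(ps F G x ⊓ stabilizer G (pl F x y) ⊓ ps F G φ) ∧
      Nat.card ↥(ps F G x ⊓ ps F G y) = τ * Nat.card ↥(ps F G x ⊓ ps F G φ ⊓ ps F G y) ∧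
      (orb (⊤ : Subgroup G) ((F ∙ x), pl F x y, (F ∙ φ))).ncard =
        geo (Nat.card F) (S.s + 3) * geo (Nat.card F) (S.s + 2) * τ := by
  have hq := two_le_q (F := F)
  have hy := ne0_of_not_mem hyx
  have hZx : S.Z ≤ ps F G x := S.Z_le_stab _
  have hZφ : S.Z ≤ ps F G φ := S.Z_le_stab' _
  have hZQ : S.Z ≤ ps F G x ⊓ stabilizer G (pl F x y) := le_inf hZx (S.Z_le_stab _)
  have o1 : ∀ A : Subgroup G, ps F G x ⊓ stabilizer G (pl F x y) ⊓ ps F G φ ≤ A →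
      A ≤ ps F G x ⊓ stabilizer G (pl F x y) →
      Nat.card A = Nat.card F * Nat.card ↥(A ⊓ ps F G y) := by
    intro A h1 h2
    have h := S.ncard_orb_mul' (A := A) ((le_inf hZQ hZφ).trans h1) hy
    have : orb A y = (pl F x y : Set V) \ (F ∙ x) := by
      ext v
      constructor
      · rintro ⟨g, hg, rfl⟩
        exact ⟨stab_mem (h2 hg).2 (right_mem_pl _ _), smul_not_mem (h2 hg).1 hyx⟩
      · intro hv
        exact orb_mono h1 y (S.orb_line hx hφ e hyx hv.1 hv.2)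
    rw [this, ncard_diff (pt_le_pl x y), card_pl hx hyx, card_pt hx,
      show Nat.card F ^ 2 - Nat.card F = (Nat.card F - 1) * Nat.card F by
        rw [Nat.sub_mul, one_mul, pow_two], mul_assoc] at h
    exact (Nat.eq_of_mul_eq_mul_left (by omega) h).symm
  have h1 := S.card_G hx
  have h2 := S.card_pair hx hyx
  have h3 := S.card_flag hx hφ e
  have h4 := S.ncard_orb_mul' (A := ps F G x ⊓ ps F G φ) (le_inf hZx hZφ) hy
  have h5 := S.flip.ncard_orb_mul' (A := ps F G x ⊓ ps F G y) (le_inf hZx (S.Z_le_stab _)) hφ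
  have h6 := ncard_orb_mul (⊤ : Subgroup G) ((F ∙ x), pl F x y, (F ∙ φ))
  have h7 := ncard_orb_mul (ps F G x ⊓ ps F G φ) (pl F x y)
  have h8 := o1 _ le_rfl inf_le_left
  have h9 := o1 _ inf_le_left le_rfl
  have e1 : (⊤ : Subgroup G) ⊓ stabilizer G ((F ∙ x), pl F x y, (F ∙ φ)) =
      ps F G x ⊓ stabilizer G (pl F x y) ⊓ ps F G φ := by
    ext g
    simp only [Subgroup.mem_inf, Subgroup.mem_top, true_and, mem_stabilizer_iff, Prod.smul_mk,
      Prod.mk.injEq, and_assoc]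
  have e2 : ps F G x ⊓ stabilizer G (pl F x y) ⊓ ps F G y = ps F G x ⊓ ps F G y :=
    le_antisymm (inf_le_inf_right _ inf_le_left)
      (le_inf (le_inf inf_le_left (ps_inf_le_pl x y)) inf_le_right)
  have e3 : ps F G x ⊓ stabilizer G (pl F x y) ⊓ ps F G φ ⊓ ps F G y =
      ps F G x ⊓ ps F G φ ⊓ ps F G y := by
    rw [inf_right_comm, e2, inf_right_comm]
  rw [e1, Subgroup.card_top] at h6
  rw [inf_right_comm] at h5 h7
  rw [e3] at h8
  rw [e2] at h9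
  have hp : 0 < Nat.card ↥(ps F G x ⊓ ps F G φ ⊓ ps F G y) := Nat.card_pos
  have hp' : 0 < Nat.card ↥(ps F G x ⊓ stabilizer G (pl F x y) ⊓ ps F G φ) := Nat.card_pos
  have hg : 0 < geo (Nat.card F) (S.s + 2) := by rw [geo_succ]; omega
  have k1 : Nat.card ↥(ps F G x ⊓ ps F G φ) = Nat.card F * Nat.card ↥(ps F G x ⊓ ps F G y) := by
    apply Nat.eq_of_mul_eq_mul_left hg
    rw [← h3, h2]; ring
  have k2 : Nat.card ↥(ps F G x ⊓ ps F G y) = (orb (ps F G x ⊓ ps F G φ) (pl F x y)).ncard *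
      Nat.card ↥(ps F G x ⊓ ps F G φ ⊓ ps F G y) := by
    apply Nat.eq_of_mul_eq_mul_left (show 0 < Nat.card F by omega)
    rw [← k1, ← h7, h8]; ring
  refine ⟨_, ncard_orb_pos (ps F G x ⊓ ps F G φ) (pl F x y), ?_, ?_, h7.symm, ?_, k2, ?_⟩
  · apply Nat.eq_of_mul_eq_mul_right hp
    rw [h5, k2]; ring
  · apply Nat.eq_of_mul_eq_mul_right hp
    rw [h4, k1, k2]; ring
  · rw [h9, ← k1, h7]
  · apply Nat.eq_of_mul_eq_mul_right hp'
    rw [h6, h1, h3, ← h7]; ring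

variable {S} in
theorem Sp.tau {x y : V} {φ : V'} (h : S.Sp x y φ) :
    ∃ τ : ℕ, τ.Coprime (Nat.card F) ∧ 0 < τ ∧
      (orb (ps F G x ⊓ ps F G y) φ).ncard = (Nat.card F - 1) * τ ∧
      (orb (ps F G x ⊓ ps F G φ) y).ncard = Nat.card F * ((Nat.card F - 1) * τ) ∧
      Nat.card ↥(ps F G x ⊓ ps F G φ) =
        τ * Nat.card ↥(ps F G x ⊓ stabilizer G (pl F x y) ⊓ ps F G φ) ∧
      Nat.card ↥(ps F G x ⊓ stabilizer G (pl F x y)) =
        τ * Nat.card ↥(ps F G x ⊓ stabilizer G (pl F x y) ⊓ ps F G φ) ∧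
      Nat.card ↥(ps F G x ⊓ ps F G y) = τ * Nat.card ↥(ps F G x ⊓ ps F G φ ⊓ ps F G y) := by
  obtain ⟨τ, h0, h1, h2, h3, h4, h5, h6⟩ := S.tau h.hx h.hφ h.xφ h.yx
  exact ⟨τ, Nat.Coprime.coprime_mul_left (h6 ▸ h.nd), h0, h1, h2, h3, h4, h5⟩

/-- otherwise (`cop_iff`) `p * q` divides every orbit of `ps x ⊓ ps φ` on `φ^⊥ \ F∙x`, which has
`q (q^(s+1) - 1)` elements (`dvd_ncard_of_forall_orb`). -/
theorem exists_sp {x : V} {φ : V'} (hx : x ≠ 0) (hφ : φ ≠ 0) (e : S.b x φ = 0) :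
    ∃ y, S.Sp x y φ := by
  by_contra! hc
  have hq := two_le_q (F := F)
  have hle : (F ∙ x) ≤ S.flip.perp (F ∙ φ) := pt_le.2 (S.flip.mem_perp_pt.2 e)
  have := dvd_ncard_of_forall_orb (A := ps F G x ⊓ ps F G φ) (k := Nat.card F * ringChar F) _
    ((S.flip.perp (F ∙ φ) : Set V) \ (F ∙ x)) (Set.toFinite _) rfl
    ((S.flip.inv_perp (A := ps F G x ⊓ ps F G φ) (inv_pt inf_le_right)).diff
      (inv_pt inf_le_left)) fun y hy => by
      obtain ⟨τ, -, -, t1, -, -, -, t2⟩ := S.tau hx hφ e hy.2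
      rw [t1]
      refine Nat.mul_dvd_mul_left _ (Dvd.dvd.mul_left ?_ _)
      by_contra h4
      refine hc y ⟨hx, hφ, e, S.flip.mem_perp_pt.1 hy.1, hy.2, ?_⟩
      rw [t2]
      exact Nat.Coprime.mul_left (Nat.Coprime.mul_left (cop_geo _ _) (cop_geo _ _)) (cop_iff.2 h4)
  rw [ncard_diff hle, S.flip.card_perp_pt hφ, card_pt hx, pow_succ', ← Nat.mul_sub_one,
    Nat.mul_dvd_mul_iff_left (by omega)] at this
  exact cop_iff.1 (cop_pred (by omega) _) this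

variable {S} in
/-- As in `CKSp`, `W = F∙x ⊔ span (orb F y)`.  `orb_dc1`: with `τ' = (q-1)τ`, `w = |W^⊥|`,
`|W| = qγ`, `q^(s+2) = wγ`: `q τ' (q-1) q^(s+1) = (wγ - w) κ'` and `κ' = (q-1)κ`
(`ncard_orb_pt`), so `τ' (wγ) = (wγ - w) κ`, `CK.St.arith` gives `γ - 1 ≤ τ'`. -/
theorem Sp.struct {x y : V} {φ : V'} (h : S.Sp x y φ) : ∃ W : Submodule F V, x ∈ W ∧
    orb (ps F G x ⊓ ps F G φ) y = (W : Set V) \ (F ∙ x) ∧
    Tr (ps F G x ⊓ ps F G φ) ((S.perp (F ∙ x) : Set V') \ S.perp W) := by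
  have hq := two_le_q (F := F)
  obtain ⟨τ, t0, t1, -, t2, -, -, t3⟩ := h.tau
  set Fl := ps F G x ⊓ ps F G φ with hF
  set W := (F ∙ x) ⊔ Submodule.span F (orb Fl y) with hW
  have hxW : (F ∙ x) ≤ W := le_sup_left
  have hZ : S.Z ≤ Fl := le_inf (S.Z_le_stab _) (S.Z_le_stab' _)
  have hi3 := S.inv_a3.mono (le_inf inf_le_left (ps_inf_le_pl (G := G) x y))
  have hA : Tr (Fl ⊓ ps F G y) ((S.perp (F ∙ x) : Set V') \ S.perp (pl F x y)) :=
    S.flip.of_cop (S.a3 h.hx h.yx) hi3 (le_inf hZ (S.Z_le_stab _))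
      (inf_le_inf_right _ inf_le_left) t3 t0 (by rw [mem_a3]; simp) (S.ncard_a3 h.hx h.yx)
  have hiF : Inv Fl (S.perp (F ∙ x) : Set V') := S.inv_perp (inv_pt inf_le_left)
  have hT : Tr Fl ((S.perp (F ∙ x) : Set V') \ S.perp W) := by
    have := S.overlap hiF (y := y) (by
      convert hA using 1
      ext ψ; rw [S.mem_a3, Set.mem_setOf_eq, S.mem_perp_pt])
    convert this using 1
    ext ψ
    simp only [hW, Set.mem_diff, SetLike.mem_coe, S.perp_sup, Submodule.mem_inf, S.perp_span,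
      Set.mem_setOf_eq]
    constructor
    · rintro ⟨h1, h2⟩
      refine ⟨h1, ?_⟩
      by_contra! hc
      exact h2 ⟨h1, hc⟩
    · rintro ⟨h1, y', h2, h3⟩
      exact ⟨h1, fun hc => h3 (hc.2 y' h2)⟩
  refine ⟨W, hxW (self_mem_pt x), ?_, hT⟩
  have hsub : orb Fl y ⊆ (W : Set V) \ (F ∙ x) := by
    intro v hv
    refine ⟨(le_sup_right : _ ≤ W) (Submodule.subset_span hv), ?_⟩
    obtain ⟨g, hg, rfl⟩ := hv
    exact smul_not_mem hg.1 h.yx
  refine Set.eq_of_subset_of_ncard_le hsub ?_ (Set.toFinite _)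
  obtain ⟨ψ, hψ⟩ : ((S.perp (F ∙ x) : Set V') \ S.perp (pl F x y)).Nonempty := by
    rw [← Set.ncard_pos, S.ncard_a3 h.hx h.yx]
    exact Nat.mul_pos (by omega) (pow_pos (by omega) _)
  have hψ' : ψ ∈ (S.perp (F ∙ x) : Set V') \ S.perp W :=
    ⟨hψ.1, fun hc => (S.mem_a3.1 hψ).2 (hc y (hsub (mem_orb_self _ _)).1)⟩
  have hiW : Inv Fl (W : Set V) := inv_sup (inv_pt inf_le_left) (inv_span (inv_orb Fl y))
  have hψ0 : ψ ≠ 0 := ne0_of_not_mem hψ.2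
  have d := S.orb_dc1 hZ h.hy hψ0
  rw [hA.orb_eq (hi3.mono (inf_le_inf_right _ inf_le_left)) hψ, S.ncard_a3 h.hx h.yx,
    hT.orb_eq (hiF.diff (S.inv_perp hiW)) hψ', ncard_diff (S.perp_anti hxW),
    S.card_perp_pt h.hx, S.ncard_orb_pt (le_inf hZ (S.Z_le_stab' _)) h.hy, t2] at d
  obtain ⟨γ, hγ⟩ : Nat.card (F ∙ x) ∣ Nat.card W :=
    AddSubgroup.card_dvd_of_le (H := (F ∙ x).toAddSubgroup) (K := W.toAddSubgroup) hxW
  rw [card_pt h.hx] at hγ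
  have c1 := S.card_perp_mul W
  have c3 : Nat.card F ^ (S.s + 2) = Nat.card (S.perp W) * γ := by
    rw [hγ, pow_succ' _ (S.s + 2), mul_assoc] at c1
    rw [← Nat.eq_of_mul_eq_mul_left (by omega) c1, mul_comm]
  have := Proj.CK.St.arith (τ := (Nat.card F - 1) * τ) (γ := γ)
    (κ := (orb (Fl ⊓ ps F G ψ) (F ∙ y)).ncard)
    (Nat.card_pos (α := S.perp W)) (Nat.mul_pos (by omega) t1) (by
      apply Nat.eq_of_mul_eq_mul_left (show 0 < Nat.card F - 1 by omega)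
      rw [← c3, mul_left_comm _ (_ - _), ← d, pow_succ' _ (S.s + 1)]; ring)
  rw [ncard_diff hxW, card_pt h.hx, hγ, t2, ← Nat.mul_sub_one]
  exact Nat.mul_le_mul_left _ this

end St

end Cfsg.Agent.Sing
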