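import Cfsg.Agent.Sing.KFld

/-!
# The Singer group is TI modulo scalars; the Frobenius alternative; the case `n ∤ q - 1`
-/

set_option autoImplicit false
set_option linter.unusedSectionVars false
set_option linter.style.haveILetI false

namespace Cfsg.Agent.Sing

open MulAction Pointwise Cfsg.Agent.Proj.CK

variable {F K G : Type*} [Field F] [Field K] [Algebra F K] [Finite F] [Finite K] [Group G]
  [Finite G] [DistribMulAction G K] [SMulCommClass G F K] {σ : G} {n : ℕ}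

theorem ti_geo (q k : ℕ) : q ^ k ≤ geo q (k + 1) :=
  Finset.single_le_sum (f := fun i => q ^ i) (fun _ _ => Nat.zero_le _) (Finset.self_mem_range_succ k)

theorem ti_two (k : ℕ) : 16 * (k + 13) ^ 2 < 2 ^ (k + 12) := by
  induction k with
  | zero => norm_num
  | succ k ih =>
    have : 16 * (k + 1 + 13) ^ 2 ≤ 2 * (16 * (k + 13) ^ 2) := by ring_nf; omega
    rw [show k + 1 + 12 = k + 12 + 1 by ring, pow_succ 2]
    omega

theorem S_le_N : sS K G ≤ sN K G := fun _ ⟨_, hk⟩ =>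
  ⟨fun l => ⟨l, fun v => by rw [hk, hk, mul_left_comm]⟩,
    fun l => ⟨l, fun v => by rw [hk, hk, mul_left_comm]⟩⟩

theorem S_ne {s : G} {k : K} (hk : ∀ x : K, s • x = k * x) : k ≠ 0 := by
  simpa [hk] using smul_ne0 (g := s) (one_ne_zero (α := K))

theorem Sg.ext' (D : Sg F K σ n) {g g' : G} (h : ∀ x : K, g • x = g' • x) : g = g' :=
  (inv_mul_eq_one.1 (D.faith _ fun x => by rw [mul_smul, h, inv_smul_smul])).symm

theorem Sg.S_comm (D : Sg F K σ n) : ∀ a ∈ sS K G, ∀ b ∈ sS K G, a * b = b * a :=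
  fun _ ⟨_, hk⟩ _ ⟨_, hl⟩ => D.ext' fun x => by simp only [mul_smul, hk, hl, mul_left_comm]

theorem Sg.pow_fr (D : Sg F K σ n) (i : ℕ) (x : K) : σ ^ i • x = x ^ Nat.card F ^ i := by
  induction i with
  | zero => simp
  | succ i ih => rw [pow_succ', mul_smul, ih, D.fr, ← pow_mul, pow_succ]

theorem Sg.pow_n (D : Sg F K σ n) : σ ^ n = 1 := D.faith _ fun x => by rw [D.pow_fr, D.pow_cK]

theorem Sg.σ_mem (D : Sg F K σ n) : σ ∈ sN K G :=
  ⟨fun k => ⟨_, fun v => by rw [D.fr, D.fr, mul_pow]⟩,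
    fun k => ⟨σ⁻¹ • k, fun v => by rw [D.fr, mul_pow, ← D.fr, ← D.fr, smul_inv_smul]⟩⟩

theorem N_conj : ∀ g ∈ sN K G, ∀ s ∈ sS K G, g * s * g⁻¹ ∈ sS K G := fun g hg s ⟨k, hk⟩ =>
  let ⟨k', h⟩ := hg.1 k
  ⟨k', fun x => by rw [mul_smul, mul_smul, hk, h, smul_inv_smul]⟩

/-- `h = |orb sS (F∙1)|` (`ncard_class`, `mul_ncard_class`, `orb_S_eq`, `ncard_pts`); `big`:
`h = geo q n ≥ 2^n - 1`, or `q > n` and `n h = geo q n ≥ q^(n-1)`.  `nZ`: scalars are central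
(`smul_comm`, `faith`).  `gen`: for `g ∈ sN`, `k ↦ g•k / g•1` is an `F`-algebra automorphism of `K`,
so a power of the Frobenius (`bijective_frobeniusAlgEquivOfAlgebraic_pow`), `g σ^-i ∈ sS`.
`pown`: `σ^n = 1`.  `ti`: `s = k·`, `k ∉ F`; the `k ∈ K` with `g (k·) g⁻¹ ∈ K·` form an
intermediate field `≠ ⊥`, so `⊤` (prime degree, `IntermediateField.isSimpleOrder_of_finrank_prime`);
the map `k ↦ k'` is injective, so surjective.  `fpf`: `k^(q^i) = c k`; as `σ` is a power of `σ^i`,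
`k` is a frame vector, and `N k = c'^n = c'^n N 1`, so `k ∈ F∙1` (`nu_inj`). -/
theorem Sg.tiz (D : Sg F K σ n) :
    ∃ h, TIZ (sZ F K G) (sS K G) (sN K G) σ n h ∧ (pts F K).ncard ≤ n * h := by
  have hq := two_le_q (F := F)
  obtain ⟨m, rfl⟩ := Nat.exists_eq_add_of_le' D.h13
  have g1 : Nat.card F ^ (m + 12) ≤ geo (Nat.card F) (m + 13) := ti_geo _ _
  have key : 16 * (m + 13) ^ 2 < (orb (sS K G) (F ∙ (1 : K))).ncard ∧
      (pts F K).ncard ≤ (m + 13) * (orb (sS K G) (F ∙ (1 : K))).ncard := by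
    by_cases hd : m + 13 ∣ Nat.card F - 1
    · have e := D.mul_ncard_class hd (one_ne_zero (α := K))
      refine ⟨Nat.lt_of_mul_lt_mul_left (a := m + 13) ?_, by rw [ncard_pts, D.rank, e]⟩
      have h1 := Nat.le_of_dvd (by omega) hd
      have h2 : (m + 13) ^ 5 ≤ Nat.card F ^ (m + 12) :=
        (Nat.pow_le_pow_left (by omega) 5).trans (Nat.pow_le_pow_right (by omega) (by omega))
      rw [e]
      refine lt_of_lt_of_le ?_ (h2.trans g1)
      rw [show (m + 13) ^ 5 = (m + 13) ^ 3 * (m + 13) ^ 2 by ring,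
        show (m + 13) * (16 * (m + 13) ^ 2) = (m + 13) ^ 3 * 16 by ring]
      exact Nat.mul_lt_mul_of_pos_left (by nlinarith [Nat.zero_le (m ^ 2)]) (by positivity)
    · rw [D.orb_S_eq hd one_ne_zero]
      refine ⟨?_, Nat.le_mul_of_pos_left _ (by omega)⟩
      rw [ncard_pts, D.rank]
      exact (ti_two m).trans_le ((Nat.pow_le_pow_left hq _).trans g1)
  refine ⟨_, ⟨D.prime, key.1, ⟨fun z ⟨c, hc⟩ g => ⟨c, fun x => ?_⟩⟩, Sg.Z_le_S, D.S_comm,
    (D.ncard_class one_ne_zero).symm, S_le_N, D.σ_mem, D.pow_n ▸ one_mem _, fun g hg => ?_, N_conj,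
    fun g s ⟨k, hk⟩ hs ⟨k', hk'⟩ => ?_, fun i i0 hi s ⟨k, hk⟩ ⟨c, hc⟩ => ?_⟩, key.2⟩
  · rw [mul_smul, mul_smul, hc, smul_comm, smul_inv_smul]
  · have g0 : g • (1 : K) ≠ 0 := smul_ne0 one_ne_zero
    have hf : ∀ k v : K, g • (k * v) = g • k * (g • (1 : K))⁻¹ * g • v := fun k v => by
      obtain ⟨k', h⟩ := hg.1 k
      rw [h, ← mul_one k, h, mul_inv_cancel_right₀ g0]
    let f : K →ₐ[F] K :=
      { toFun := fun k => g • k * (g • (1 : K))⁻¹
        map_one' := mul_inv_cancel₀ g0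
        map_mul' := fun k l => by rw [hf, mul_assoc]
        map_zero' := by simp
        map_add' := fun k l => by rw [smul_add, add_mul]
        commutes' := fun c => by
          rw [Algebra.algebraMap_eq_smul_one, smul_comm, smul_mul_assoc, mul_inv_cancel₀ g0] }
    obtain ⟨i, -, e⟩ := kf_aut (AlgEquiv.ofBijective f (Finite.injective_iff_bijective.1 f.injective))
    refine ⟨g * (σ ^ i)⁻¹, ⟨g • (1 : K), fun x => ?_⟩, i, (inv_mul_cancel_right _ _).symm⟩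
    have := e ((σ ^ i)⁻¹ • x)
    rw [← D.pow_fr, smul_inv_smul] at this
    rw [mul_smul, mul_comm]
    exact (mul_inv_eq_iff_eq_mul₀ g0).1 this
  · let A : Subalgebra F K :=
      { carrier := {k | ∃ k' : K, ∀ v : K, g • (k * v) = k' * g • v}
        mul_mem' := fun ⟨a, ha⟩ ⟨b, hb⟩ => ⟨a * b, fun v => by rw [mul_assoc, ha, hb, mul_assoc]⟩
        add_mem' := fun ⟨a, ha⟩ ⟨b, hb⟩ => ⟨a + b, fun v => by rw [add_mul, smul_add, ha, hb, add_mul]⟩
        algebraMap_mem' := fun c => ⟨algebraMap F K c, fun v => by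
          rw [← Algebra.smul_def, ← Algebra.smul_def, smul_comm]⟩ }
    have hA : k ∈ A := ⟨k', fun v => by rw [← hk', ← hk, mul_smul, mul_smul, inv_smul_smul]⟩
    have := ((Subalgebra.isSimpleOrder_of_finrank_prime F K (D.rank ▸ D.prime)).eq_bot_or_eq_top
      A).resolve_left fun r => hs (by
        obtain ⟨c, rfl⟩ := Algebra.mem_bot.1 (r ▸ hA)
        exact ⟨c, fun x => by rw [hk, Algebra.smul_def]⟩)
    have h1 : ∀ k, k ∈ A := fun k => this ▸ Algebra.mem_top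
    refine ⟨h1, fun l => ?_⟩
    choose φ hφ using h1
    obtain ⟨a, rfl⟩ := Finite.surjective_of_injective (f := φ) (fun a b r => by
      have := hφ a 1
      rw [r, ← hφ b 1] at this
      simpa using this) l
    exact ⟨a, hφ a⟩
  · have k0 := S_ne hk
    have := hc (s • (σ ^ i • 1))
    rw [mul_smul, inv_smul_smul, mul_smul, mul_smul, inv_smul_smul, D.pow_fr i 1, one_pow, hk,
      mul_one] at this
    obtain ⟨j, hj⟩ := exists_pow_eq_self_of_coprime (x := σ) (n := i) (Nat.Coprime.coprime_dvd_right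
      (orderOf_dvd_of_pow_eq_one D.pow_n) (Nat.coprime_of_lt_prime i0.ne' hi D.prime).symm)
    obtain ⟨c', e⟩ := (D.mu k k0).1 ⟨s, hk⟩
    obtain ⟨a, rfl⟩ := mem_pt.1 (D.nu_inj 1 k c' D.Fr_one
      ⟨k0, hj ▸ pow_mem (mem_ps_of_mem (this ▸ smul_mem_pt c k)) j⟩ (by rw [e, map_one, mul_one]))
    exact ⟨a, fun x => by rw [hk, smul_mul_assoc, one_mul]⟩

theorem Sg.scal (D : Sg F K σ n) {r : G} {E : Set K} (hE : E.ncard ≤ Nat.card F ^ 2)
    (h : ∀ x : K, x ≠ 0 → ∃ e ∈ E, r • x = e * x) : r ∈ sS K G := by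
  let U : Submodule F K :=
    { carrier := {x | r • x = r • (1 : K) * x}
      add_mem' := fun {a b} (ha : _ = _) (hb : _ = _) => by
        rw [Set.mem_setOf_eq, smul_add, ha, hb, mul_add]
      zero_mem' := by simp
      smul_mem' := fun c a (ha : _ = _) => by rw [Set.mem_setOf_eq, smul_comm, ha, mul_smul_comm] }
  refine ⟨r • 1, fun x => (?_ : x ∈ U)⟩
  by_contra hx
  have hq := two_le_q (F := F)
  have h1 := q_mul_card_le_of_lt (le_top : U ≤ ⊤) fun e => hx (e ▸ trivial)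
  have h2 := ncard_diff (le_top : U ≤ ⊤)
  have h3 : ((⊤ : Submodule F K) : Set K) \ U ⊆
      (fun p : K × K => (r • (1 : K) - p.2) / (p.2 - p.1)) '' E ×ˢ E := by
    rintro y ⟨-, hy⟩
    obtain ⟨a, ha, e1⟩ := h y (ne0_of_not_mem hy)
    obtain ⟨b, hb, e2⟩ := h (1 + y) (ne0_of_not_mem fun k =>
      hy ((U.add_mem_iff_right (mul_one _).symm).1 k))
    rw [smul_add, e1] at e2
    have : b - a ≠ 0 := fun k => hy (show r • y = _ by
      rw [e1]; linear_combination (-y) * e2 - (1 + y) * y * k)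
    exact ⟨(a, b), ⟨ha, hb⟩, by rw [div_eq_iff this]; linear_combination e2⟩
  have h4 := (Set.ncard_le_ncard h3).trans (Set.ncard_image_le (Set.toFinite _))
  rw [Set.ncard_prod, h2] at h4
  rw [card_top, D.cK] at h1 h4
  obtain ⟨m, rfl⟩ := Nat.exists_eq_add_of_le' D.h13
  have h5 := Nat.mul_le_mul hE hE
  have h6 : Nat.card F ^ (2 + 2) < Nat.card F ^ (m + 12) := Nat.pow_lt_pow_right (by omega) (by omega)
  rw [pow_succ' _ (m + 12)] at h1 h4
  have h7 := Nat.le_of_mul_le_mul_left h1 (by omega)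
  have h8 := Nat.mul_le_mul_right (Nat.card F ^ (m + 12)) hq
  rw [← pow_add] at h5
  omega

/-- It suffices to show `R ≤ sS`.  If `n ∤ q - 1`, `r ∈ R` fixes all points (`orb_S_eq`), so is a
scalar (`LinearMap.exists_eq_smul_id_of_forall_notLinearIndependent` or by hand).  Else, for a
frame vector `a` and `p = r • F∙a`: `σ p = s p` (`norm_fr`, `mem_orb_S`) and `σ p = r' r⁻¹ p`,
`r' = σ r σ⁻¹ ∈ R`, so `σ p = p`.  For `x = k a` (`exists_unique_fr`; `t = k· ∈ sS`) apply this to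
`t⁻¹ r t`: `r x = e x` with `e` a frame vector.  So `K = ⋃_e U e`, `U e = {x | r x = e x}` an
`F`-subspace, `U e ⊓ U e' = ⊥`, at most `n (q-1)` frame vectors `e` (`ncard_fr`).  If no `U e = ⊤`,
all but at most one have dimension `≤ (n-1)/2`, so `q^n ≤ q^(n-1) + n (q-1) q^((n-1)/2)`, false
since `n < q`, `n ≥ 13`. -/
theorem Sg.of_cII (D : Sg F K σ n) (h : CII (sS K G) (sN K G) (pts F K)) (g : G) : g ∈ sN K G := by
  obtain ⟨R, hn, hg, hf⟩ := h
  obtain ⟨r, hr, u, hu, rfl⟩ := hg g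
  refine mul_mem (S_le_N ?_) hu
  have hq := two_le_q (F := F)
  by_cases hd : n ∣ Nat.card F - 1
  · have A : ∀ r ∈ R, ∀ a : K, Fr F σ a → Fr F σ (r • a) := fun r hr a ha => by
      have r0 := smul_ne0 (g := r) ha.1
      obtain ⟨s, hs, e⟩ := (D.mem_orb_S r0 (smul_ne0 (g := σ) r0)).2
        ⟨1, by rw [D.norm_fr, one_pow, one_mul]⟩
      have e' : (σ * r * σ⁻¹ * r⁻¹) • (F ∙ (r • a)) = σ • (F ∙ (r • a)) := by
        rw [← smul_pt, mul_smul, inv_smul_smul, mul_smul, mul_smul,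
          mem_stabilizer_iff.1 ((ps F G a).inv_mem ha.2)]
      exact ⟨r0, e'.symm.trans (hf _ (mul_mem (hn σ D.σ_mem r hr) (inv_mem hr)) s hs _ (pt_mem_pts r0)
        (by rw [e', e, smul_pt]))⟩
    refine D.scal (E := {e | Fr F σ e}) ?_ fun x hx => ?_
    · have := ncard_dc (s := {e : K | Fr F σ e}) (t := {p | p ∈ pts F K ∧ σ • p = p}) (Set.toFinite _)
        (Set.toFinite _) (fun e p => p = F ∙ e) (m := 1) (k := Nat.card F - 1)
        (fun e he => Set.ncard_eq_one.2 ⟨F ∙ e, Set.eq_singleton_iff_unique_mem.2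
          ⟨⟨⟨pt_mem_pts he.1, he.2⟩, rfl⟩, fun _ h => h.2⟩⟩) (by
          rintro _ ⟨⟨a, a0, rfl⟩, ha⟩
          rw [← card_pt (F := F) a0, ← card_bot (F := F) (V := K), ← ncard_diff bot_le]
          congr 1
          ext e
          exact ⟨fun h => ⟨h.2 ▸ self_mem_pt e, h.1.1⟩, fun h =>
            ⟨⟨h.2, ps_congr (G := G) (pt_eq_of_mem h.2 h.1) ▸ ha⟩, (pt_eq_of_mem h.2 h.1).symm⟩⟩)
      rw [mul_one, D.ncard_fr hd] at this
      rw [this, pow_two]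
      exact Nat.mul_le_mul ((Nat.le_of_dvd (by omega) hd).trans (by omega)) (by omega)
    · obtain ⟨_, ⟨⟨t, ⟨k, hk⟩, rfl⟩, e⟩, -⟩ := D.exists_unique_fr hd hx
      rw [smul_pt] at e
      have ha : Fr F σ (t • x) := ⟨smul_ne0 hx, e⟩
      have hb := A _ (hn t (S_le_N ⟨k, hk⟩) r hr) _ ha
      rw [mul_smul, inv_smul_smul, mul_smul] at hb
      refine ⟨_, D.Fr_mul hb (D.Fr_inv ha), ?_⟩
      have := S_ne hk
      rw [hk, hk]
      field_simp
  · refine D.scal (E := (F ∙ (1 : K) : Submodule F K)) ?_ fun x hx => ?_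
    · rw [ncard_coe, card_pt one_ne_zero]; nlinarith
    · obtain ⟨s, hs, e⟩ : r • (F ∙ x) ∈ orb (sS K G) (F ∙ x) :=
        D.orb_S_eq hd hx ▸ inv_pts ⊤ r trivial _ (pt_mem_pts hx)
      obtain ⟨c, -, k⟩ := mem_ps.1 (hf r hr s hs _ (pt_mem_pts hx) e.symm)
      exact ⟨_, smul_mem_pt c 1, by rw [k, smul_mul_assoc, one_mul]⟩

/-- `F∙y = s • F∙x`, `F∙y' = t • F∙x'` with `s, t ∈ sS \ sZ`; `Nn s x y ≥ 1` (`w = F∙x`), so
`Nn t x y ≥ 1`: `g x = w`, `g y = t w`; `u w = F∙x'` with `u ∈ sS`, `u t = t u`; rescale (`hZ`). -/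
theorem Sg.t2_of_not_dvd (D : Sg F K σ n) (hd : ¬ n ∣ Nat.card F - 1)
    (h : CI (sZ F K G) (sS K G) (pts F K) n) : T2 F G K := by
  intro x y x' y' hx hy hx' hy'
  have ex : ∀ {x y : K}, x ≠ 0 → y ∉ (F ∙ x) →
      ∃ s ∈ sS K G, s ∉ sZ F K G ∧ s • (F ∙ x) = F ∙ y := fun {x y} hx hy => by
    obtain ⟨s, hs, e⟩ : (F ∙ y) ∈ orb (sS K G) (F ∙ x) :=
      D.orb_S_eq hd hx ▸ pt_mem_pts (ne0_of_not_mem hy)
    exact ⟨s, hs, fun r => hy (D.Z_triv s r _ (pt_mem_pts hx) ▸ e ▸ self_mem_pt y), e⟩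
  obtain ⟨s, s1, s2, s3⟩ := ex hx hy
  obtain ⟨t, t1, t2, t3⟩ := ex hx' hy'
  have h1 : 0 < Nn s (F ∙ x) (F ∙ y) :=
    (Set.ncard_pos).2 ⟨F ∙ x, 1, one_smul _ _, by rw [one_smul, s3]⟩
  rw [h.c1 s s1 s2 t t1 t2 _ (pt_mem_pts hx) _ (pt_mem_pts (ne0_of_not_mem hy))] at h1
  obtain ⟨_, g, rfl, e⟩ := (Set.ncard_pos).1 h1
  obtain ⟨u, u1, u2⟩ : g • (F ∙ x) ∈ orb (sS K G) (F ∙ x') :=
    D.orb_S_eq hd hx' ▸ inv_pts ⊤ g trivial _ (pt_mem_pts hx)
  rw [← u2, smul_smul, D.S_comm t t1 u u1, mul_smul, t3, ← inv_smul_eq_iff, smul_smul, smul_pt] at e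
  obtain ⟨a, a0, e⟩ := pt_eq_iff.1 e
  obtain ⟨z, hz⟩ := D.hZ a a0
  exact ⟨z * (u⁻¹ * g), by rw [mul_smul, mul_smul, ← u2, inv_smul_smul, smul_pt, hz, pt_smul a0],
    by rw [mul_smul, hz, e]⟩

end Cfsg.Agent.Sing
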