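import Cfsg.Agent.Sing.Four
import Cfsg.Agent.Sing.NoTri
import Cfsg.Agent.Sing.Polar

/-!
# Cameron–Kantor over `𝔽_q`: the counting result (port of the end of `Proj/CKTri`)
-/

set_option autoImplicit false
set_option linter.unusedSectionVars false
set_option linter.style.haveILetI false

namespace Cfsg.Agent.Sing

open MulAction Pointwise Cfsg.Agent.Proj.CK

variable {F G V V' : Type*} [Field F] [Group G] [AddCommGroup V] [AddCommGroup V']
  [Module F V] [Module F V'] [DistribMulAction G V] [DistribMulAction G V']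
  [SMulCommClass G F V] [SMulCommClass G F V'] [Finite F] [Finite V] [Finite V']
  [Finite G]

namespace St

variable {S : St F G V V'}

/-- `R x y z := x = 0 ∨ y ∈ F∙x ∨ ∃ φ, Sp x y φ ∧ b z φ = 0`.  `|Lam x y| = q` so `φ` is unique up
to a scalar (`hyp`, with `exists_sp'`, `sepR`).  `s12`: `Sp.symm`.  `s23`: let `Sp x y φ`,
`b z φ = 0`.  If `z ∈ pl x y \ F∙x`, `Sp x z φ` (`of_mem_pl`).  If `z ∉ pl x y`, `u = z - y`,
`cone2` gives `g ∈ Dl (pl x u)`, `g y = y + u = z`, `g u = c u`, so `g z = (1+c) z - c y`;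
`Sp x z (g φ)` and `b (g z) (g φ) = 0 = b z (g φ)` give `b y (g φ) = 0`.  The degenerate cases
(`R x y z` because `y ∈ F∙x`): `exists_sp'` for `x, z`.  Then `exists_tri`, `no_trilinear`
(`finrank = s + 3` from `cV`). -/
theorem HasG.ne_q (h : S.HasG (Nat.card F)) (hq : 3 ≤ Nat.card F) (hs : Even S.s)
    (hs0 : S.s ≠ 0) : False := by
  have hn : Module.finrank F V = S.s + 3 :=
    Nat.pow_right_injective (two_le_q (F := F))
      ((Module.natCard_eq_pow_finrank (K := F) (V := V)).symm.trans S.cV)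
  refine (exists_tri (F := F) (V := V) hq (by omega)
    (fun x y z => x = 0 ∨ y ∈ (F ∙ x) ∨ ∃ φ, S.Sp x y φ ∧ S.b z φ = 0) ?_ ?_
    (fun x y z h => h.imp_right Or.inl) ?_).elim fun f ⟨f1, f2, f3⟩ =>
      no_trilinear (by omega) (hn ▸ hs.add_odd (by decide)) f f1 f2 f3
  · rintro x y z (rfl | h1 | ⟨φ, h1, h2⟩)
    · exact Or.inr (Or.inl (zero_mem _))
    · by_cases hy : y = 0
      · exact Or.inl hy
      · exact Or.inr (Or.inl (pt_eq_of_mem hy h1 ▸ self_mem_pt x))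
    · exact Or.inr (Or.inr ⟨φ, h1.symm, h2⟩)
  · intro x y z h1
    by_cases hx : x = 0
    · exact Or.inl hx
    by_cases hz : z ∈ (F ∙ x)
    · exact Or.inr (Or.inl hz)
    refine Or.inr (Or.inr ?_)
    rcases h1 with h1 | h1 | ⟨φ, h1, h2⟩
    · exact absurd h1 hx
    · obtain ⟨φ, h2⟩ := S.exists_sp' hx hz
      exact ⟨φ, h2, S.mem_perp_pt.2 h2.xφ y h1⟩
    by_cases hzy : z ∈ pl F x y
    · exact ⟨φ, h1.of_mem_pl (left_mem_pl _ _) hzy hx hz, h1.yφ⟩
    have hu : z - y ∉ (F ∙ x) := fun hc =>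
      hzy (by simpa using add_mem (pt_le_pl x y hc) (right_mem_pl x y))
    obtain ⟨g, g1, g2⟩ := S.cone2 hx hu (z := y) (fun hc => hzy (by
      rw [pl_eq_of_mem (left_mem_pl _ _) hc hx h1.yx]
      simpa using add_mem (right_mem_pl (F := F) x (z - y)) hc)) (right_mem_pl _ _)
    rw [add_sub_cancel] at g2
    obtain ⟨c, hc, g3⟩ := mem_ps.1 (mem_Dl.1 g1 _ (right_mem_pl _ _))
    have g4 := mem_ps'.1 (mem_Dl.1 g1 _ (left_mem_pl _ _))
    have h3 : S.Sp x z (g • φ) := (h1.smul g).congr g4.symm (by rw [pl, pl, g4, g2]) rfl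
    refine ⟨_, h3, ?_⟩
    have h4 : S.b (g • (z - y)) (g • φ) = 0 := by
      rw [S.inv, map_sub, LinearMap.sub_apply, h2, h1.yφ, sub_zero]
    rw [g3] at h4
    simpa [h3.yφ, hc] using h4
  · intro x y hx hyx
    obtain ⟨φ, h1⟩ := S.exists_sp' hx hyx
    refine ⟨S.b.flip φ, fun e => h1.hφ (S.sepR φ fun v => LinearMap.congr_fun e v), fun z =>
      ⟨?_, fun h2 => Or.inr (Or.inr ⟨φ, h1, h2⟩)⟩⟩
    rintro (h2 | h2 | ⟨ψ, h2, h3⟩)
    · exact absurd h2 hx
    · exact absurd h2 hyx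
    have e : (F ∙ ψ) = S.Lam x y := eq_of_le_of_card_ge (pt_le.2 (mem_Lam.2 (Or.inr h2)))
      (by rw [h.cL hx hyx, card_pt h2.hφ])
    obtain ⟨a, rfl⟩ := mem_pt.1 (e ▸ mem_Lam.2 (Or.inr h1) : φ ∈ (F ∙ ψ))
    simp [h3]

theorem HasG.dvd_card {γ : ℕ} (h : S.HasG γ) (e : Nat.card F ^ 2 * γ = Nat.card F ^ (S.s + 3)) :
    geo (Nat.card F) (S.s + 3) * (Nat.card F * geo (Nat.card F) (S.s + 2)) *
      geo (Nat.card F) (S.s + 1) ∣ Nat.card G := by
  have hq := two_le_q (F := F)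
  obtain ⟨x, φ, h1, h2, h3⟩ := S.exists_flag
  obtain ⟨y, h4⟩ := S.exists_sp h1 h2 h3
  have := S.flip.ncard_orb_mul' (A := ps F G x ⊓ ps F G y)
    (le_inf (S.Z_le_stab _) (S.Z_le_stab _)) h2
  rw [h4.ncard_orb', h.cL h1 h4.yx, show γ = Nat.card F ^ (S.s + 1) by
    rw [show S.s + 3 = 2 + (S.s + 1) by ring, pow_add _ 2] at e
    exact Nat.eq_of_mul_eq_mul_left (by positivity) e, ← geo_mul (by omega), mul_assoc] at this
  rw [S.card_G h1, S.card_pair h1 h4.yx, ← Nat.eq_of_mul_eq_mul_left (by omega) this]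
  exact Dvd.intro _ (by rw [mul_assoc, mul_assoc _ _ (_ * _)])

variable (S) in
/-- as in `CKTri`: `exists_hasG` for `S` and `S.flip`; `HasG.ne_q`, `hyp_of`, `Hyp.false` leave
`q² γ = q^(s+3)` for one of them, and then the orbit of `φ` under `ps x ⊓ ps y` has
`q^(s+1) - 1 = (q-1) geo q (s+1)` elements; `card_G`, `card_pair` (both for `S` and `S.flip`). -/
theorem dvd_card (hq : 3 ≤ Nat.card F) (hs : Even S.s) (hs0 : S.s ≠ 0) {x y : V} (hx : x ≠ 0)
    (hyx : y ∉ (F ∙ x)) : geo (Nat.card F) (S.s + 1) ∣ Nat.card ↥(ps F G x ⊓ ps F G y) := by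
  have : geo (Nat.card F) (S.s + 3) * (Nat.card F * geo (Nat.card F) (S.s + 2)) *
      geo (Nat.card F) (S.s + 1) ∣ Nat.card G := by
    obtain ⟨γ, h⟩ := S.exists_hasG
    obtain ⟨γ', h'⟩ := S.flip.exists_hasG
    by_cases e : Nat.card F ^ 2 * γ = Nat.card F ^ (S.s + 3)
    · exact h.dvd_card e
    by_cases e' : Nat.card F ^ 2 * γ' = Nat.card F ^ (S.s + 3)
    · exact h'.dvd_card e'
    exfalso
    obtain ⟨g, hg⟩ := h.pow
    obtain ⟨g', hg'⟩ := h'.pow
    rcases g with _ | g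
    · rw [hg, zero_add, pow_one] at h; exact HasG.ne_q h hq hs hs0
    rcases g' with _ | g'
    · rw [hg', zero_add, pow_one] at h'; exact HasG.ne_q h' hq hs hs0
    exact (hyp_of h h' ⟨Nat.card F ^ g, by rw [hg]; ring⟩ ⟨Nat.card F ^ g', by rw [hg']; ring⟩
      e).false hs
  rw [S.card_G hx, S.card_pair hx hyx, ← mul_assoc _ (_ * _) (Nat.card _)] at this
  refine Nat.dvd_of_mul_dvd_mul_left (Nat.mul_pos ?_ (Nat.mul_pos Nat.card_pos ?_)) this <;>
  · rw [geo_succ]; omega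

end St

end Cfsg.Agent.Sing
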